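import Cfsg.Agent.Lib.H22.GalLocal
import Cfsg.Agent.Lib.H22.BlockField
import Cfsg.Agent.Lib.H22.Blocks

/-! # Block relations do not depend on the chosen maximal ideal above the prime -/

set_option autoImplicit false
set_option linter.unusedSectionVars false
set_option linter.style.haveILetI false
set_option linter.unusedSimpArgs false
set_option linter.unusedVariables false

namespace Cfsg.Agent.H15.BlockAll

open Cfsg Cfsg.Agent.H21 Cfsg.Agent.H22 Module Polynomial

universe u

theorem lift_multiset {M : Ideal AlgInt} (R : Multiset ℂ)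
    (h : ∀ r ∈ R, ∃ a : AlgInt, a ∈ M ∧ (a : ℂ) = r) :
    ∃ R' : Multiset AlgInt, Multiset.map (fun a : AlgInt => (a : ℂ)) R' = R ∧ ∀ a ∈ R', a ∈ M := by
  induction R using Multiset.induction_on with
  | empty => exact ⟨0, by simp, by simp⟩
  | cons r R ih =>
    obtain ⟨R', h1, h2⟩ := ih fun s hs => h s (Multiset.mem_cons_of_mem hs)
    obtain ⟨a, ha, har⟩ := h r (Multiset.mem_cons_self r R)
    refine ⟨a ::ₘ R', by rw [Multiset.map_cons, h1, har], ?_⟩
    intro b hb
    rcases Multiset.mem_cons.1 hb with rfl | hb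
    · exact ha
    · exact h2 b hb

/-- If all conjugates of a cyclotomic algebraic integer lie in `M`, it lies in every maximal ideal
above the same prime. -/
theorem mem_of_all_conj_mem {p n : ℕ} (hn : n ≠ 0) {M M' : Ideal AlgInt} (hM : IsPModular p M)
    (hM' : IsPModular p M') {x : ℂ} (hxint : IsIntegral ℤ x)
    (hxE : x ∈ IntermediateField.adjoin ℚ ({Complex.exp (2 * Real.pi * Complex.I / (n : ℂ))} : Set ℂ))
    (hconj : ∀ τ : ℂ →+* ℂ, MemLocalIdeal M (τ x)) :
    ∃ r : AlgInt, r ∈ M' ∧ (r : ℂ) = x := by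
  classical
  haveI hMp : M.IsPrime := hM.2.1.isPrime
  haveI hMp' : M'.IsPrime := hM'.2.1.isPrime
  set ζ := Complex.exp (2 * Real.pi * Complex.I / (n : ℂ)) with hζd
  have hζ : IsPrimitiveRoot ζ n := Complex.isPrimitiveRoot_exp n hn
  haveI : NeZero n := ⟨hn⟩
  let E : IntermediateField ℚ ℂ := IntermediateField.adjoin ℚ {ζ}
  have halg : IsAlgebraic ℚ ζ := by
    refine ⟨Polynomial.X ^ n - 1, Polynomial.X_pow_sub_C_ne_zero (Nat.pos_of_ne_zero hn) (1 : ℚ), ?_⟩
    simp [hζ.pow_eq_one]
  have hcyc : IsCyclotomicExtension {n} ℚ E := by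
    change IsCyclotomicExtension {n} ℚ E.toSubalgebra
    simp only [E]
    rw [IntermediateField.adjoin_simple_toSubalgebra_of_isAlgebraic halg]
    exact hζ.adjoin_isCyclotomicExtension ℚ
  haveI hgal : IsGalois ℚ E := IsCyclotomicExtension.isGalois {n} ℚ E
  haveI : FiniteDimensional ℚ E := IsCyclotomicExtension.finiteDimensional {n} ℚ E
  set x' : E := ⟨x, hxE⟩ with hx'
  have hxint' : IsIntegral ℤ x' := by
    have : IsIntegral ℤ (algebraMap E ℂ x') := hxint
    exact (isIntegral_algebraMap_iff (algebraMap E ℂ).injective).1 this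
  set Q : ℤ[X] := minpoly ℤ x' with hQ
  have hQm : Q.Monic := minpoly.monic hxint'
  have hQP : Q.map (algebraMap ℤ ℚ) = minpoly ℚ x' := by
    rw [hQ]
    exact (minpoly.isIntegrallyClosed_eq_field_fractions' ℚ hxint').symm
  -- the conjugates
  have hroots : ∀ r ∈ (Q.map (algebraMap ℤ E)).roots, ∃ a : AlgInt, a ∈ M ∧ (a : ℂ) = ((r : E) : ℂ) := by
    intro r hr
    have hr0 : Polynomial.aeval r (minpoly ℚ x') = 0 := by
      have h1 := (Polynomial.mem_roots'.1 hr).2
      rw [Polynomial.IsRoot.def] at h1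
      rw [← hQP, Polynomial.aeval_map_algebraMap, Polynomial.aeval_def]
      rw [Polynomial.eval_map] at h1
      exact h1
    obtain ⟨σ, hσ⟩ := minpoly.exists_algEquiv_of_root' (Algebra.IsAlgebraic.isAlgebraic x') hr0
    obtain ⟨τ, hτ⟩ := H06.exists_ringHom_extend (K := E) σ.toRingEquiv
    have hτx : τ x = (r : ℂ) := by
      have h1 := hτ x'
      have h2 : (σ.toRingEquiv x') = r := hσ
      rw [h2] at h1
      exact h1
    have h3 : IsIntegral ℤ (r : ℂ) := by
      rw [← hτx]
      exact hxint.map τ.toIntAlgHom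
    refine ⟨⟨(r : ℂ), h3⟩, ?_, rfl⟩
    apply mli_algInt_iff.1
    change MemLocalIdeal M (r : ℂ)
    rw [← hτx]
    exact hconj τ
  have hsplit : (Q.map (algebraMap ℤ E)).Splits := by
    have h1 := Normal.splits hgal.to_normal x'
    rw [← hQP, Polynomial.map_map] at h1
    have h2 : (algebraMap ℚ E).comp (algebraMap ℤ ℚ) = algebraMap ℤ E := RingHom.ext_int _ _
    rwa [h2] at h1
  have hprod := hsplit.eq_prod_roots_of_monic (hQm.map _)
  set R : Multiset ℂ := (Q.map (algebraMap ℤ E)).roots.map (fun a => ((a : E) : ℂ)) with hR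
  obtain ⟨R', hR'1, hR'2⟩ := lift_multiset (M := M) R (by
    intro r hr
    obtain ⟨s, hs, rfl⟩ := Multiset.mem_map.1 hr
    exact hroots s hs)
  let ι : AlgInt →+* ℂ := algebraMap AlgInt ℂ
  have hι : Function.Injective ι := Subtype.val_injective
  have hQA : Q.map (algebraMap ℤ AlgInt) = (R'.map fun a => X - C a).prod := by
    apply Polynomial.map_injective ι hι
    rw [Polynomial.map_map, Polynomial.map_multiset_prod, Multiset.map_map]
    have h1 : (fun f : AlgInt[X] => f.map ι) ∘ (fun a : AlgInt => X - C a)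
        = (fun b : ℂ => X - C b) ∘ (fun a : AlgInt => (a : ℂ)) := by
      funext a
      simp [ι]
    rw [h1, ← Multiset.map_map, hR'1, hR, Multiset.map_map]
    have h2 := congrArg (Polynomial.map (algebraMap E ℂ)) hprod
    rw [Polynomial.map_map, Polynomial.map_multiset_prod, Multiset.map_map] at h2
    have h3 : ι.comp (algebraMap ℤ AlgInt) = (algebraMap E ℂ).comp (algebraMap ℤ E) :=
      RingHom.ext_int _ _
    rw [h3, h2]
    congr 1
    refine Multiset.map_congr rfl fun a _ => ?_
    simp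
  -- coefficients
  have hcoeff : ∀ j, j ≠ Q.natDegree → (p : ℤ) ∣ Q.coeff j := by
    have h1 : (Q.map (algebraMap ℤ AlgInt)).map (Ideal.Quotient.mk M) = X ^ (Multiset.card R') := by
      rw [hQA, Polynomial.map_multiset_prod, Multiset.map_map]
      have h2 : ∀ a ∈ R', ((fun f : AlgInt[X] => f.map (Ideal.Quotient.mk M)) ∘ (fun a : AlgInt => X - C a)) a
          = (X : (AlgInt ⧸ M)[X]) := by
        intro a ha
        have h3 : Ideal.Quotient.mk M a = 0 := Ideal.Quotient.eq_zero_iff_mem.2 (hR'2 a ha)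
        simp [h3]
      rw [Multiset.map_congr rfl h2, Multiset.map_const', Multiset.prod_replicate]
    have hdeg : Multiset.card R' = Q.natDegree := by
      have h2 := congrArg Polynomial.natDegree hQA
      have hmonic : ∀ f ∈ R'.map (fun a => (X - C a : AlgInt[X])), f.Monic := by
        intro f hf
        obtain ⟨a, -, rfl⟩ := Multiset.mem_map.1 hf
        exact monic_X_sub_C a
      rw [natDegree_multiset_prod_X_sub_C_eq_card] at h2
      rw [← h2]
      exact (hQm.natDegree_map _)
    intro j hj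
    have h2 := congrArg (fun f => Polynomial.coeff f j) h1
    simp only [Polynomial.coeff_map, coeff_X_pow, hdeg, if_neg hj] at h2
    have h3 : ((algebraMap ℤ AlgInt (Q.coeff j)) : AlgInt) ∈ M := Ideal.Quotient.eq_zero_iff_mem.1 h2
    have h4 : MemLocalIdeal M (Q.coeff j : ℂ) := by
      have := mli_algInt_iff.2 h3
      simpa using this
    exact (H21.mli_intCast_iff hM _).1 h4
  -- the element
  let xA : AlgInt := ⟨x, hxint⟩
  refine ⟨xA, ?_, rfl⟩
  have hroot : Polynomial.aeval xA Q = 0 := by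
    have h1 : Polynomial.aeval x' Q = 0 := minpoly.aeval ℤ x'
    have h2 := congrArg (algebraMap E ℂ) h1
    rw [map_zero, ← Polynomial.aeval_algebraMap_apply] at h2
    apply hι
    rw [map_zero, ← h2]
    show ι (Polynomial.aeval xA Q) = _
    rw [← Polynomial.aeval_algebraMap_apply]
    rfl
  have hX : Q.map (Ideal.Quotient.mk M' |>.comp (algebraMap ℤ AlgInt)) = X ^ Q.natDegree := by
    ext j
    rw [Polynomial.coeff_map, coeff_X_pow]
    split_ifs with hj
    · subst hj
      have : Q.coeff Q.natDegree = 1 := hQm.coeff_natDegree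
      rw [this]
      simp
    · obtain ⟨c, hc⟩ := hcoeff j hj
      rw [hc]
      have h5 : (Ideal.Quotient.mk M' (p : AlgInt)) = 0 := Ideal.Quotient.eq_zero_iff_mem.2 hM'.2.2
      rw [RingHom.comp_apply, map_mul, map_mul]
      have h6 : algebraMap ℤ AlgInt (p : ℤ) = (p : AlgInt) := by simp
      rw [h6, h5, zero_mul]
  have hfin : (Ideal.Quotient.mk M' xA) ^ Q.natDegree = 0 := by
    have h1 := congrArg (Ideal.Quotient.mk M') hroot
    rw [map_zero, Polynomial.aeval_def, Polynomial.hom_eval₂] at h1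
    rw [Polynomial.eval₂_eq_eval_map, hX, eval_pow, eval_X] at h1
    exact h1
  exact hMp'.mem_of_pow_mem _ (Ideal.Quotient.eq_zero_iff_mem.1 (by rw [map_pow]; exact hfin))

variable {G : Type u} [Group G] [Finite G]

theorem centralizer_pow_coprime {k : ℕ} (hk : k.Coprime (Nat.card G)) (g : G) :
    Subgroup.centralizer ({g ^ k} : Set G) = Subgroup.centralizer ({g} : Set G) := by
  have hk' : k.Coprime (orderOf g) := Nat.Coprime.coprime_dvd_right (orderOf_dvd_natCard g) hk
  obtain ⟨l, hl⟩ := exists_pow_eq_self_of_coprime hk'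
  ext y
  rw [Subgroup.mem_centralizer_singleton_iff, Subgroup.mem_centralizer_singleton_iff]
  constructor
  · intro h
    have h2 : Commute y (g ^ k) := h
    have h3 : Commute y ((g ^ k) ^ l) := h2.pow_right l
    rw [hl] at h3
    exact h3
  · intro h
    have h2 : Commute y g := h
    exact h2.pow_right k

/-- Ring endomorphisms of `ℂ` permute the central characters. -/
theorem map_centralChar (χ : IrrCharacter G) (g : G) {ζ : ℂ}
    (hζ : IsPrimitiveRoot ζ (Nat.card G)) {τ : ℂ →+* ℂ} {k : ℕ} (hk : τ ζ = ζ ^ k)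
    (hc : k.Coprime (Nat.card G)) :
    τ (centralChar χ.1 g) = centralChar χ.1 (g ^ k) := by
  unfold centralChar
  rw [map_div₀, map_mul, map_natCast, character_map (isCharacter_of_irr χ.2) g hζ hk,
    character_map (isCharacter_of_irr χ.2) 1 hζ hk, one_pow, centralizer_pow_coprime hc]

theorem exists_pow_of_ringHom (τ : ℂ →+* ℂ) {ζ : ℂ} {n : ℕ} (hn : n ≠ 0) (hζ : IsPrimitiveRoot ζ n) :
    ∃ k : ℕ, τ ζ = ζ ^ k ∧ k.Coprime n := by
  haveI : NeZero n := ⟨hn⟩
  have hτζ : (τ ζ) ^ n = 1 := by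
    rw [← map_pow, hζ.pow_eq_one, map_one]
  obtain ⟨k, -, hk⟩ := hζ.eq_pow_of_pow_eq_one hτζ
  have hprim : IsPrimitiveRoot (τ ζ) n := hζ.map_of_injective τ.injective
  rw [← hk] at hprim
  exact ⟨k, hk.symm, (hζ.pow_iff_coprime (Nat.pos_of_ne_zero hn) k).mp hprim⟩

theorem centralChar_mem_adjoin (χ : IrrCharacter G) (g : G) :
    centralChar χ.1 g ∈ IntermediateField.adjoin ℚ
      ({Complex.exp (2 * Real.pi * Complex.I / ((Nat.card G : ℕ) : ℂ))} : Set ℂ) := by
  classical
  have hn0 : Nat.card G ≠ 0 := Nat.card_pos.ne'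
  set ζ := Complex.exp (2 * Real.pi * Complex.I / ((Nat.card G : ℕ) : ℂ)) with hζd
  have hζ : IsPrimitiveRoot ζ (Nat.card G) := Complex.isPrimitiveRoot_exp _ hn0
  have hζE : ζ ∈ IntermediateField.adjoin ℚ ({ζ} : Set ℂ) :=
    IntermediateField.mem_adjoin_simple_self ℚ ζ
  have hchar : ∀ y : G, χ.1 y ∈ IntermediateField.adjoin ℚ ({ζ} : Set ℂ) := by
    intro y
    obtain ⟨ι, _, e, he⟩ := character_eq_sum_pow (isCharacter_of_irr χ.2) y hζ
    have h1 := he 1
    rw [pow_one, pow_one] at h1
    rw [h1]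
    exact sum_mem fun i _ => pow_mem hζE _
  unfold centralChar
  refine div_mem (mul_mem (natCast_mem _ _) (hchar g)) (hchar 1)

/-- The statement: the block relation does not depend on the maximal ideal above the prime. -/
theorem sameBlock_all {p : ℕ} {M M' : Ideal AlgInt} (hM : IsPModular p M) (hM' : IsPModular p M')
    (χ ψ : IrrCharacter G) (h : SameBlock M χ.1 ψ.1) (g : G) :
    ∃ r : AlgInt, r ∈ M' ∧ (r : ℂ) = centralChar χ.1 g - centralChar ψ.1 g := by
  have hn0 : Nat.card G ≠ 0 := Nat.card_pos.ne'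
  refine mem_of_all_conj_mem (n := Nat.card G) hn0 hM hM' ?_ ?_ ?_
  · exact (cc_isIntegral g χ).sub (cc_isIntegral g ψ)
  · exact sub_mem (centralChar_mem_adjoin χ g) (centralChar_mem_adjoin ψ g)
  · intro τ
    have hζ : IsPrimitiveRoot (Complex.exp (2 * Real.pi * Complex.I / ((Nat.card G : ℕ) : ℂ))) (Nat.card G) :=
      Complex.isPrimitiveRoot_exp _ hn0
    obtain ⟨k, hk, hc⟩ := exists_pow_of_ringHom τ hn0 hζ
    rw [map_sub, map_centralChar χ g hζ hk hc, map_centralChar ψ g hζ hk hc]
    exact h (g ^ k)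

end Cfsg.Agent.H15.BlockAll
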