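import Mathlib

/-! # Integer vectors of norm two and three with prescribed inner products -/

set_option autoImplicit false
set_option linter.unusedSectionVars false

namespace Cfsg.Agent.H15.Dih

section Vec

variable {X : Type*} [DecidableEq X]

theorem entry_le (S : Finset X) (x : X → ℤ) (h : ∑ a ∈ S, x a * x a ≤ 3) :
    ∀ a ∈ S, x a = 0 ∨ x a = 1 ∨ x a = -1 := by
  intro a ha
  have h1 : x a * x a ≤ ∑ a ∈ S, x a * x a :=
    Finset.single_le_sum (f := fun a => x a * x a) (fun i _ => mul_self_nonneg _) ha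
  have h2 : x a * x a ≤ 3 := h1.trans h
  have h3 : x a ≤ 1 := by nlinarith
  have h4 : -1 ≤ x a := by nlinarith
  omega

theorem card_support (S : Finset X) (x : X → ℤ) (h : ∑ a ∈ S, x a * x a ≤ 3) :
    ((S.filter fun a => x a ≠ 0).card : ℤ) = ∑ a ∈ S, x a * x a := by
  have h1 := entry_le S x h
  have h2 : ∑ a ∈ S, x a * x a = ∑ a ∈ S, if x a ≠ 0 then 1 else 0 := by
    refine Finset.sum_congr rfl fun a ha => ?_
    rcases h1 a ha with h3 | h3 | h3 <;> simp [h3]
  rw [h2, ← Finset.sum_filter, Finset.sum_const, nsmul_eq_mul, mul_one]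

theorem sum_two (S : Finset X) (y u : X → ℤ) {α β : X} (hα : α ∈ S) (hβ : β ∈ S) (hne : α ≠ β)
    (h0 : ∀ a ∈ S, a ≠ α → a ≠ β → u a = 0) :
    ∑ a ∈ S, y a * u a = y α * u α + y β * u β := by
  have h1 : ({α, β} : Finset X) ⊆ S := by
    intro a ha
    simp only [Finset.mem_insert, Finset.mem_singleton] at ha
    rcases ha with rfl | rfl <;> assumption
  rw [← Finset.sum_subset h1, Finset.sum_pair hne]
  intro a ha ha2
  simp only [Finset.mem_insert, Finset.mem_singleton, not_or] at ha2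
  rw [h0 a ha ha2.1 ha2.2, mul_zero]

theorem two_entry (S : Finset X) (d u : X → ℤ) (hd : ∀ a ∈ S, 1 ≤ d a)
    (hu : ∑ a ∈ S, u a * u a = 2) (hdu : ∑ a ∈ S, d a * u a = 1) :
    ∃ α ∈ S, ∃ β ∈ S, α ≠ β ∧ u α = 1 ∧ u β = -1 ∧ ∀ a ∈ S, a ≠ α → a ≠ β → u a = 0 := by
  have hle : ∑ a ∈ S, u a * u a ≤ 3 := by omega
  have hent := entry_le S u hle
  have hcard : (S.filter fun a => u a ≠ 0).card = 2 := by
    have := card_support S u hle
    rw [hu] at this
    exact_mod_cast this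
  obtain ⟨α, β, hne, hT⟩ := Finset.card_eq_two.mp hcard
  have hαm : α ∈ S ∧ u α ≠ 0 := by
    have : α ∈ S.filter fun a => u a ≠ 0 := by rw [hT]; simp
    simpa using this
  have hβm : β ∈ S ∧ u β ≠ 0 := by
    have : β ∈ S.filter fun a => u a ≠ 0 := by rw [hT]; simp
    simpa using this
  have h0 : ∀ a ∈ S, a ≠ α → a ≠ β → u a = 0 := by
    intro a ha h1 h2
    by_contra h
    have h3 : a ∈ S.filter fun a => u a ≠ 0 := Finset.mem_filter.mpr ⟨ha, h⟩
    rw [hT] at h3
    simp only [Finset.mem_insert, Finset.mem_singleton] at h3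
    tauto
  have hs := sum_two S d u hαm.1 hβm.1 hne h0
  rw [hdu] at hs
  have h1 := hd α hαm.1
  have h2 := hd β hβm.1
  rcases hent α hαm.1 with h3 | h3 | h3
  · exact absurd h3 hαm.2
  · rcases hent β hβm.1 with h4 | h4 | h4
    · exact absurd h4 hβm.2
    · rw [h3, h4] at hs
      omega
    · exact ⟨α, hαm.1, β, hβm.1, hne, h3, h4, h0⟩
  · rcases hent β hβm.1 with h4 | h4 | h4
    · exact absurd h4 hβm.2
    · exact ⟨β, hβm.1, α, hαm.1, hne.symm, h4, h3, fun a ha h5 h6 => h0 a ha h6 h5⟩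
    · rw [h3, h4] at hs
      omega

theorem pr_entry (S : Finset X) (d u w : X → ℤ) (hd : ∀ a ∈ S, 1 ≤ d a)
    (hu : ∑ a ∈ S, u a * u a = 2) (hdu : ∑ a ∈ S, d a * u a = 1)
    (hw : ∑ a ∈ S, w a * w a = 3) (hwu : ∑ a ∈ S, w a * u a = 1) :
    ∃ p ∈ S, ∃ r ∈ S, ∃ σ : ℤ, (σ = 1 ∨ σ = -1) ∧ p ≠ r ∧ w p = σ ∧ w r = 0 ∧ u p = σ ∧
      u r = -σ ∧ ∀ a ∈ S, a ≠ p → a ≠ r → u a = 0 := by
  obtain ⟨α, hα, β, hβ, hne, h1, h2, h0⟩ := two_entry S d u hd hu hdu
  have hs := sum_two S w u hα hβ hne h0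
  rw [hwu, h1, h2] at hs
  have hent := entry_le S w (by omega)
  rcases hent α hα with h3 | h3 | h3 <;> rcases hent β hβ with h4 | h4 | h4 <;> rw [h3, h4] at hs
    <;> try omega
  · -- `w α = 0`, `w β = -1`
    exact ⟨β, hβ, α, hα, -1, Or.inr rfl, hne.symm, h4, h3, h2, by rw [h1]; norm_num,
      fun a ha h5 h6 => h0 a ha h6 h5⟩
  · -- `w α = 1`, `w β = 0`
    exact ⟨α, hα, β, hβ, 1, Or.inl rfl, hne, h3, h4, h1, h2, h0⟩

/-- The main combinatorial statement for the dihedral principal block. -/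
theorem dih_comb {I : Type*} (S : Finset X) (d w : X → ℤ) (u : I → X → ℤ) (R : I → I → Prop)
    (hd : ∀ a ∈ S, 1 ≤ d a) (hww : ∑ a ∈ S, w a * w a = 3) (hdw : ∑ a ∈ S, d a * w a = 1)
    (huR : ∀ i j, R i j → ∑ a ∈ S, u j a * u i a = 2)
    (hunR : ∀ i j, ¬ R i j → ∑ a ∈ S, u j a * u i a = 1)
    (hwu : ∀ i, ∑ a ∈ S, w a * u i a = 1) (hdu : ∀ i, ∑ a ∈ S, d a * u i a = 1)
    (hrefl : ∀ i, R i i) (hthird : ∀ i j, ¬ R i j → ∃ k, ¬ R i k ∧ ¬ R j k) (i₀ : I) :
    ∃ (p b c : X) (σ₀ s₁ s₂ : ℤ) (r : I → X), p ∈ S ∧ b ∈ S ∧ c ∈ S ∧ p ≠ b ∧ p ≠ c ∧ b ≠ c ∧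
      (σ₀ = 1 ∨ σ₀ = -1) ∧ (s₁ = 1 ∨ s₁ = -1) ∧ (s₂ = 1 ∨ s₂ = -1) ∧ w p = σ₀ ∧ w b = s₁ ∧ w c = s₂ ∧
      (∀ a ∈ S, a ≠ p → a ≠ b → a ≠ c → w a = 0) ∧
      ∀ i, r i ∈ S ∧ r i ≠ p ∧ r i ≠ b ∧ r i ≠ c ∧ u i p = σ₀ ∧ u i (r i) = -σ₀ ∧
        (∀ a ∈ S, a ≠ p → a ≠ r i → u i a = 0) ∧ ∀ j, R i j ↔ r i = r j := by
  classical
  have hpr : ∀ i, ∃ p ∈ S, ∃ r ∈ S, ∃ σ : ℤ, (σ = 1 ∨ σ = -1) ∧ p ≠ r ∧ w p = σ ∧ w r = 0 ∧
      u i p = σ ∧ u i r = -σ ∧ ∀ a ∈ S, a ≠ p → a ≠ r → u i a = 0 := fun i =>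
    pr_entry S d (u i) w hd (huR i i (hrefl i)) (hdu i) hww (hwu i)
  choose p hpS r hrS σ hσ hne hwp hwr hup hur hu0 using hpr
  have hσ0 : ∀ i, σ i ≠ 0 := fun i => by
    rcases hσ i with h | h <;> rw [h] <;> norm_num
  have hval : ∀ i j, u j (p i) = if p i = p j then σ j else 0 := by
    intro i j
    split_ifs with h
    · rw [h, hup]
    · apply hu0 j _ (hpS i) h
      intro h2
      have h3 := hwp i
      rw [h2, hwr] at h3
      exact hσ0 i h3.symm
  have hval2 : ∀ i j, u j (r i) = if r i = r j then -σ j else 0 := by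
    intro i j
    split_ifs with h
    · rw [h, hur]
    · apply hu0 j _ (hrS i) _ h
      intro h2
      have h3 := hwp j
      rw [← h2, hwr] at h3
      exact hσ0 j h3.symm
  have hip : ∀ i j, ∑ a ∈ S, u j a * u i a =
      σ i * (if p i = p j then σ j else 0) + σ i * (if r i = r j then σ j else 0) := by
    intro i j
    rw [sum_two S (u j) (u i) (hpS i) (hrS i) (hne i) (hu0 i), hval, hval2, hup, hur]
    split_ifs <;> ring
  have hσsame : ∀ i j, p i = p j → σ i = σ j := by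
    intro i j h
    rw [← hwp, ← hwp, h]
  have hsq : ∀ i, σ i * σ i = 1 := fun i => by
    rcases hσ i with h | h <;> rw [h] <;> norm_num
  have hnR : ∀ i j, ¬ R i j → (p i = p j ∧ r i ≠ r j) ∨ (p i ≠ p j ∧ r i = r j ∧ σ i = σ j) := by
    intro i j h
    have h1 := hunR i j h
    rw [hip] at h1
    by_cases hp : p i = p j
    · left
      refine ⟨hp, ?_⟩
      intro hr
      rw [if_pos hp, if_pos hr, ← hσsame i j hp, hsq] at h1
      omega
    · right
      refine ⟨hp, ?_⟩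
      rw [if_neg hp] at h1
      by_cases hr : r i = r j
      · rw [if_pos hr] at h1
        refine ⟨hr, ?_⟩
        rcases hσ i with h2 | h2 <;> rcases hσ j with h3 | h3 <;> rw [h2, h3] at h1 ⊢ <;> omega
      · rw [if_neg hr] at h1
        omega
  have hRR : ∀ i j, R i j → p i = p j ∧ r i = r j := by
    intro i j h
    have h1 := huR i j h
    rw [hip] at h1
    by_cases hp : p i = p j <;> by_cases hr : r i = r j
    · exact ⟨hp, hr⟩
    · rw [if_pos hp, if_neg hr, hσsame i j hp, hsq] at h1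
      omega
    · rw [if_neg hp, if_pos hr] at h1
      rcases hσ i with h2 | h2 <;> rcases hσ j with h3 | h3 <;> rw [h2, h3] at h1 <;> omega
    · rw [if_neg hp, if_neg hr] at h1
      omega
  have hwcard : (S.filter fun a => w a ≠ 0).card = 3 := by
    have := card_support S w (by omega)
    rw [hww] at this
    exact_mod_cast this
  have hmemT : ∀ i, p i ∈ S.filter fun a => w a ≠ 0 := fun i =>
    Finset.mem_filter.mpr ⟨hpS i, by rw [hwp]; exact hσ0 i⟩
  have hsumT : ∑ a ∈ S, d a * w a = ∑ a ∈ S.filter (fun a => w a ≠ 0), d a * w a := by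
    symm
    apply Finset.sum_subset (Finset.filter_subset _ _)
    intro a ha ha2
    have : w a = 0 := by
      by_contra h
      exact ha2 (Finset.mem_filter.mpr ⟨ha, h⟩)
    rw [this, mul_zero]
  -- all `p i` coincide
  have hall : ∀ i j, p i = p j := by
    intro i j
    by_cases hR : R i j
    · exact (hRR i j hR).1
    by_contra hpne
    obtain ⟨k, hk1, hk2⟩ := hthird i j hR
    have hij := hnR i j hR
    rcases hij with h | ⟨-, hrij, hσij⟩
    · exact hpne h.1
    have hik := hnR i k hk1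
    have hjk := hnR j k hk2
    have hki : p i ≠ p k := by
      intro h
      rcases hik with h1 | h1
      · rcases hjk with h2 | h2
        · exact hpne (h.trans h2.1.symm)
        · exact h1.2 (hrij.trans h2.2.1)
      · exact h1.1 h
    have hkj : p j ≠ p k := by
      intro h
      rcases hjk with h1 | h1
      · rcases hik with h2 | h2
        · exact hpne (h2.1.trans h1.1.symm)
        · exact h1.2 (hrij.symm.trans h2.2.1)
      · exact h1.1 h
    have hσik : σ i = σ k := by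
      rcases hik with h1 | h1
      · exact absurd h1.1 hki
      · exact h1.2.2
    have hT : (S.filter fun a => w a ≠ 0) = {p i, p j, p k} := by
      symm
      apply Finset.eq_of_subset_of_card_le
      · intro a ha
        simp only [Finset.mem_insert, Finset.mem_singleton] at ha
        rcases ha with rfl | rfl | rfl <;> exact hmemT _
      · rw [hwcard, Finset.card_insert_of_notMem, Finset.card_insert_of_notMem, Finset.card_singleton]
        · simpa using hkj
        · simp only [Finset.mem_insert, Finset.mem_singleton, not_or]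
          exact ⟨hpne, hki⟩
    rw [hsumT, hT, Finset.sum_insert, Finset.sum_insert, Finset.sum_singleton, hwp, hwp, hwp,
      ← hσij, ← hσik] at hdw
    · have h1 := hd _ (hpS i)
      have h2 := hd _ (hpS j)
      have h3 := hd _ (hpS k)
      rcases hσ i with h | h <;> rw [h] at hdw <;> omega
    · simpa using hkj
    · simp only [Finset.mem_insert, Finset.mem_singleton, not_or]
      exact ⟨hpne, hki⟩
  -- the other two coordinates of `w`
  have hT2 : ((S.filter fun a => w a ≠ 0).erase (p i₀)).card = 2 := by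
    rw [Finset.card_erase_of_mem (hmemT i₀), hwcard]
  obtain ⟨b, c, hbc, hE⟩ := Finset.card_eq_two.mp hT2
  have hbm : b ∈ (S.filter fun a => w a ≠ 0).erase (p i₀) := by rw [hE]; simp
  have hcm : c ∈ (S.filter fun a => w a ≠ 0).erase (p i₀) := by rw [hE]; simp
  rw [Finset.mem_erase, Finset.mem_filter] at hbm hcm
  have hent := entry_le S w (by omega)
  have hsign : ∀ a ∈ S, w a ≠ 0 → w a = 1 ∨ w a = -1 := by
    intro a ha h0
    rcases hent a ha with h | h | h
    · exact absurd h h0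
    · exact Or.inl h
    · exact Or.inr h
  refine ⟨p i₀, b, c, σ i₀, w b, w c, r, hpS i₀, hbm.2.1, hcm.2.1, hbm.1.symm, hcm.1.symm, hbc, hσ i₀,
    hsign _ hbm.2.1 hbm.2.2, hsign _ hcm.2.1 hcm.2.2, hwp i₀, rfl, rfl, ?_, ?_⟩
  · intro a ha h1 h2 h3
    by_contra h
    have h4 : a ∈ (S.filter fun a => w a ≠ 0).erase (p i₀) :=
      Finset.mem_erase.mpr ⟨h1, Finset.mem_filter.mpr ⟨ha, h⟩⟩
    rw [hE] at h4
    simp only [Finset.mem_insert, Finset.mem_singleton] at h4
    tauto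
  · intro i
    have hpi : p i₀ = p i := hall i₀ i
    have hσi : σ i₀ = σ i := hσsame _ _ hpi
    refine ⟨hrS i, ?_, ?_, ?_, ?_, ?_, ?_, ?_⟩
    · rw [hpi]
      exact (hne i).symm
    · intro h
      have h5 := hwr i
      rw [h] at h5
      exact hbm.2.2 h5
    · intro h
      have h5 := hwr i
      rw [h] at h5
      exact hcm.2.2 h5
    · rw [hpi, hσi, hup]
    · rw [hσi, hur]
    · intro a ha h1 h2
      rw [hpi] at h1
      exact hu0 i a ha h1 h2
    · intro j
      constructor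
      · intro h
        exact (hRR i j h).2
      · intro h
        by_contra hnr
        rcases hnR i j hnr with h1 | h1
        · exact h1.2 h
        · exact h1.1 (hall i j)

end Vec

end Cfsg.Agent.H15.Dih
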