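import Cfsg.Agent.Lib.H15.DihG1
import Cfsg.Agent.Lib.H15.Cyc2

/-! # Groups with dihedral Sylow 2-subgroups: column norms -/

set_option autoImplicit false
set_option linter.unusedSectionVars false
set_option linter.style.haveILetI false
set_option linter.unusedSimpArgs false

namespace Cfsg.Agent.H15.Dih

open Cfsg Cfsg.Agent.H21 Cfsg.Agent.H22 Subgroup
open scoped ComplexConjugate

universe u

variable {G : Type u} [Group G] [Finite G]
variable {P : Sylow 2 G} {σ : G} {m : ℕ} (h : DS P σ m)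

namespace DS

include h

theorem ord_of_mem {y : G} (hy : y ∈ (P : Subgroup G)) : ∃ k : ℕ, orderOf y = 2 ^ k := by
  obtain ⟨k, hk⟩ := IsPGroup.iff_orderOf.mp P.2 ⟨y, hy⟩
  rw [Subgroup.orderOf_mk] at hk
  exact ⟨k, hk⟩

theorem pow_of_mem {y : G} (hy : y ∈ (P : Subgroup G)) : ∃ k : ℕ, y ^ (2 ^ k) = 1 := by
  obtain ⟨k, hk⟩ := h.ord_of_mem hy
  exact ⟨k, by rw [← hk, pow_orderOf_eq_one]⟩

theorem Z_pgroup : IsPGroup 2 (zpowers σ) := by
  obtain ⟨k, hk⟩ := h.pow_of_mem h.mem
  exact pgroup_zpowers hk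

theorem card_Z : Nat.card (zpowers σ) = 2 * m := by
  rw [Nat.card_zpowers, h.ord]

/-- `⟨σ⟩` is maximal among 2-subgroups centralizing an element of order at least four. -/
theorem Z_max {x : G} (hx : x ∈ zpowers σ) (hx2 : x * x ≠ 1) (Q' : Subgroup G) (hp : IsPGroup 2 Q')
    (hZ : zpowers σ ≤ Q') (hC : Q' ≤ centralizer ({x} : Set G)) : Q' = zpowers σ := by
  obtain ⟨g, hg⟩ := conj_into P hp
  have hx1 : g * x * g⁻¹ ∈ (P : Subgroup G) := hg x (hZ hx)
  have hx12 : (g * x * g⁻¹) * (g * x * g⁻¹) ≠ 1 := by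
    intro h1
    apply hx2
    have h2 : g * (x * x) * g⁻¹ = 1 := by
      rw [← h1]
      group
    exact conj_eq_one_iff.mp h2
  have hinZ : ∀ y ∈ Q', g * y * g⁻¹ ∈ zpowers σ := by
    intro y hy
    by_contra hn
    have hyP := hg y hy
    have h1 := h.zinv hyP hn (h.sq_mem hx1 hx12)
    have hc : y * x = x * y := by
      have := hC hy
      rw [Subgroup.mem_centralizer_singleton_iff] at this
      exact this
    have h2 : (g * y * g⁻¹) * (g * x * g⁻¹) * (g * y * g⁻¹)⁻¹ = g * x * g⁻¹ := by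
      calc (g * y * g⁻¹) * (g * x * g⁻¹) * (g * y * g⁻¹)⁻¹ = g * (y * x) * y⁻¹ * g⁻¹ := by group
        _ = g * (x * y) * y⁻¹ * g⁻¹ := by rw [hc]
        _ = g * x * g⁻¹ := by group
    rw [h2] at h1
    exact hx12 (mul_eq_one_iff_eq_inv.mpr h1)
  symm
  apply Subgroup.eq_of_le_of_card_ge hZ
  let f : Q' → zpowers σ := fun y => ⟨g * y * g⁻¹, hinZ y y.2⟩
  have hf : Function.Injective f := by
    intro a b hab
    have h1 : g * (a : G) * g⁻¹ = g * (b : G) * g⁻¹ := congrArg Subtype.val hab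
    apply Subtype.ext
    simpa using h1
  exact Nat.card_le_card_of_injective f hf

/-- The column of an element of order at least four. -/
theorem norm_big {M : Ideal AlgInt} [M.IsPrime] (hM : IsPModular 2 M) {x : G} (hx : x ∈ zpowers σ)
    (hx2 : x * x ≠ 1) : NPCat x ∧ ∑ ζ : IrrCharacter G, eB (principalBlock M G) ζ *
      (ζ.1 x * conj (ζ.1 x)) = ((2 * m : ℕ) : ℂ) := by
  obtain ⟨k, hk⟩ := h.ord_of_mem (h.Z_le hx)
  have hle : zpowers σ ≤ centralizer ({x} : Set G) := by
    intro y hy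
    rw [Subgroup.mem_centralizer_singleton_iff]
    exact h.Z_comm hy hx
  have := norm_of_sylow hM hk (zpowers σ) hle h.Z_pgroup (h.Z_max hx hx2) (by
    intro g hg hgN _ y hy
    have hgc : g * x = x * g := by
      rw [Subgroup.mem_centralizer_singleton_iff] at hg
      exact hg
    have hgσ : g * σ * g⁻¹ ∈ zpowers σ := (mem_normalizer_iff.mp hgN σ).mp (mem_zpowers σ)
    have hcomm : g * σ = σ * g := by
      rcases h.norm_action hgσ with h1 | h1
      · exact mul_inv_eq_iff_eq_mul.mp h1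
      · exfalso
        apply hx2
        obtain ⟨i, rfl⟩ := mem_zpowers_iff.mp hx
        have h2 : g * σ ^ i * g⁻¹ = (σ ^ i)⁻¹ := by
          rw [← conj_zpow, h1, inv_zpow]
        rw [hgc, mul_inv_cancel_right] at h2
        nth_rw 1 [h2]
        simp
    obtain ⟨i, rfl⟩ := mem_zpowers_iff.mp hy
    have h3 : Commute g σ := hcomm
    exact (h3.zpow_right i).eq)
  rw [h.card_Z] at this
  exact this

/-- An odd element normalizing a subgroup of `P` and fixing the central involution centralizes it. -/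
theorem frob_in_P (Q : Subgroup G) (hQ : Q ≤ (P : Subgroup G)) {g : G} (hg : ∀ y ∈ Q, g * y * g⁻¹ ∈ Q)
    (hJ : g * σ ^ m = σ ^ m * g) (hodd : Odd (orderOf g)) : ∀ y ∈ Q, g * y = y * g := by
  classical
  -- the intersection with the cyclic part
  let V : Subgroup G := Q ⊓ zpowers σ
  have hVfix : ∀ y ∈ V, g * y * g⁻¹ ∈ V := by
    intro y hy
    have hyQ : y ∈ Q := hy.1
    have hyZ : y ∈ zpowers σ := hy.2
    refine ⟨hg y hyQ, ?_⟩
    by_cases hyy : y * y = 1
    · rcases h.inv_in_Z hyZ hyy with h1 | h1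
      · rw [h1]
        simp
      · rw [h1, hJ, mul_inv_cancel_right]
        exact h.σm_mem
    · apply h.sq_mem (hQ (hg y hyQ))
      intro h1
      apply hyy
      have h2 : g * (y * y) * g⁻¹ = 1 := by
        rw [← h1]
        group
      exact conj_eq_one_iff.mp h2
  obtain ⟨w, hw⟩ := IsCyclic.exists_generator (α := V.subgroupOf (zpowers σ))
  have hw0 : ((w : zpowers σ) : G) ∈ V := w.2
  have hgen : ∀ y ∈ V, y ∈ zpowers ((w : zpowers σ) : G) := by
    intro y hy
    have hmem : (⟨⟨y, hy.2⟩, (by rw [Subgroup.mem_subgroupOf]; exact hy)⟩ :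
        V.subgroupOf (zpowers σ)) ∈ zpowers w := hw _
    obtain ⟨k, hk⟩ := mem_zpowers_iff.mp hmem
    have h1 := congrArg (fun u : V.subgroupOf (zpowers σ) => ((u : zpowers σ) : G)) hk
    simp only [Subgroup.coe_zpow] at h1
    exact mem_zpowers_iff.mpr ⟨k, h1⟩
  obtain ⟨e, he⟩ := h.pow_of_mem (hQ hw0.1)
  have hwc := Cfsg.Agent.H13.odd_comm_of_conj_mem_zpowers hodd he (hgen _ (hVfix _ hw0))
  have hVc : ∀ y ∈ V, g * y = y * g := by
    intro y hy
    obtain ⟨k, rfl⟩ := mem_zpowers_iff.mp (hgen y hy)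
    have h3 : Commute g ((w : zpowers σ) : G) := hwc
    exact (h3.zpow_right k).eq
  intro y hy
  by_cases hyZ : y ∈ zpowers σ
  · exact hVc y ⟨hy, hyZ⟩
  have hyP := hQ hy
  have hyy := (h.inv y hyP hyZ).1
  set y' := g * y * g⁻¹ with hy'
  have hy'Q : y' ∈ Q := hg y hy
  have hy'Z : y' ∉ zpowers σ := by
    intro hz
    have h1 := hVc y' ⟨hy'Q, hz⟩
    have h2 : y = y' := by
      have h3 : y' * g = g * y := by
        rw [hy']
        group
      rw [← h1] at h3
      exact (mul_left_cancel h3).symm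
    exact hyZ (h2 ▸ hz)
  set v := y * y' with hv
  have hvV : v ∈ V := ⟨Q.mul_mem hy hy'Q, h.mul y hyP y' (hQ hy'Q) hyZ hy'Z⟩
  have hy'eq : y' = y * v := by
    rw [hv, ← mul_assoc, hyy, one_mul]
  have hgv := hVc v hvV
  have hiter : ∀ k : ℕ, g ^ k * y * (g ^ k)⁻¹ = y * v ^ k := by
    intro k
    induction k with
    | zero => simp
    | succ k ih =>
      have h3 : Commute g v := hgv
      calc g ^ (k + 1) * y * (g ^ (k + 1))⁻¹ = g ^ k * (g * y * g⁻¹) * (g ^ k)⁻¹ := by
            rw [pow_succ]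
            group
        _ = g ^ k * y * (g ^ k)⁻¹ * (g ^ k * v * (g ^ k)⁻¹) := by
            rw [← hy', hy'eq]
            group
        _ = y * v ^ k * v := by
            rw [ih, ((h3.pow_left k).eq), mul_inv_cancel_right]
        _ = y * v ^ (k + 1) := by rw [pow_succ, mul_assoc]
  have h1 := hiter (orderOf g)
  rw [pow_orderOf_eq_one] at h1
  simp only [one_mul, inv_one, mul_one] at h1
  have h2 : v ^ orderOf g = 1 := by
    have : y * 1 = y * v ^ orderOf g := by rw [mul_one]; exact h1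
    exact (mul_left_cancel this).symm
  obtain ⟨e', he'⟩ := h.pow_of_mem (hQ hvV.1)
  have hcop : Nat.Coprime (orderOf g) (2 ^ e') :=
    Nat.Coprime.pow_right _ (Nat.coprime_two_right.mpr hodd)
  have hv1 : v = 1 := orderOf_eq_one_iff.mp (Nat.eq_one_of_dvd_coprimes hcop
    (orderOf_dvd_of_pow_eq_one h2) (orderOf_dvd_of_pow_eq_one he'))
  rw [hv1, mul_one] at hy'eq
  rw [hy'] at hy'eq
  exact mul_inv_eq_iff_eq_mul.mp hy'eq

theorem P_le_CJ : (P : Subgroup G) ≤ centralizer ({σ ^ m} : Set G) := by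
  intro y hy
  rw [Subgroup.mem_centralizer_singleton_iff]
  exact h.J_central hy

/-- The Frobenius condition in the centralizer of the central involution. -/
theorem frob_CJ : Cfsg.Agent.H13.FrobCond 2 (centralizer ({σ ^ m} : Set G)) := by
  set C := centralizer ({σ ^ m} : Set G) with hC
  intro Q hQ g hg hcop
  let PC : Sylow 2 C := P.subtype h.P_le_CJ
  have hPCc : (PC : Subgroup C) = (P : Subgroup G).subgroupOf C := P.coe_subtype h.P_le_CJ
  obtain ⟨c, hc⟩ := conj_into PC hQ
  have hcP : ∀ x ∈ Q, (c : G) * (x : G) * (c : G)⁻¹ ∈ (P : Subgroup G) := by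
    intro x hx
    have h1 := hc x hx
    rw [hPCc, Subgroup.mem_subgroupOf] at h1
    exact h1
  let Q₁ : Subgroup G := (Q.map C.subtype).map (MulAut.conj (c : G)).toMonoidHom
  have hQ₁ : ∀ y, y ∈ Q₁ ↔ ∃ x ∈ Q, y = (c : G) * (x : G) * (c : G)⁻¹ := by
    intro y
    constructor
    · rintro ⟨_, ⟨x, hx, rfl⟩, rfl⟩
      exact ⟨x, hx, rfl⟩
    · rintro ⟨x, hx, rfl⟩
      exact ⟨x, ⟨x, hx, rfl⟩, rfl⟩
  have hQ₁P : Q₁ ≤ (P : Subgroup G) := by
    intro y hy
    obtain ⟨x, hx, rfl⟩ := (hQ₁ y).mp hy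
    exact hcP x hx
  set g₁ : G := (c : G) * (g : G) * (c : G)⁻¹ with hg₁
  have hcJ : (c : G) * σ ^ m = σ ^ m * (c : G) := Subgroup.mem_centralizer_singleton_iff.mp c.2
  have hgJ : (g : G) * σ ^ m = σ ^ m * (g : G) := Subgroup.mem_centralizer_singleton_iff.mp g.2
  have hg₁J : g₁ * σ ^ m = σ ^ m * g₁ := by
    rw [hg₁]
    have h1 : (c : G)⁻¹ * σ ^ m = σ ^ m * (c : G)⁻¹ := by
      have h2 := (show Commute (c : G) (σ ^ m) from hcJ).inv_left
      exact h2.eq
    calc (c : G) * (g : G) * (c : G)⁻¹ * σ ^ m = (c : G) * (g : G) * ((c : G)⁻¹ * σ ^ m) := by group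
      _ = (c : G) * ((g : G) * σ ^ m) * (c : G)⁻¹ := by rw [h1]; group
      _ = ((c : G) * σ ^ m) * (g : G) * (c : G)⁻¹ := by rw [hgJ]; group
      _ = σ ^ m * ((c : G) * (g : G) * (c : G)⁻¹) := by rw [hcJ]; group
  have hodd : Odd (orderOf g₁) := by
    rw [hg₁, Cfsg.Agent.H15.orderOf_conj_eq, Subgroup.orderOf_coe]
    exact Nat.coprime_two_right.mp hcop
  have hnorm : ∀ y ∈ Q₁, g₁ * y * g₁⁻¹ ∈ Q₁ := by
    intro y hy
    obtain ⟨x, hx, rfl⟩ := (hQ₁ y).mp hy
    have h1 : g * x * g⁻¹ ∈ Q := (mem_normalizer_iff.mp hg x).mp hx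
    refine (hQ₁ _).mpr ⟨_, h1, ?_⟩
    rw [hg₁]
    push_cast
    group
  have hmain := h.frob_in_P Q₁ hQ₁P hnorm hg₁J hodd
  rw [Subgroup.mem_centralizer_iff]
  intro x hx
  have h1 := hmain _ ((hQ₁ _).mpr ⟨x, hx, rfl⟩)
  rw [hg₁] at h1
  apply Subtype.ext
  show (x : G) * (g : G) = (g : G) * (x : G)
  have h2 : (c : G) * ((g : G) * (x : G)) * (c : G)⁻¹ = (c : G) * ((x : G) * (g : G)) * (c : G)⁻¹ := by
    calc (c : G) * ((g : G) * (x : G)) * (c : G)⁻¹
        = (c : G) * (g : G) * (c : G)⁻¹ * ((c : G) * (x : G) * (c : G)⁻¹) := by group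
      _ = (c : G) * (x : G) * (c : G)⁻¹ * ((c : G) * (g : G) * (c : G)⁻¹) := h1
      _ = (c : G) * ((x : G) * (g : G)) * (c : G)⁻¹ := by group
  have h3 : (g : G) * (x : G) = (x : G) * (g : G) := by simpa using h2
  exact h3.symm

/-- The centralizer of the central involution has a normal 2-complement. -/
theorem npc_J : NPCat (σ ^ m) := by
  obtain ⟨P₁, N, hN, hc⟩ := Cfsg.Agent.H13.hasNormalPComplement_of_frobCond h.frob_CJ
  refine ⟨N, hN, ?_, ?_⟩
  · rw [Nat.coprime_comm, Nat.prime_two.coprime_iff_not_dvd]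
    exact Cfsg.Agent.H01.not_dvd_card_of_complement P₁ hc
  · obtain ⟨k, hk⟩ := P₁.2.exists_card_eq
    exact ⟨k, by rw [hc.symm.index_eq_card, hk]⟩

/-- The column of the central involution. -/
theorem norm_J {M : Ideal AlgInt} [M.IsPrime] (hM : IsPModular 2 M) :
    ∑ ζ : IrrCharacter G, eB (principalBlock M G) ζ *
      (ζ.1 (σ ^ m) * conj (ζ.1 (σ ^ m))) = ((2 * (2 * m) : ℕ) : ℂ) := by
  obtain ⟨O, hO, hcop, hk⟩ := h.npc_J
  obtain ⟨k, hord⟩ := h.ord_of_mem (h.Z_le h.σm_mem)
  have := Cfsg.Agent.H15.Homo.norm_from_npc hM P hord h.P_le_CJ O hcop hk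
  rw [h.card] at this
  exact this

/-- The centralizer of a noncentral involution in `P` has four elements. -/
theorem card_CP {y : G} (hy : y ∈ (P : Subgroup G)) (hy' : y ∉ zpowers σ) :
    Nat.card ((P : Subgroup G) ⊓ centralizer ({y} : Set G) : Subgroup G) = 4 := by
  classical
  have hyy := (h.inv y hy hy').1
  have hJ1 := h.σm_ne
  have hJZ := h.σm_mem
  have hy1 : y ≠ 1 := fun h1 => hy' (h1 ▸ one_mem _)
  have hset : ((P : Subgroup G) ⊓ centralizer ({y} : Set G) : Subgroup G) =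
      (({1, σ ^ m, y, σ ^ m * y} : Finset G) : Set G) := by
    ext z
    simp only [SetLike.mem_coe, Subgroup.mem_inf, Subgroup.mem_centralizer_singleton_iff,
      Finset.coe_insert, Finset.coe_singleton, Set.mem_insert_iff, Set.mem_singleton_iff]
    constructor
    · rintro ⟨h1, h2⟩
      exact h.CP_eq hy hy' h1 h2
    · rintro (rfl | rfl | rfl | rfl)
      · simp
      · exact ⟨h.Z_le hJZ, (h.J_central hy).symm⟩
      · exact ⟨hy, rfl⟩
      · refine ⟨mul_mem (h.Z_le hJZ) hy, ?_⟩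
        rw [← mul_assoc y, h.J_central hy]
  have hcard : ({1, σ ^ m, y, σ ^ m * y} : Finset G).card = 4 := by
    rw [Finset.card_insert_of_notMem, Finset.card_insert_of_notMem, Finset.card_insert_of_notMem,
      Finset.card_singleton]
    · simp only [Finset.mem_singleton]
      intro h1
      have : σ ^ m = 1 := by simpa using h1.symm
      exact hJ1 this
    · simp only [Finset.mem_insert, Finset.mem_singleton, not_or]
      refine ⟨fun h1 => hy' (h1 ▸ hJZ), fun h1 => hy1 ?_⟩
      simpa using h1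
    · simp only [Finset.mem_insert, Finset.mem_singleton, not_or]
      refine ⟨hJ1.symm, hy1.symm, ?_⟩
      intro h1
      apply hy'
      have : y = (σ ^ m)⁻¹ := eq_inv_of_mul_eq_one_right h1.symm
      rw [this]
      exact inv_mem hJZ
  have h1 : Nat.card ((P : Subgroup G) ⊓ centralizer ({y} : Set G) : Subgroup G) =
      (((P : Subgroup G) ⊓ centralizer ({y} : Set G) : Subgroup G) : Set G).ncard :=
    Nat.card_coe_set_eq _
  rw [h1, hset, Set.ncard_coe_finset, hcard]

/-- The Sylow structure of the centralizer of an involution of `P` outside the class of `J`. -/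
theorem V_max {t : G} (ht : t ∈ (P : Subgroup G)) (ht' : t ∉ zpowers σ) (hnc : ¬ IsConj t (σ ^ m))
    (Q' : Subgroup G) (hp : IsPGroup 2 Q') (hV : (P : Subgroup G) ⊓ centralizer ({t} : Set G) ≤ Q')
    (hC : Q' ≤ centralizer ({t} : Set G)) : Q' = (P : Subgroup G) ⊓ centralizer ({t} : Set G) := by
  obtain ⟨g, hg⟩ := conj_into P hp
  have htt := (h.inv t ht ht').1
  have htV : t ∈ (P : Subgroup G) ⊓ centralizer ({t} : Set G) :=
    ⟨ht, Subgroup.mem_centralizer_singleton_iff.mpr rfl⟩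
  set t₁ := g * t * g⁻¹ with ht₁
  have ht₁P : t₁ ∈ (P : Subgroup G) := hg t (hV htV)
  have ht1 : t ≠ 1 := fun h1 => ht' (h1 ▸ one_mem _)
  have ht₁Z : t₁ ∉ zpowers σ := by
    intro hz
    have h2 : t₁ * t₁ = 1 := by
      rw [ht₁]
      calc g * t * g⁻¹ * (g * t * g⁻¹) = g * (t * t) * g⁻¹ := by group
        _ = 1 := by rw [htt]; group
    rcases h.inv_in_Z hz h2 with h3 | h3
    · exact ht1 (conj_eq_one_iff.mp h3)
    · exact hnc (isConj_iff.mpr ⟨g, h3⟩)
  symm
  apply Subgroup.eq_of_le_of_card_ge hV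
  rw [h.card_CP ht ht', ← h.card_CP ht₁P ht₁Z]
  let f : Q' → ((P : Subgroup G) ⊓ centralizer ({t₁} : Set G) : Subgroup G) := fun y =>
    ⟨g * y * g⁻¹, Subgroup.mem_inf.mpr ⟨hg y y.2, Subgroup.mem_centralizer_singleton_iff.mpr (by
      rw [ht₁]
      have hc : (y : G) * t = t * y := by
        have := hC y.2
        rw [Subgroup.mem_centralizer_singleton_iff] at this
        exact this
      calc g * (y : G) * g⁻¹ * (g * t * g⁻¹) = g * ((y : G) * t) * g⁻¹ := by group
        _ = g * (t * (y : G)) * g⁻¹ := by rw [hc]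
        _ = g * t * g⁻¹ * (g * (y : G) * g⁻¹) := by group)⟩⟩
  have hf : Function.Injective f := by
    intro a b hab
    have h1 : g * (a : G) * g⁻¹ = g * (b : G) * g⁻¹ := congrArg Subtype.val hab
    apply Subtype.ext
    simpa using h1
  exact Nat.card_le_card_of_injective f hf

/-- The column of an involution of `P` not conjugate to the central involution. -/
theorem norm_t {M : Ideal AlgInt} [M.IsPrime] (hM : IsPModular 2 M) {t : G}
    (ht : t ∈ (P : Subgroup G)) (ht' : t ∉ zpowers σ) (hnc : ¬ IsConj t (σ ^ m)) :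
    NPCat t ∧ ∑ ζ : IrrCharacter G, eB (principalBlock M G) ζ *
      (ζ.1 t * conj (ζ.1 t)) = ((4 : ℕ) : ℂ) := by
  obtain ⟨k, hk⟩ := h.ord_of_mem ht
  have htt := (h.inv t ht ht').1
  have htinv : t⁻¹ = t := inv_eq_of_mul_eq_one_left htt
  have hJZ := h.σm_mem
  have hJJ := h.σm_sq
  have ht1 : t ≠ 1 := fun h1 => ht' (h1 ▸ one_mem _)
  have := norm_of_sylow hM hk ((P : Subgroup G) ⊓ centralizer ({t} : Set G)) inf_le_right
    (P.2.to_le inf_le_left) (h.V_max ht ht' hnc) (by
      rintro g hg hgN ⟨r, hr, hgr⟩ y hy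
      have hgt : g * t = t * g := by
        rw [Subgroup.mem_centralizer_singleton_iff] at hg
        exact hg
      have hJV : σ ^ m ∈ (P : Subgroup G) ⊓ centralizer ({t} : Set G) :=
        Subgroup.mem_inf.mpr ⟨h.Z_le hJZ, Subgroup.mem_centralizer_singleton_iff.mpr (h.J_central ht).symm⟩
      have h1 : g * σ ^ m * g⁻¹ ∈ (P : Subgroup G) ⊓ centralizer ({t} : Set G) :=
        (mem_normalizer_iff.mp hgN _).mp hJV
      have hgJ : g * σ ^ m = σ ^ m * g := by
        rcases h.CP_eq ht ht' h1.1 (Subgroup.mem_centralizer_singleton_iff.mp h1.2) with h2 | h2 | h2 | h2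
        · exfalso
          exact h.σm_ne (conj_eq_one_iff.mp h2)
        · exact mul_inv_eq_iff_eq_mul.mp h2
        · exfalso
          exact hnc (isConj_iff.mpr ⟨g⁻¹, by
            rw [← h2]
            group⟩).symm.symm
        · exfalso
          -- `g` would exchange `J` and `J t`
          have hg2 : g * (g * σ ^ m * g⁻¹) * g⁻¹ = σ ^ m := by
            rw [h2]
            calc g * (σ ^ m * t) * g⁻¹ = (g * σ ^ m * g⁻¹) * (g * t * g⁻¹) := by group
              _ = σ ^ m * t * t := by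
                rw [h2, hgt, mul_inv_cancel_right]
              _ = σ ^ m := by rw [mul_assoc, htt, mul_one]
          have hev : ∀ k : ℕ, g ^ (2 * k) * σ ^ m * (g ^ (2 * k))⁻¹ = σ ^ m := by
            intro k
            induction k with
            | zero => simp
            | succ k ih =>
              calc g ^ (2 * (k + 1)) * σ ^ m * (g ^ (2 * (k + 1)))⁻¹
                  = g ^ (2 * k) * (g * (g * σ ^ m * g⁻¹) * g⁻¹) * (g ^ (2 * k))⁻¹ := by
                    rw [show 2 * (k + 1) = 2 * k + 1 + 1 by ring, pow_succ, pow_succ]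
                    group
                _ = σ ^ m := by rw [hg2, ih]
          obtain ⟨s, rfl⟩ := hr
          have h3 : g ^ (2 * s + 1) * σ ^ m * (g ^ (2 * s + 1))⁻¹ = σ ^ m := by
            have h4 := h.J_central hgr.1
            rw [h4, mul_inv_cancel_right]
          have h5 : g ^ (2 * s + 1) * σ ^ m * (g ^ (2 * s + 1))⁻¹ = σ ^ m * t := by
            calc g ^ (2 * s + 1) * σ ^ m * (g ^ (2 * s + 1))⁻¹
                = g ^ (2 * s) * (g * σ ^ m * g⁻¹) * (g ^ (2 * s))⁻¹ := by
                  rw [pow_succ]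
                  group
              _ = (g ^ (2 * s) * σ ^ m * (g ^ (2 * s))⁻¹) * (g ^ (2 * s) * t * (g ^ (2 * s))⁻¹) := by
                  rw [h2]
                  group
              _ = σ ^ m * t := by
                  rw [hev]
                  have h6 : Commute (g ^ (2 * s)) t := (show Commute g t from hgt).pow_left _
                  rw [h6.eq, mul_inv_cancel_right]
          rw [h3] at h5
          exact ht1 (by simpa using h5.symm)
      have hyP : y ∈ (P : Subgroup G) := hy.1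
      rcases h.CP_eq ht ht' hyP (Subgroup.mem_centralizer_singleton_iff.mp hy.2) with rfl | rfl | rfl | rfl
      · simp
      · exact hgJ
      · exact hgt
      · have h3 : Commute g (σ ^ m) := hgJ
        have h4 : Commute g t := hgt
        exact (h3.mul_right h4).eq)
  rw [h.card_CP ht ht'] at this
  exact this

end DS

end Cfsg.Agent.H15.Dih
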