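import Cfsg.Agent.Lib.H15.DihF
import Cfsg.Agent.Lib.H15.DihG2
import Cfsg.Agent.Lib.H15.ColBasic
import Cfsg.Agent.Lib.H23.Ito

/-! # The fusion data on `⟨σ⟩` for a dihedral Sylow 2-subgroup -/

set_option autoImplicit false
set_option linter.unusedSectionVars false
set_option linter.style.haveILetI false
set_option linter.unusedSimpArgs false

namespace Cfsg.Agent.H15.Dih

open Cfsg Cfsg.Agent.H21 Cfsg.Agent.H22 Subgroup
open Cfsg.Agent.H15.Homo (section_orth char_inner card_ne sum_neg_char char_neg_conj Bs Ss mem_Bs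
  mem_Ss eB_sum_eq deg_spec deg_pos)
open scoped ComplexConjugate

universe u

variable {G : Type u} [Group G] [Finite G]

/-- A vanishing criterion for the full 2-part of the degree. -/
theorem codegree_of_vanish_on_sylow (P : Sylow 2 G) (χ : IrrCharacter G)
    (hv : ∀ y ∈ (P : Subgroup G), y ≠ 1 → χ.1 y = 0) : ¬ 2 ∣ Nat.card G / charDegree χ.1 := by
  classical
  rw [not_dvd_codegree_iff]
  haveI : Fintype (P : Subgroup G) := Fintype.ofFinite _
  have hcard : Nat.card (P : Subgroup G) = 2 ^ (Nat.card G).factorization 2 := P.card_eq_multiplicity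
  have hsum1 : ∑ y : (P : Subgroup G), χ.1 y = χ.1 1 := by
    rw [Finset.sum_eq_single (1 : (P : Subgroup G))]
    · rfl
    · intro y _ hy
      apply hv y y.2
      intro h1
      exact hy (Subtype.ext h1)
    · intro h
      exact absurd (Finset.mem_univ _) h
  obtain ⟨m, hm⟩ := classInner_isCharacter_nat
    (isCharacter_restrict (P : Subgroup G) (isCharacter_of_irr χ.2))
    (isCharacter_one (G := (P : Subgroup G)))
  have h2 : ∑ y : (P : Subgroup G), χ.1 y = (Nat.card (P : Subgroup G) : ℂ) * m := by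
    rw [← hm]
    unfold classInner
    have h1 : (Nat.card (P : Subgroup G) : ℂ) ≠ 0 := by
      exact_mod_cast (Nat.card_pos (α := (P : Subgroup G))).ne'
    simp only [map_one, mul_one]
    field_simp
  rw [hsum1, one_eq_charDegree (isCharacter_of_irr χ.2)] at h2
  have h3 : charDegree χ.1 = Nat.card (P : Subgroup G) * m := by exact_mod_cast h2
  have hpos := irr_charDegree_pos χ.2
  have h4 : 2 ^ (Nat.card G).factorization 2 ∣ charDegree χ.1 := by
    rw [← hcard, h3]
    exact dvd_mul_right _ _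
  exact (Nat.prime_two.pow_dvd_iff_le_factorization hpos.ne').mp h4

variable {P : Sylow 2 G} {σ : G} {m : ℕ} (h : DS P σ m) [NeZero (2 * m)]

/-- The parametrization of `⟨σ⟩`. -/
def iota (σ : G) (m : ℕ) [NeZero (2 * m)] (a : ZMod (2 * m)) : G := σ ^ a.val

namespace DS

include h

theorem iota_add (a b : ZMod (2 * m)) : iota σ m (a + b) = iota σ m a * iota σ m b := by
  unfold iota
  have h1 := pow_mod_orderOf σ (a.val + b.val)
  rw [h.ord] at h1
  rw [ZMod.val_add, ← pow_add]
  exact h1

theorem iota_inj : Function.Injective (iota σ m) := by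
  intro a b hab
  apply ZMod.val_injective
  refine pow_injOn_Iio_orderOf (x := σ) ?_ ?_ hab
  · rw [Set.mem_Iio, h.ord]
    exact ZMod.val_lt a
  · rw [Set.mem_Iio, h.ord]
    exact ZMod.val_lt b

theorem iota_mem (a : ZMod (2 * m)) : iota σ m a ∈ zpowers σ := npow_mem_zpowers σ _

theorem exists_iota {x : G} (hx : x ∈ zpowers σ) : ∃ a : ZMod (2 * m), iota σ m a = x := by
  obtain ⟨i, rfl⟩ := exists_nat_pow hx
  refine ⟨(i : ZMod (2 * m)), ?_⟩
  unfold iota
  have h1 := pow_mod_orderOf σ i
  rw [h.ord] at h1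
  rw [ZMod.val_natCast]
  exact h1

theorem iota_neg (a : ZMod (2 * m)) : iota σ m (-a) = (iota σ m a)⁻¹ := by
  rw [eq_inv_iff_mul_eq_one, ← h.iota_add, neg_add_cancel]
  simp [iota]

theorem iota_eq_one {a : ZMod (2 * m)} : iota σ m a = 1 ↔ a = 0 := by
  constructor
  · intro h1
    apply h.iota_inj
    rw [h1]
    simp [iota]
  · rintro rfl
    simp [iota]

/-- Moving a conjugation into the normalizer of `⟨σ⟩`. -/
theorem conj_big {x x' g : G} (hx : x ∈ zpowers σ) (hx' : x' ∈ zpowers σ) (hx'2 : x' * x' ≠ 1)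
    (hg : g * x * g⁻¹ = x') : ∃ k : G, k * σ * k⁻¹ ∈ zpowers σ ∧ k * x * k⁻¹ = x' := by
  have hle : zpowers σ ≤ centralizer ({x'} : Set G) := by
    intro y hy
    rw [Subgroup.mem_centralizer_singleton_iff]
    exact h.Z_comm hy hx'
  obtain ⟨Q, hQ⟩ := exists_sylow_of (zpowers σ) hle h.Z_pgroup (h.Z_max hx' hx'2)
  have hc : g * σ * g⁻¹ ∈ centralizer ({x'} : Set G) := by
    rw [Subgroup.mem_centralizer_singleton_iff, ← hg]
    have h1 : σ * x = x * σ := h.Z_comm (mem_zpowers σ) hx
    calc g * σ * g⁻¹ * (g * x * g⁻¹) = g * (σ * x) * g⁻¹ := by group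
      _ = g * (x * σ) * g⁻¹ := by rw [h1]
      _ = g * x * g⁻¹ * (g * σ * g⁻¹) := by group
  obtain ⟨e, he⟩ := h.pow_of_mem h.mem
  have hy : (⟨g * σ * g⁻¹, hc⟩ : centralizer ({x'} : Set G)) ^ (2 ^ e) = 1 := by
    apply Subtype.ext
    show (g * σ * g⁻¹) ^ (2 ^ e) = 1
    rw [conj_pow, he]
    group
  obtain ⟨c, hc'⟩ := conj_elem_into Q hy
  rw [hQ, Subgroup.mem_subgroupOf] at hc'
  refine ⟨c * g, ?_, ?_⟩
  · have h1 : (c : G) * (g * σ * g⁻¹) * (c : G)⁻¹ ∈ zpowers σ := hc'
    have h2 : (c : G) * g * σ * ((c : G) * g)⁻¹ = (c : G) * (g * σ * g⁻¹) * (c : G)⁻¹ := by group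
    rw [h2]
    exact h1
  · have h1 : (c : G) * x' = x' * (c : G) := Subgroup.mem_centralizer_singleton_iff.mp c.2
    calc (c : G) * g * x * ((c : G) * g)⁻¹ = (c : G) * (g * x * g⁻¹) * (c : G)⁻¹ := by group
      _ = x' := by rw [hg, h1, mul_inv_cancel_right]

theorem conj_iff_iota (a b : ZMod (2 * m)) (ha : a ≠ 0) :
    IsConj (iota σ m a) (iota σ m b) ↔ b = a ∨ b = -a := by
  constructor
  · intro hconj
    obtain ⟨g, hg⟩ := isConj_iff.mp hconj
    by_cases hxx : iota σ m a * iota σ m a = 1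
    · left
      have h1 : iota σ m a = σ ^ m :=
        (h.inv_in_Z (h.iota_mem a) hxx).resolve_left (fun h0 => ha (h.iota_eq_one.mp h0))
      have h2 : iota σ m b * iota σ m b = 1 := by
        rw [← hg]
        calc g * iota σ m a * g⁻¹ * (g * iota σ m a * g⁻¹) = g * (iota σ m a * iota σ m a) * g⁻¹ := by
              group
          _ = 1 := by rw [hxx]; group
      have hb1 : iota σ m b ≠ 1 := by
        intro h0
        rw [h0] at hg
        exact h.iota_eq_one.mp (conj_eq_one_iff.mp hg) |> ha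
      have h3 : iota σ m b = σ ^ m := (h.inv_in_Z (h.iota_mem b) h2).resolve_left hb1
      exact h.iota_inj (h3.trans h1.symm)
    · have hb2 : iota σ m b * iota σ m b ≠ 1 := by
        intro h1
        apply hxx
        have h2 : g * (iota σ m a * iota σ m a) * g⁻¹ = 1 := by
          rw [← h1, ← hg]
          group
        exact conj_eq_one_iff.mp h2
      obtain ⟨k, hk, hka⟩ := h.conj_big (h.iota_mem a) (h.iota_mem b) hb2 hg
      rcases h.norm_action hk with h1 | h1
      · left
        apply h.iota_inj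
        rw [← hka]
        have hc : k * σ = σ * k := mul_inv_eq_iff_eq_mul.mp h1
        unfold iota
        have h3 : Commute k σ := hc
        rw [(h3.pow_right _).eq, mul_inv_cancel_right]
      · right
        apply h.iota_inj
        rw [h.iota_neg, ← hka]
        unfold iota
        rw [← conj_pow, h1, inv_pow]
  · rintro (rfl | rfl)
    · exact IsConj.refl _
    · obtain ⟨t, ht, ht'⟩ := h.ex
      exact isConj_iff.mpr ⟨t, by rw [h.iota_neg]; exact h.zinv ht ht' (h.iota_mem a)⟩

end DS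

/-- The fusion data attached to a dihedral Sylow subgroup. -/
def mkCD (h : DS P σ m) : CD G (ZMod (2 * m)) where
  ι := iota σ m
  ι_add := h.iota_add
  ι_inj := h.iota_inj
  ord := fun a => h.ord_of_mem (h.Z_le (h.iota_mem a))
  conj_iff := h.conj_iff_iota

@[simp] theorem mkCD_ι (a : ZMod (2 * m)) : (mkCD h).ι a = iota σ m a := rfl

variable {M : Ideal AlgInt} [hMp : M.IsPrime] (hM : IsPModular 2 M)

theorem card_A : ((Fintype.card (ZMod (2 * m)) : ℕ) : ℂ) = ((2 * m : ℕ) : ℂ) := by
  rw [ZMod.card]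

include hM in
theorem hnorm1 (a : ZMod (2 * m)) (ha : a ≠ 0) (hn : -a ≠ a) :
    WW (mkCD h) M a a = (Fintype.card (ZMod (2 * m)) : ℂ) := by
  rw [card_A]
  refine (h.norm_big hM (h.iota_mem a) ?_).2
  intro hxx
  apply hn
  rw [← h.iota_add] at hxx
  have h1 := h.iota_eq_one.mp hxx
  exact (eq_neg_of_add_eq_zero_left h1).symm

include hM in
theorem hnorm2 (a : ZMod (2 * m)) (ha : a ≠ 0) (hn : -a = a) :
    WW (mkCD h) M a a = 2 * (Fintype.card (ZMod (2 * m)) : ℂ) := by
  rw [card_A]
  have hxx : iota σ m a * iota σ m a = 1 := by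
    rw [← h.iota_add, h.iota_eq_one]
    nth_rw 1 [← hn]
    exact neg_add_cancel a
  have h1 : iota σ m a = σ ^ m :=
    (h.inv_in_Z (h.iota_mem a) hxx).resolve_left (fun h0 => ha (h.iota_eq_one.mp h0))
  have h2 := h.norm_J hM
  show ∑ ζ : IrrCharacter G, eB (principalBlock M G) ζ *
    (ζ.1 (iota σ m a) * conj (ζ.1 (iota σ m a))) = _
  rw [h1, h2]
  push_cast
  ring

include h hM in
/-- A character of the principal block vanishing on the nonidentity elements of `⟨σ⟩` is trivial. -/
theorem no_vanish {ξ : IrrCharacter G} (hξ : ξ ∈ principalBlock M G)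
    (hv : ∀ a : ZMod (2 * m), a ≠ 0 → ξ.1 (iota σ m a) = 0) : ξ = oneIrr G := by
  classical
  by_contra hne
  have hS : ξ ∈ Ss M G := mem_Ss.mpr ⟨hne, hξ⟩
  -- the degree is divisible by `2 m`
  obtain ⟨n, hn⟩ := cN_one (mkCD h) ξ
  rw [Finset.sum_eq_single (0 : ZMod (2 * m)), CD.ι_zero, ZMod.card, deg_spec] at hn
  rotate_left
  · intro a _ ha
    exact hv a ha
  · intro h0
    exact absurd (Finset.mem_univ _) h0
  have hd : charDegree ξ.1 = (2 * m) * n := by
    have h1 : ((charDegree ξ.1 : ℕ) : ℂ) = (((2 * m) * n : ℕ) : ℂ) := by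
      push_cast at hn ⊢
      exact hn
    exact_mod_cast h1
  have hdpos := irr_charDegree_pos ξ.2
  have hJval : ξ.1 (σ ^ m) = 0 := by
    obtain ⟨a, ha⟩ := h.exists_iota (m := m) h.σm_mem
    rw [← ha]
    apply hv
    rintro rfl
    apply h.σm_ne
    rw [← ha]
    simp [iota]
  have hP0 : ∀ y ∈ (P : Subgroup G), y ≠ 1 → ξ.1 y = 0 := by
    intro t ht ht1
    by_cases hZ : t ∈ zpowers σ
    · obtain ⟨a, rfl⟩ := h.exists_iota (m := m) hZ
      exact hv a (fun h0 => ht1 (h.iota_eq_one.mpr h0))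
    by_cases hc : IsConj t (σ ^ m)
    · obtain ⟨g, hg⟩ := isConj_iff.mp hc
      rw [← irr_conj' ξ t g, hg, hJval]
    by_contra hne0
    obtain ⟨-, hnorm⟩ := h.norm_t hM ht hZ hc
    have htt := (h.inv t ht hZ).1
    have hord : orderOf t = 2 := orderOf_eq_prime (by rw [sq]; exact htt) ht1
    have h2G : 2 ∣ Nat.card G := by
      rw [← hord]
      exact orderOf_dvd_natCard t
    obtain ⟨z, hz⟩ := Cfsg.Agent.H15.Col.int_val ξ t (by
      intro k hk
      have hkodd : k % 2 = 1 := by
        have h1 : k.Coprime 2 := hk.coprime_dvd_right h2G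
        exact Nat.odd_iff.mp (Nat.coprime_two_right.mp h1)
      have h1 : t ^ k = t := by
        rw [← pow_mod_orderOf, hord, hkodd, pow_one]
      rw [h1])
    have hz0 : z ≠ 0 := by
      rintro rfl
      apply hne0
      simpa using hz
    rw [eB_sum_eq] at hnorm
    have hone : (oneIrr G).1 t = 1 := rfl
    rw [hone] at hnorm
    have hreal : ∀ χ : IrrCharacter G, χ.1 t * conj (χ.1 t) = ((Complex.normSq (χ.1 t) : ℝ) : ℂ) :=
      fun χ => Complex.mul_conj _
    simp only [hreal, map_one, mul_one] at hnorm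
    have hsum : (1 : ℝ) + ∑ χ ∈ Ss M G, Complex.normSq (χ.1 t) = 4 := by
      have : (((1 : ℝ) + ∑ χ ∈ Ss M G, Complex.normSq (χ.1 t) : ℝ) : ℂ) = ((4 : ℝ) : ℂ) := by
        push_cast at hnorm ⊢
        exact hnorm
      exact_mod_cast this
    have hle : Complex.normSq (ξ.1 t) ≤ ∑ χ ∈ Ss M G, Complex.normSq (χ.1 t) :=
      Finset.single_le_sum (f := fun χ : IrrCharacter G => Complex.normSq (χ.1 t))
        (fun i _ => Complex.normSq_nonneg _) hS
    have hzsq : z * z ≤ 3 := by
      have h1 : Complex.normSq (ξ.1 t) = ((z * z : ℤ) : ℝ) := by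
        rw [hz, Complex.normSq_intCast]
        push_cast
        ring
      have h2 : ((z * z : ℤ) : ℝ) ≤ ((3 : ℤ) : ℝ) := by
        rw [← h1]
        push_cast
        linarith
      exact_mod_cast h2
    have hz1 : z = 1 ∨ z = -1 := by
      have h3 : z ≤ 1 := by nlinarith
      have h4 : -1 ≤ z := by nlinarith
      omega
    -- the central character is integral
    have hint := cc_isIntegral t ξ
    unfold cc centralChar at hint
    rw [hz, deg_spec] at hint
    have hint2 : IsIntegral ℤ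
        (((centralizer ({t} : Set G)).index : ℂ) / ((charDegree ξ.1 : ℕ) : ℂ)) := by
      rcases hz1 with rfl | rfl
      · simpa using hint
      · have := hint.neg
        simpa [neg_div] using this
    have hdvd := Cfsg.Agent.H23.dvd_of_isIntegral_div hdpos hint2
    -- the 2-part of the order
    have h4C : 4 ∣ Nat.card (centralizer ({t} : Set G)) := by
      have h1 := Subgroup.card_dvd_of_le
        (inf_le_right : (P : Subgroup G) ⊓ centralizer ({t} : Set G) ≤ centralizer ({t} : Set G))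
      rwa [h.card_CP ht hZ] at h1
    have hidx := Subgroup.card_mul_index (centralizer ({t} : Set G))
    have h5 : (4 * (2 * m)) ∣ Nat.card G := by
      rw [← hidx]
      exact Nat.mul_dvd_mul h4C ((Dvd.intro _ hd.symm).trans hdvd)
    have hP4 : 2 ^ (Nat.card G).factorization 2 = 2 * (2 * m) := by
      rw [← P.card_eq_multiplicity, h.card]
    have h6 : 2 ^ ((Nat.card G).factorization 2 + 1) ∣ Nat.card G := by
      rw [pow_succ, hP4]
      convert h5 using 1
      ring
    exact Nat.pow_succ_factorization_not_dvd Nat.card_pos.ne' Nat.prime_two h6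
  have hcod := codegree_of_vanish_on_sylow P ξ hP0
  have hs : SameBlock M ξ.1 (oneIrr G).1 :=
    block_sameBlock principalBlock_isBlock hξ oneIrr_mem_principal
  exact hne (eq_of_mem_block_of_defect_zero hM ξ hcod hs).symm

end Cfsg.Agent.H15.Dih
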