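import Cfsg.Agent.Lib.H15.DihF

/-! # The structure of the principal 2-block for inversion fusion -/

set_option autoImplicit false
set_option linter.unusedSectionVars false
set_option linter.style.haveILetI false
set_option linter.unusedSimpArgs false

namespace Cfsg.Agent.H15.Dih

open Cfsg Cfsg.Agent.H21 Cfsg.Agent.H22
open Cfsg.Agent.H15.Homo (section_orth char_inner card_ne sum_neg_char char_neg_conj Bs Ss mem_Bs
  mem_Ss eB_sum_eq deg_spec deg_pos)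
open scoped ComplexConjugate

universe u

variable {G : Type u} [Group G] [Finite G] {M : Ideal AlgInt} [hMp : M.IsPrime]
variable {A : Type} [AddCommGroup A] [Fintype A] [DecidableEq A] (D : CD G A) (ω : AddChar A ℂ)

/-- The nontrivial characters other than `ω`. -/
abbrev II (ω : AddChar A ℂ) := {ψ : AddChar A ℂ // ψ ≠ 1 ∧ ψ ≠ ω}

/-- The orbit relation under inversion. -/
def RI (i j : II ω) : Prop := i.1 = j.1 ∨ i.1 = j.1⁻¹

/-- The structure of the block. -/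
structure BS (D : CD G A) (M : Ideal AlgInt) [M.IsPrime] (ω : AddChar A ℂ) where
  p : IrrCharacter G
  b : IrrCharacter G
  c : IrrCharacter G
  σ₀ : ℤ
  s₁ : ℤ
  s₂ : ℤ
  r : II ω → IrrCharacter G
  hp : p ∈ Ss M G
  hb : b ∈ Ss M G
  hc : c ∈ Ss M G
  hpb : p ≠ b
  hpc : p ≠ c
  hbc : b ≠ c
  hσ₀ : σ₀ = 1 ∨ σ₀ = -1
  hs₁ : s₁ = 1 ∨ s₁ = -1
  hs₂ : s₂ = 1 ∨ s₂ = -1
  wp : nZ D ω p = σ₀
  wb : nZ D ω b = s₁
  wc : nZ D ω c = s₂
  w0 : ∀ a ∈ Ss M G, a ≠ p → a ≠ b → a ≠ c → nZ D ω a = 0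
  hr : ∀ i : II ω, r i ∈ Ss M G ∧ r i ≠ p ∧ r i ≠ b ∧ r i ≠ c ∧ nZ D i.1 p = σ₀ ∧
    nZ D i.1 (r i) = -σ₀ ∧ (∀ a ∈ Ss M G, a ≠ p → a ≠ r i → nZ D i.1 a = 0) ∧
    ∀ j, RI ω i j ↔ r i = r j

theorem exists_BS (hM : IsPModular 2 M)
    (hnorm1 : ∀ a : A, a ≠ 0 → -a ≠ a → WW D M a a = (Fintype.card A : ℂ))
    (hnorm2 : ∀ a : A, a ≠ 0 → -a = a → WW D M a a = 2 * (Fintype.card A : ℂ))
    (hω1 : ω ≠ 1) (hωinv : ω⁻¹ = ω) (hωu : ∀ φ : AddChar A ℂ, φ ≠ 1 → φ⁻¹ = φ → φ = ω)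
    (hc : 8 ≤ Fintype.card A ∨ ∀ i j : II ω, RI ω i j) (i₀ : II ω) : Nonempty (BS D M ω) := by
  classical
  have hG := @gram_Z G _ _ M hMp A _ D _ _ hM hnorm1 hnorm2
  have hinv_ne : ∀ i : II ω, i.1 ≠ i.1⁻¹ := fun i h => i.2.2 (hωu i.1 i.2.1 h.symm)
  have hd : ∀ a ∈ Ss M G, 1 ≤ (charDegree a.1 : ℤ) := fun a _ => deg_pos a
  have hww : ∑ a ∈ Ss M G, nZ D ω a * nZ D ω a = 3 := by
    have h1 := hG hω1 hω1
    rw [if_pos rfl, if_pos hωinv.symm] at h1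
    have h2 : ((∑ a ∈ Ss M G, nZ D ω a * nZ D ω a : ℤ) : ℂ) = ((3 : ℤ) : ℂ) := by
      rw [h1]
      norm_num
    exact_mod_cast h2
  have hdw : ∑ a ∈ Ss M G, (charDegree a.1 : ℤ) * nZ D ω a = 1 := deg_rel D hM hω1
  have huR : ∀ i j : II ω, RI ω i j → ∑ a ∈ Ss M G, nZ D j.1 a * nZ D i.1 a = 2 := by
    intro i j hij
    have h1 := hG j.2.1 i.2.1
    have h2 : (if j.1 = i.1 then (1 : ℂ) else 0) + (if j.1 = i.1⁻¹ then 1 else 0) = 1 := by
      rcases hij with h | h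
      · rw [if_pos h.symm, if_neg (by rw [← h]; exact hinv_ne i)]
        ring
      · have h3 : j.1 = i.1⁻¹ := by rw [h, inv_inv]
        rw [if_neg (fun h4 => hinv_ne i (h4.symm.trans h3)), if_pos h3]
        ring
    have h3 : ((∑ a ∈ Ss M G, nZ D j.1 a * nZ D i.1 a : ℤ) : ℂ) = ((2 : ℤ) : ℂ) := by
      rw [h1, add_assoc, h2]
      norm_num
    exact_mod_cast h3
  have hunR : ∀ i j : II ω, ¬ RI ω i j → ∑ a ∈ Ss M G, nZ D j.1 a * nZ D i.1 a = 1 := by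
    intro i j hij
    have h1 := hG j.2.1 i.2.1
    unfold RI at hij
    push Not at hij
    have h2 : j.1 ≠ i.1⁻¹ := by
      intro h3
      apply hij.2
      rw [h3, inv_inv]
    rw [if_neg hij.1.symm, if_neg h2] at h1
    have h3 : ((∑ a ∈ Ss M G, nZ D j.1 a * nZ D i.1 a : ℤ) : ℂ) = ((1 : ℤ) : ℂ) := by
      rw [h1]
      norm_num
    exact_mod_cast h3
  have hwu : ∀ i : II ω, ∑ a ∈ Ss M G, nZ D ω a * nZ D i.1 a = 1 := by
    intro i
    have h1 := hG hω1 i.2.1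
    have h2 : ω ≠ i.1⁻¹ := by
      intro h3
      apply i.2.2
      have h4 : ω⁻¹ = (i.1⁻¹)⁻¹ := congrArg _ h3
      rw [inv_inv, hωinv] at h4
      exact h4.symm
    rw [if_neg i.2.2.symm, if_neg h2] at h1
    have h3 : ((∑ a ∈ Ss M G, nZ D ω a * nZ D i.1 a : ℤ) : ℂ) = ((1 : ℤ) : ℂ) := by
      rw [h1]
      norm_num
    exact_mod_cast h3
  have hdu : ∀ i : II ω, ∑ a ∈ Ss M G, (charDegree a.1 : ℤ) * nZ D i.1 a = 1 :=
    fun i => deg_rel D hM i.2.1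
  have hthird : ∀ i j : II ω, ¬ RI ω i j → ∃ k, ¬ RI ω i k ∧ ¬ RI ω j k := by
    intro i j hij
    rcases hc with hc | hc
    · by_contra hcon
      push Not at hcon
      have hsub : (Finset.univ : Finset (AddChar A ℂ)) ⊆ {1, ω, i.1, i.1⁻¹, j.1, j.1⁻¹} := by
        intro φ _
        simp only [Finset.mem_insert, Finset.mem_singleton]
        by_cases h1 : φ = 1
        · exact Or.inl h1
        by_cases h2 : φ = ω
        · exact Or.inr (Or.inl h2)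
        by_cases hR : RI ω i ⟨φ, h1, h2⟩
        · rcases hR with h3 | h3
          · exact Or.inr (Or.inr (Or.inl h3.symm))
          · right; right; right; left
            have h4 : i.1⁻¹ = φ := by
              rw [h3, inv_inv]
            exact h4.symm
        · rcases hcon _ hR with h3 | h3
          · right; right; right; right; left
            exact h3.symm
          · right; right; right; right; right
            have h4 : j.1⁻¹ = φ := by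
              rw [h3, inv_inv]
            exact h4.symm
      have h1 := Finset.card_le_card hsub
      have h2 : Fintype.card (AddChar A ℂ) = Fintype.card A := by
        convert AddChar.card_eq (α := A)
      rw [Finset.card_univ, h2] at h1
      have h3 := Finset.card_le_six (a := (1 : AddChar A ℂ)) (b := ω) (c := i.1) (d := i.1⁻¹)
        (e := j.1) (f := j.1⁻¹)
      omega
    · exact absurd (hc i j) hij
  obtain ⟨p, b, c, σ₀, s₁, s₂, r, hp, hb, hc', hpb, hpc, hbc, hσ₀, hs₁, hs₂, wp, wb, wc, w0, hr⟩ :=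
    dih_comb (Ss M G) (fun χ : IrrCharacter G => (charDegree χ.1 : ℤ)) (nZ D ω)
      (fun i : II ω => nZ D i.1) (RI ω) hd hww hdw huR hunR hwu hdu (fun i => Or.inl rfl) hthird i₀
  exact ⟨⟨p, b, c, σ₀, s₁, s₂, r, hp, hb, hc', hpb, hpc, hbc, hσ₀, hs₁, hs₂, wp, wb, wc, w0, hr⟩⟩

namespace BS

variable {D ω} (B : BS D M ω)

theorem sum_ω (f : IrrCharacter G → ℂ) :
    ∑ χ ∈ Ss M G, f χ * (nZ D ω χ : ℂ) = B.σ₀ * f B.p + B.s₁ * f B.b + B.s₂ * f B.c := by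
  classical
  rw [← Finset.sum_subset (s₁ := {B.p, B.b, B.c})]
  · rw [Finset.sum_insert, Finset.sum_insert, Finset.sum_singleton, B.wp, B.wb, B.wc]
    · ring
    · rw [Finset.mem_singleton]
      exact B.hbc
    · rw [Finset.mem_insert, Finset.mem_singleton, not_or]
      exact ⟨B.hpb, B.hpc⟩
  · intro x hx
    simp only [Finset.mem_insert, Finset.mem_singleton] at hx
    rcases hx with rfl | rfl | rfl
    · exact B.hp
    · exact B.hb
    · exact B.hc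
  · intro x hx hx2
    simp only [Finset.mem_insert, Finset.mem_singleton, not_or] at hx2
    rw [B.w0 x hx hx2.1 hx2.2.1 hx2.2.2]
    simp

theorem sum_i (i : II ω) (f : IrrCharacter G → ℂ) :
    ∑ χ ∈ Ss M G, f χ * (nZ D i.1 χ : ℂ) = B.σ₀ * f B.p - B.σ₀ * f (B.r i) := by
  classical
  obtain ⟨hrS, hrp, -, -, h1, h2, h0, -⟩ := B.hr i
  rw [← Finset.sum_subset (s₁ := {B.p, B.r i})]
  · rw [Finset.sum_pair hrp.symm, h1, h2]
    push_cast
    ring
  · intro x hx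
    simp only [Finset.mem_insert, Finset.mem_singleton] at hx
    rcases hx with rfl | rfl
    · exact B.hp
    · exact hrS
  · intro x hx hx2
    simp only [Finset.mem_insert, Finset.mem_singleton, not_or] at hx2
    rw [h0 x hx hx2.1 hx2.2]
    simp

theorem reg_ω (hM : IsPModular 2 M) (hω1 : ω ≠ 1) {y : G} (hy : ¬ 2 ∣ orderOf y) :
    -1 + B.σ₀ * B.p.1 y + B.s₁ * B.b.1 y + B.s₂ * B.c.1 y = 0 := by
  have h1 := reg_rel D hM hy ω
  rw [expand_S D (fun ζ => ζ.1 y) ω hω1, B.sum_ω (fun ζ => ζ.1 y)] at h1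
  have hone : (oneIrr G).1 y = 1 := rfl
  rw [hone] at h1
  linear_combination h1

theorem reg_i (hM : IsPModular 2 M) (i : II ω) {y : G} (hy : ¬ 2 ∣ orderOf y) :
    -1 + B.σ₀ * B.p.1 y - B.σ₀ * (B.r i).1 y = 0 := by
  have h1 := reg_rel D hM hy i.1
  rw [expand_S D (fun ζ => ζ.1 y) i.1 i.2.1, B.sum_i i (fun ζ => ζ.1 y)] at h1
  have hone : (oneIrr G).1 y = 1 := rfl
  rw [hone] at h1
  linear_combination h1

theorem value_p {a : A} (ha : a ≠ 0) : B.p.1 (D.ι a) = -(B.σ₀ : ℂ) := by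
  classical
  rw [← nC_inversion D B.p.1 ha]
  have h1 : ∀ φ : AddChar A ℂ, nC D B.p.1 φ * φ a = (B.σ₀ : ℂ) * φ a - if φ = 1 then (B.σ₀ : ℂ) else 0 := by
    intro φ
    by_cases hφ : φ = 1
    · subst hφ
      simp
    · rw [if_neg hφ, sub_zero, ← nZ_spec]
      by_cases hφ2 : φ = ω
      · rw [hφ2, B.wp]
      · rw [(B.hr ⟨φ, hφ, hφ2⟩).2.2.2.2.1]
  simp only [h1]
  rw [Finset.sum_sub_distrib, ← Finset.mul_sum, AddChar.sum_apply_eq_ite, if_neg ha, mul_zero,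
    Finset.sum_ite_eq', if_pos (Finset.mem_univ _), zero_sub]

/-- A general form of the value computation at a character supported at `ω`. -/
theorem value_single (hω1 : ω ≠ 1) {χ : IrrCharacter G} {s : ℤ} (h1 : nZ D ω χ = s)
    (h2 : ∀ i : II ω, nZ D i.1 χ = 0) {a : A} (ha : a ≠ 0) : χ.1 (D.ι a) = s * ω a := by
  classical
  rw [← nC_inversion D χ.1 ha, Finset.sum_eq_single ω]
  · rw [← nZ_spec, h1]
  · intro φ _ hφ
    by_cases hφ1 : φ = 1
    · subst hφ1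
      simp
    · rw [← nZ_spec, h2 ⟨φ, hφ1, hφ⟩]
      simp
  · intro h
    exact absurd (Finset.mem_univ _) h

theorem value_b (hω1 : ω ≠ 1) {a : A} (ha : a ≠ 0) : B.b.1 (D.ι a) = B.s₁ * ω a := by
  refine value_single hω1 B.wb (fun i => ?_) ha
  obtain ⟨-, -, hrb, -, -, -, h0, -⟩ := B.hr i
  exact h0 _ B.hb B.hpb.symm hrb.symm

theorem value_c (hω1 : ω ≠ 1) {a : A} (ha : a ≠ 0) : B.c.1 (D.ι a) = B.s₂ * ω a := by
  refine value_single hω1 B.wc (fun i => ?_) ha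
  obtain ⟨-, -, -, hrc, -, -, h0, -⟩ := B.hr i
  exact h0 _ B.hc B.hpc.symm hrc.symm

theorem value_r (hωinv : ω⁻¹ = ω) (hωu : ∀ φ : AddChar A ℂ, φ ≠ 1 → φ⁻¹ = φ → φ = ω) (i : II ω)
    {a : A} (ha : a ≠ 0) : (B.r i).1 (D.ι a) = -(B.σ₀ : ℂ) * (i.1 a + i.1⁻¹ a) := by
  classical
  obtain ⟨hrS, hrp, hrb, hrc, -, h2, h0, hR⟩ := B.hr i
  rw [← nC_inversion D (B.r i).1 ha]
  have hne : i.1 ≠ i.1⁻¹ := fun h => i.2.2 (hωu i.1 i.2.1 h.symm)
  have hinvω : i.1⁻¹ ≠ ω := by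
    intro h
    apply i.2.2
    have h4 : (i.1⁻¹)⁻¹ = ω⁻¹ := congrArg _ h
    rw [inv_inv, hωinv] at h4
    exact h4
  let i' : II ω := ⟨i.1⁻¹, inv_ne_one.mpr i.2.1, hinvω⟩
  have hri' : B.r i = B.r i' := (hR i').mp (Or.inr (by simp [i']))
  have h3 : nZ D i.1⁻¹ (B.r i) = -B.σ₀ := by
    rw [hri']
    exact (B.hr i').2.2.2.2.2.1
  rw [← Finset.sum_subset (Finset.subset_univ ({i.1, i.1⁻¹} : Finset (AddChar A ℂ)))]
  · rw [Finset.sum_pair hne, ← nZ_spec, ← nZ_spec, h2, h3]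
    push_cast
    ring
  · intro φ _ hφ
    simp only [Finset.mem_insert, Finset.mem_singleton, not_or] at hφ
    by_cases hφ1 : φ = 1
    · subst hφ1
      simp
    by_cases hφ2 : φ = ω
    · rw [← nZ_spec, hφ2, B.w0 _ hrS hrp hrb hrc]
      simp
    · have hnR : ¬ RI ω i ⟨φ, hφ1, hφ2⟩ := by
        rintro (h4 | h4)
        · exact hφ.1 h4.symm
        · apply hφ.2
          have h5 : i.1⁻¹ = φ := by
            rw [h4, inv_inv]
          exact h5.symm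
      have h5 : B.r i ≠ B.r ⟨φ, hφ1, hφ2⟩ := fun h6 => hnR ((hR _).mpr h6)
      rw [← nZ_spec, (B.hr ⟨φ, hφ1, hφ2⟩).2.2.2.2.2.2.1 _ hrS hrp h5]
      simp

/-- Every nontrivial character in the block is one of the listed ones. -/
theorem mem_cases (hE : ∀ ξ ∈ principalBlock M G, (∀ a : A, a ≠ 0 → ξ.1 (D.ι a) = 0) → ξ = oneIrr G)
    {χ : IrrCharacter G} (hχ : χ ∈ Ss M G) : χ = B.p ∨ χ = B.b ∨ χ = B.c ∨ ∃ i, χ = B.r i := by
  classical
  by_contra hcon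
  push Not at hcon
  obtain ⟨h1, h2, h3, h4⟩ := hcon
  have hS := mem_Ss.mp hχ
  apply hS.1
  apply hE χ hS.2
  intro a ha
  rw [← nC_inversion D χ.1 ha]
  apply Finset.sum_eq_zero
  intro φ _
  by_cases hφ1 : φ = 1
  · subst hφ1
    simp
  by_cases hφ2 : φ = ω
  · rw [← nZ_spec, hφ2, B.w0 _ hχ h1 h2 h3]
    simp
  · rw [← nZ_spec, (B.hr ⟨φ, hφ1, hφ2⟩).2.2.2.2.2.2.1 _ hχ h1 (h4 _)]
    simp

end BS

end Cfsg.Agent.H15.Dih
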