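import Cfsg.Agent.Lib.H15.DihC
import Cfsg.Agent.Lib.H15.DihD

/-! # The principal 2-block of a group with dihedral Sylow 2-subgroups -/

set_option autoImplicit false
set_option linter.unusedSectionVars false
set_option linter.style.haveILetI false
set_option linter.unusedSimpArgs false

namespace Cfsg.Agent.H15.Dih

open Cfsg Cfsg.Agent.H21 Cfsg.Agent.H22 Subgroup
open Cfsg.Agent.H15.Homo (section_orth char_inner card_ne sum_neg_char char_neg_conj Bs Ss mem_Bs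
  mem_Ss eB_sum_eq deg_spec deg_pos)
open scoped ComplexConjugate

universe u

section Psi

variable {m : ℕ} [NeZero (2 * m)] {ζ : ℂ} (hζ : IsPrimitiveRoot ζ (2 * m))

/-- The characters of the cyclic group. -/
noncomputable def psi (hζ : IsPrimitiveRoot ζ (2 * m)) (k : ℕ) : AddChar (ZMod (2 * m)) ℂ where
  toFun a := ζ ^ (k * a.val)
  map_zero_eq_one' := by simp
  map_add_eq_mul' a b := by
    have h1 : (ζ ^ k) ^ (2 * m) = 1 := by
      rw [← pow_mul, mul_comm, pow_mul, hζ.pow_eq_one, one_pow]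
    rw [ZMod.val_add, pow_mul, ← pow_eq_pow_mod _ h1, pow_add, ← pow_mul, ← pow_mul]

theorem psi_apply (k : ℕ) (a : ZMod (2 * m)) : psi hζ k a = ζ ^ (k * a.val) := rfl

theorem psi_surj (φ : AddChar (ZMod (2 * m)) ℂ) : ∃ k < 2 * m, φ = psi hζ k := by
  have h1 : φ 1 ^ (2 * m) = 1 := by
    rw [← AddChar.map_nsmul_eq_pow]
    simp
  obtain ⟨k, hk, hk'⟩ := hζ.eq_pow_of_pow_eq_one h1
  refine ⟨k, hk, ?_⟩
  ext a
  have h2 : a = a.val • (1 : ZMod (2 * m)) := by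
    rw [nsmul_one, ZMod.natCast_zmod_val]
  rw [psi_apply]
  nth_rw 1 [h2]
  rw [AddChar.map_nsmul_eq_pow, ← hk', ← pow_mul]

theorem psi_mul (k l : ℕ) : psi hζ k * psi hζ l = psi hζ (k + l) := by
  ext a
  rw [AddChar.mul_apply, psi_apply, psi_apply, psi_apply, ← pow_add, add_mul]

theorem psi_zero : psi hζ 0 = 1 := by
  ext a
  simp [psi_apply]

theorem psi_two_m : psi hζ (2 * m) = 1 := by
  ext a
  rw [psi_apply, mul_comm, pow_mul', hζ.pow_eq_one]
  simp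

include hζ in
theorem psi_one_val (hm : 2 ≤ m) : (1 : ZMod (2 * m)).val = 1 :=
  ZMod.val_one'' (by omega)

theorem psi_inj_lt (hm : 2 ≤ m) {k l : ℕ} (hk : k < 2 * m) (hl : l < 2 * m)
    (h : psi hζ k = psi hζ l) : k = l := by
  have h1 := congrArg (fun φ : AddChar (ZMod (2 * m)) ℂ => φ 1) h
  simp only [psi_apply, psi_one_val hζ hm, mul_one] at h1
  exact hζ.pow_inj hk hl h1

theorem psi_inv {k : ℕ} (hk : k ≤ 2 * m) : (psi hζ k)⁻¹ = psi hζ (2 * m - k) := by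
  symm
  apply eq_inv_of_mul_eq_one_left
  rw [psi_mul, Nat.sub_add_cancel hk, psi_two_m]

include hζ in
theorem zeta_m (hm : 2 ≤ m) : ζ ^ m = -1 := by
  have h1 : (ζ ^ m) ^ 2 = 1 := by
    rw [← pow_mul, mul_comm, hζ.pow_eq_one]
  have h2 : ζ ^ m ≠ 1 := hζ.pow_ne_one_of_pos_of_lt (by omega) (by omega)
  rw [sq] at h1
  rcases mul_self_eq_one_iff.mp h1 with h3 | h3
  · exact absurd h3 h2
  · exact h3

theorem psi_m_apply (hm : 2 ≤ m) (a : ZMod (2 * m)) : psi hζ m a = (-1) ^ a.val := by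
  rw [psi_apply, pow_mul, zeta_m hζ hm]

theorem ω_ne (hm : 2 ≤ m) : psi hζ m ≠ 1 := by
  intro h
  rw [← psi_zero hζ] at h
  have := psi_inj_lt hζ hm (by omega) (by omega) h
  omega

theorem ω_inv (hm : 2 ≤ m) : (psi hζ m)⁻¹ = psi hζ m := by
  rw [psi_inv hζ (by omega)]
  congr 1
  omega

theorem ω_uniq (hm : 2 ≤ m) (φ : AddChar (ZMod (2 * m)) ℂ) (h1 : φ ≠ 1) (h2 : φ⁻¹ = φ) :
    φ = psi hζ m := by
  obtain ⟨k, hk, rfl⟩ := psi_surj hζ φ
  have hk0 : k ≠ 0 := by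
    rintro rfl
    exact h1 (psi_zero hζ)
  rw [psi_inv hζ hk.le] at h2
  have := psi_inj_lt hζ hm (by omega) hk h2
  congr 1
  omega

theorem hc_of (hm : 2 ≤ m) (hev : Even m) :
    8 ≤ Fintype.card (ZMod (2 * m)) ∨ ∀ i j : II (psi hζ m), RI (psi hζ m) i j := by
  rw [ZMod.card]
  by_cases h4 : 4 ≤ m
  · left
    omega
  · right
    have hm2 : m = 2 := by
      obtain ⟨s, hs⟩ := hev
      omega
    rintro ⟨i, hi1, hi2⟩ ⟨j, hj1, hj2⟩
    obtain ⟨k, hk, rfl⟩ := psi_surj hζ i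
    obtain ⟨l, hl, rfl⟩ := psi_surj hζ j
    have hk0 : k ≠ 0 := by
      rintro rfl
      exact hi1 (psi_zero hζ)
    have hkm : k ≠ m := by
      rintro rfl
      exact hi2 rfl
    have hl0 : l ≠ 0 := by
      rintro rfl
      exact hj1 (psi_zero hζ)
    have hlm : l ≠ m := by
      rintro rfl
      exact hj2 rfl
    have hcase : k = l ∨ k = 2 * m - l := by omega
    rcases hcase with rfl | h3
    · exact Or.inl rfl
    · right
      show psi hζ k = (psi hζ l)⁻¹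
      rw [psi_inv hζ hl.le, h3]

/-- The representatives of the orbits of inversion. -/
noncomputable def ip (hm : 2 ≤ m) (j : Fin (m - 1)) : II (psi hζ m) :=
  ⟨psi hζ ((j : ℕ) + 1), by
    intro h
    rw [← psi_zero hζ] at h
    have hj := j.2
    have := psi_inj_lt hζ hm (by omega) (by omega) h
    omega, by
    intro h
    have hj := j.2
    have := psi_inj_lt hζ hm (by omega) (by omega) h
    omega⟩

theorem ip_val (hm : 2 ≤ m) (j : Fin (m - 1)) : (ip hζ hm j).1 = psi hζ ((j : ℕ) + 1) := rfl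

theorem ip_RI (hm : 2 ≤ m) {j j' : Fin (m - 1)} (h : RI (psi hζ m) (ip hζ hm j) (ip hζ hm j')) :
    j = j' := by
  have hj := j.2
  have hj' := j'.2
  apply Fin.ext
  rcases h with h | h
  · rw [ip_val, ip_val] at h
    have := psi_inj_lt hζ hm (by omega) (by omega) h
    omega
  · rw [ip_val, ip_val, psi_inv hζ (by omega)] at h
    have := psi_inj_lt hζ hm (by omega) (by omega) h
    omega

theorem exists_ip (hm : 2 ≤ m) (i : II (psi hζ m)) : ∃ j, RI (psi hζ m) i (ip hζ hm j) := by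
  obtain ⟨φ, hi1, hi2⟩ := i
  obtain ⟨k, hk, rfl⟩ := psi_surj hζ φ
  have hk0 : k ≠ 0 := by
    rintro rfl
    exact hi1 (psi_zero hζ)
  have hkm : k ≠ m := by
    rintro rfl
    exact hi2 rfl
  by_cases hlt : k < m
  · refine ⟨⟨k - 1, by omega⟩, Or.inl ?_⟩
    show psi hζ k = psi hζ (k - 1 + 1)
    congr 1
    omega
  · refine ⟨⟨2 * m - k - 1, by omega⟩, Or.inr ?_⟩
    show psi hζ k = (psi hζ (2 * m - k - 1 + 1))⁻¹
    rw [psi_inv hζ (by omega)]
    congr 1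
    omega

end Psi

variable {G : Type u} [Group G] [Finite G]

/-- **Brauer.** The principal 2-block for dihedral Sylow 2-subgroups. -/
theorem dih_main {P : Sylow 2 G} {σ : G} {m : ℕ} (h : DS P σ m) {M : Ideal AlgInt}
    (hM : IsPModular 2 M) {ζ : ℂ} (hζ : IsPrimitiveRoot ζ (2 * m)) :
    Nat.card (principalBlock M G) = 3 + m ∧
    ∃ (χ₁ χ₂ χ₃ : IrrCharacter G) (χ' : Fin (m - 1) → IrrCharacter G) (δ₁ δ₂ δ₃ : ℤ),
      (δ₁ = 1 ∨ δ₁ = -1) ∧ (δ₂ = 1 ∨ δ₂ = -1) ∧ (δ₃ = 1 ∨ δ₃ = -1) ∧ Function.Injective χ' ∧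
      (χ₁ : G → ℂ) ≠ (fun _ => 1) ∧ (χ₂ : G → ℂ) ≠ (fun _ => 1) ∧ (χ₃ : G → ℂ) ≠ (fun _ => 1) ∧
      χ₁ ≠ χ₂ ∧ χ₁ ≠ χ₃ ∧ χ₂ ≠ χ₃ ∧
      (∀ j, χ' j ≠ χ₁ ∧ χ' j ≠ χ₂ ∧ χ' j ≠ χ₃ ∧ (χ' j : G → ℂ) ≠ (fun _ => 1)) ∧
      principalBlock M G = {χ : IrrCharacter G | (χ : G → ℂ) = (fun _ => 1) ∨ χ = χ₁ ∨ χ = χ₂ ∨
        χ = χ₃ ∨ ∃ j, χ = χ' j} ∧
      (∀ l : ℕ, 0 < l → l < 2 * m → (χ₁ : G → ℂ) (σ ^ l) = δ₁ ∧
        (χ₂ : G → ℂ) (σ ^ l) = δ₂ * (-1) ^ (l + 1) ∧ (χ₃ : G → ℂ) (σ ^ l) = δ₃ * (-1) ^ (l + 1) ∧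
        ∀ j : Fin (m - 1), (χ' j : G → ℂ) (σ ^ l) =
          δ₁ * (ζ ^ (((j : ℕ) + 1) * l) + (ζ ^ (((j : ℕ) + 1) * l))⁻¹)) ∧
      ∀ ρ : G, Odd (orderOf ρ) → ∀ j : Fin (m - 1),
        1 + δ₁ * (χ₁ : G → ℂ) ρ = -δ₂ * (χ₂ : G → ℂ) ρ - δ₃ * (χ₃ : G → ℂ) ρ ∧
        1 + δ₁ * (χ₁ : G → ℂ) ρ = δ₁ * (χ' j : G → ℂ) ρ := by
  classical
  haveI hMp : M.IsPrime := hM.2.1.isPrime
  have hm := h.mtwo
  haveI : NeZero (2 * m) := ⟨by omega⟩
  set ω := psi hζ m with hω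
  have hω1 : ω ≠ 1 := ω_ne hζ hm
  have hωi : ω⁻¹ = ω := ω_inv hζ hm
  have hωu := ω_uniq hζ hm
  let D := mkCD h
  let j₀ : Fin (m - 1) := ⟨0, by omega⟩
  obtain ⟨B⟩ := exists_BS D ω hM (hnorm1 h hM) (hnorm2 h hM) hω1 hωi hωu (hc_of hζ hm h.meven)
    (ip hζ hm j₀)
  have hE : ∀ ξ ∈ principalBlock M G, (∀ a : ZMod (2 * m), a ≠ 0 → ξ.1 (D.ι a) = 0) → ξ = oneIrr G :=
    fun ξ hξ hv => no_vanish h hM hξ hv
  let χ' : Fin (m - 1) → IrrCharacter G := fun j => B.r (ip hζ hm j)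
  have hχ'S : ∀ j, χ' j ∈ Ss M G := fun j => (B.hr _).1
  have hχ'inj : Function.Injective χ' := by
    intro j j' hjj
    exact ip_RI hζ hm ((((B.hr (ip hζ hm j)).2.2.2.2.2.2.2) _).mpr hjj)
  have hne1 : ∀ χ ∈ Ss M G, (χ : G → ℂ) ≠ (fun _ => 1) := by
    intro χ hχ h1
    apply (mem_Ss.mp hχ).1
    exact Subtype.ext h1
  have hall : ∀ χ ∈ Ss M G, χ = B.p ∨ χ = B.b ∨ χ = B.c ∨ ∃ j, χ = χ' j := by
    intro χ hχ
    rcases B.mem_cases hE hχ with h1 | h1 | h1 | ⟨i, h1⟩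
    · exact Or.inl h1
    · exact Or.inr (Or.inl h1)
    · exact Or.inr (Or.inr (Or.inl h1))
    · right; right; right
      obtain ⟨j, hj⟩ := exists_ip hζ hm i
      exact ⟨j, h1.trans (((B.hr i).2.2.2.2.2.2.2 _).mp hj)⟩
  have hsub : ∀ χ ∈ Ss M G, χ ∈ principalBlock M G := fun χ hχ => (mem_Ss.mp hχ).2
  have hSeq : Ss M G = insert B.p (insert B.b (insert B.c (Finset.univ.image χ'))) := by
    ext χ
    simp only [Finset.mem_insert, Finset.mem_image, Finset.mem_univ, true_and]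
    constructor
    · intro hχ
      rcases hall χ hχ with h1 | h1 | h1 | ⟨j, h1⟩
      · exact Or.inl h1
      · exact Or.inr (Or.inl h1)
      · exact Or.inr (Or.inr (Or.inl h1))
      · exact Or.inr (Or.inr (Or.inr ⟨j, h1.symm⟩))
    · rintro (rfl | rfl | rfl | ⟨j, rfl⟩)
      · exact B.hp
      · exact B.hb
      · exact B.hc
      · exact hχ'S j
  have hcardS : (Ss M G).card = 3 + (m - 1) := by
    rw [hSeq, Finset.card_insert_of_notMem, Finset.card_insert_of_notMem,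
      Finset.card_insert_of_notMem, Finset.card_image_of_injective _ hχ'inj, Finset.card_univ,
      Fintype.card_fin]
    · omega
    · simp only [Finset.mem_image, Finset.mem_univ, true_and, not_exists]
      exact fun j => (B.hr _).2.2.2.1
    · simp only [Finset.mem_insert, Finset.mem_image, Finset.mem_univ, true_and, not_or, not_exists]
      exact ⟨B.hbc, fun j => (B.hr _).2.2.1⟩
    · simp only [Finset.mem_insert, Finset.mem_image, Finset.mem_univ, true_and, not_or, not_exists]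
      exact ⟨B.hpb, B.hpc, fun j => (B.hr _).2.1⟩
  have hcardB : Nat.card (principalBlock M G) = 3 + m := by
    have h1 : (principalBlock M G) = ((Bs M G : Finset (IrrCharacter G)) : Set (IrrCharacter G)) := by
      ext χ
      rw [Finset.mem_coe, mem_Bs]
    rw [Nat.card_coe_set_eq, h1, Set.ncard_coe_finset]
    have h2 : (Ss M G).card = (Bs M G).card - 1 := by
      unfold Ss
      rw [Finset.card_erase_of_mem (mem_Bs.mpr oneIrr_mem_principal)]
    have h3 : 0 < (Bs M G).card := Finset.card_pos.mpr ⟨_, mem_Bs.mpr oneIrr_mem_principal⟩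
    omega
  refine ⟨hcardB, B.p, B.b, B.c, χ', -B.σ₀, -B.s₁, -B.s₂, ?_, ?_, ?_, hχ'inj, hne1 _ B.hp, hne1 _ B.hb,
    hne1 _ B.hc, B.hpb, B.hpc, B.hbc, ?_, ?_, ?_, ?_⟩
  · rcases B.hσ₀ with h1 | h1 <;> rw [h1] <;> norm_num
  · rcases B.hs₁ with h1 | h1 <;> rw [h1] <;> norm_num
  · rcases B.hs₂ with h1 | h1 <;> rw [h1] <;> norm_num
  · intro j
    exact ⟨(B.hr _).2.1, (B.hr _).2.2.1, (B.hr _).2.2.2.1, hne1 _ (hχ'S j)⟩
  · ext χ
    simp only [Set.mem_ofPred_eq]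
    constructor
    · intro hχ
      by_cases h1 : χ = oneIrr G
      · left
        rw [h1]
        rfl
      · right
        exact hall χ (mem_Ss.mpr ⟨h1, hχ⟩)
    · rintro (h1 | rfl | rfl | rfl | ⟨j, rfl⟩)
      · have h2 : χ = oneIrr G := Subtype.ext h1
        rw [h2]
        exact oneIrr_mem_principal
      · exact hsub _ B.hp
      · exact hsub _ B.hb
      · exact hsub _ B.hc
      · exact hsub _ (hχ'S j)
  · intro l hl0 hl
    set a : ZMod (2 * m) := (l : ZMod (2 * m)) with ha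
    have hav : a.val = l := ZMod.val_natCast_of_lt hl
    have ha0 : a ≠ 0 := by
      intro h0
      rw [h0, ZMod.val_zero] at hav
      omega
    have hι : D.ι a = σ ^ l := by
      show iota σ m a = σ ^ l
      unfold iota
      rw [hav]
    have hωa : ω a = (-1) ^ l := by
      rw [hω, psi_m_apply hζ hm, hav]
    refine ⟨?_, ?_, ?_, ?_⟩
    · rw [← hι, B.value_p ha0]
      push_cast
      ring
    · rw [← hι, B.value_b hω1 ha0, hωa]
      push_cast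
      ring
    · rw [← hι, B.value_c hω1 ha0, hωa]
      push_cast
      ring
    · intro j
      rw [← hι]
      show (B.r (ip hζ hm j)).1 (D.ι a) = _
      rw [B.value_r hωi hωu _ ha0, ip_val, AddChar.inv_apply, AddChar.map_neg_eq_inv, psi_apply, hav]
      push_cast
      ring
  · intro ρ hρ j
    have hρ' : ¬ 2 ∣ orderOf ρ := by
      rw [← even_iff_two_dvd, Nat.not_even_iff_odd]
      exact hρ
    have h1 := B.reg_ω hM hω1 hρ'
    have h2 := B.reg_i hM (ip hζ hm j) hρ'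
    constructor
    · push_cast
      linear_combination -h1
    · push_cast
      show 1 + -(B.σ₀ : ℂ) * B.p.1 ρ = -(B.σ₀ : ℂ) * (B.r (ip hζ hm j)).1 ρ
      linear_combination -h2

end Cfsg.Agent.H15.Dih
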