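import Cfsg.Agent.Lib.H15.HomoC4
import Cfsg.Agent.Lib.H15.DihB1

/-! # Fourier analysis of the principal 2-block on a cyclic subgroup `⟨σ⟩` with inversion fusion -/

set_option autoImplicit false
set_option linter.unusedSectionVars false
set_option linter.style.haveILetI false
set_option linter.unusedSimpArgs false

namespace Cfsg.Agent.H15.Dih

open Cfsg Cfsg.Agent.H21 Cfsg.Agent.H22
open Cfsg.Agent.H15.Homo (section_orth char_inner card_ne sum_neg_char char_neg_conj Bs Ss mem_Bs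
  mem_Ss eB_sum_eq deg_spec deg_pos)
open scoped ComplexConjugate

universe u

variable {G : Type u} [Group G] [Finite G] {M : Ideal AlgInt} [hMp : M.IsPrime]

/-- The fusion data: conjugacy on the cyclic subgroup is given by inversion. -/
structure CD (G : Type u) [Group G] (A : Type) [AddCommGroup A] where
  ι : A → G
  ι_add : ∀ a b, ι (a + b) = ι a * ι b
  ι_inj : Function.Injective ι
  ord : ∀ a, ∃ k : ℕ, orderOf (ι a) = 2 ^ k
  conj_iff : ∀ a b, a ≠ 0 → (IsConj (ι a) (ι b) ↔ b = a ∨ b = -a)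

variable {A : Type} [AddCommGroup A] (D : CD G A)

namespace CD

theorem ι_zero : D.ι 0 = 1 := by
  have h := D.ι_add 0 0
  rw [add_zero] at h
  exact (left_eq_mul.mp h)

theorem ι_eq_one {a : A} : D.ι a = 1 ↔ a = 0 := by
  constructor
  · intro h
    apply D.ι_inj
    rw [h, ι_zero]
  · rintro rfl
    exact D.ι_zero

theorem ι_neg (a : A) : D.ι (-a) = (D.ι a)⁻¹ := by
  rw [eq_inv_iff_mul_eq_one, ← D.ι_add, neg_add_cancel, ι_zero]

theorem ι_nsmul (n : ℕ) (a : A) : D.ι (n • a) = D.ι a ^ n := by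
  induction n with
  | zero => simp [ι_zero]
  | succ n ih => rw [succ_nsmul, D.ι_add, ih, pow_succ]

theorem conj_neg (a : A) : IsConj (D.ι a) (D.ι (-a)) := by
  by_cases ha : a = 0
  · rw [ha, neg_zero]
  · exact (D.conj_iff a (-a) ha).mpr (Or.inr rfl)

end CD

theorem irr_neg (ζ : IrrCharacter G) (a : A) : ζ.1 (D.ι (-a)) = ζ.1 (D.ι a) := by
  obtain ⟨c, hc⟩ := isConj_iff.mp (D.conj_neg a)
  rw [← hc, irr_conj']

/-- The block inner product. -/
noncomputable def WW (M : Ideal AlgInt) [M.IsPrime] (a b : A) : ℂ :=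
  ∑ ζ : IrrCharacter G, eB (principalBlock M G) ζ * (ζ.1 (D.ι a) * conj (ζ.1 (D.ι b)))

variable [Fintype A] [DecidableEq A]

/-- The multiplicity differences. -/
noncomputable def nC (χ : G → ℂ) (ψ : AddChar A ℂ) : ℂ :=
  (Fintype.card A : ℂ)⁻¹ * ∑ a : A, χ (D.ι a) * (ψ (-a) - 1)

@[simp] theorem nC_one_right (χ : G → ℂ) : nC D χ (1 : AddChar A ℂ) = 0 := by
  unfold nC
  simp

theorem nC_trivial {ψ : AddChar A ℂ} (hψ : ψ ≠ 1) : nC D (fun _ => (1 : ℂ)) ψ = -1 := by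
  unfold nC
  simp only [one_mul]
  rw [Finset.sum_sub_distrib, sum_neg_char hψ]
  simp only [Finset.sum_const, Finset.card_univ, nsmul_eq_mul, mul_one, zero_sub]
  rw [mul_neg, inv_mul_cancel₀ card_ne]

/-- Inversion formula. -/
theorem nC_inversion (χ : G → ℂ) {a : A} (ha : a ≠ 0) :
    ∑ φ : AddChar A ℂ, nC D χ φ * φ a = χ (D.ι a) := by
  classical
  unfold nC
  have h1 : ∀ φ : AddChar A ℂ, ((Fintype.card A : ℂ)⁻¹ * ∑ b : A, χ (D.ι b) * (φ (-b) - 1)) * φ a =
      (Fintype.card A : ℂ)⁻¹ * ∑ b : A, χ (D.ι b) * (φ (a - b) - φ a) := by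
    intro φ
    rw [mul_assoc, Finset.sum_mul]
    congr 1
    refine Finset.sum_congr rfl fun b _ => ?_
    rw [sub_eq_add_neg a b, AddChar.map_add_eq_mul]
    ring
  simp only [h1]
  rw [← Finset.mul_sum, Finset.sum_comm]
  have h2 : ∀ b : A, ∑ φ : AddChar A ℂ, χ (D.ι b) * (φ (a - b) - φ a) =
      χ (D.ι b) * (if b = a then (Fintype.card A : ℂ) else 0) := by
    intro b
    rw [← Finset.mul_sum, Finset.sum_sub_distrib, AddChar.sum_apply_eq_ite, AddChar.sum_apply_eq_ite,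
      if_neg ha, sub_zero]
    congr 1
    by_cases hb : b = a
    · rw [if_pos (sub_eq_zero.mpr hb.symm), if_pos hb]
    · rw [if_neg (fun h => hb (sub_eq_zero.mp h).symm), if_neg hb]
  simp only [h2]
  rw [Finset.sum_eq_single a]
  · rw [if_pos rfl, ← mul_assoc, mul_comm, ← mul_assoc, mul_inv_cancel₀ card_ne, one_mul]
  · intro b _ hb
    rw [if_neg hb, mul_zero]
  · intro h
    exact absurd (Finset.mem_univ _) h

section Block

variable (hM : IsPModular 2 M)

include hM in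
/-- Orthogonality on the cyclic subgroup: different orbits. -/
theorem W_not_conj {a b : A} (hab : ¬ IsConj (D.ι a) (D.ι b)) : WW D M a b = 0 := by
  obtain ⟨k, hk⟩ := D.ord a
  apply section_orth hM hk
  intro c hc hconj
  obtain ⟨u, hu⟩ := isConj_iff.mp hconj
  have hp1 : IsPPart 2 (D.ι a * (c : G)) (D.ι a) := isPPart_mul_centralizer c hk hc
  have hp2 := isPPart_conj hp1 u
  rw [hu] at hp2
  have hp3 : IsPPart 2 (D.ι b) (D.ι b) :=
    ⟨1, mul_one _, Commute.one_right _, D.ord b, by rw [orderOf_one]; norm_num⟩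
  have h1 := pPart_unique hp2 hp3
  exact hab (isConj_iff.mpr ⟨u, h1⟩)

theorem WW_neg_right (a b : A) : WW D M a (-b) = WW D M a b := by
  unfold WW
  refine Finset.sum_congr rfl fun ζ _ => ?_
  rw [irr_neg]

include hM in
/-- The sum of a function over a row of the block column matrix. -/
theorem col_sum (hnorm1 : ∀ a : A, a ≠ 0 → -a ≠ a → WW D M a a = (Fintype.card A : ℂ))
    (hnorm2 : ∀ a : A, a ≠ 0 → -a = a → WW D M a a = 2 * (Fintype.card A : ℂ)) {a : A} (ha : a ≠ 0)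
    (f : A → ℂ) (hf : f 0 = 0) :
    ∑ b : A, f b * WW D M a b = (Fintype.card A : ℂ) * (f a + f (-a)) := by
  classical
  by_cases hneg : -a = a
  · rw [Finset.sum_eq_single a]
    · rw [hnorm2 a ha hneg, hneg]
      ring
    · intro b _ hb
      by_cases hb0 : b = 0
      · rw [hb0, hf, zero_mul]
      · rw [W_not_conj D hM, mul_zero]
        rw [D.conj_iff a b ha, hneg]
        tauto
    · intro h
      exact absurd (Finset.mem_univ _) h
  · rw [← Finset.sum_subset (Finset.subset_univ ({a, -a} : Finset A))]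
    · rw [Finset.sum_pair (Ne.symm hneg), WW_neg_right, hnorm1 a ha hneg]
      ring
    · intro b _ hb
      simp only [Finset.mem_insert, Finset.mem_singleton, not_or] at hb
      by_cases hb0 : b = 0
      · rw [hb0, hf, zero_mul]
      · rw [W_not_conj D hM, mul_zero]
        rw [D.conj_iff a b ha]
        tauto

theorem conj_nC (χ : G → ℂ) (φ : AddChar A ℂ) :
    conj (nC D χ φ) = (Fintype.card A : ℂ)⁻¹ * ∑ b : A, conj (χ (D.ι b)) * (φ b - 1) := by
  unfold nC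
  rw [map_mul, map_inv₀, Complex.conj_natCast, map_sum]
  congr 1
  refine Finset.sum_congr rfl fun b _ => ?_
  rw [map_mul, map_sub, map_one, char_neg_conj]

include hM in
/-- The Gram matrix of the multiplicity differences over the principal block. -/
theorem gram (hnorm1 : ∀ a : A, a ≠ 0 → -a ≠ a → WW D M a a = (Fintype.card A : ℂ))
    (hnorm2 : ∀ a : A, a ≠ 0 → -a = a → WW D M a a = 2 * (Fintype.card A : ℂ))
    {ψ φ : AddChar A ℂ} (hψ : ψ ≠ 1) (hφ : φ ≠ 1) :
    ∑ ζ : IrrCharacter G, eB (principalBlock M G) ζ * (nC D ζ.1 ψ * conj (nC D ζ.1 φ)) =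
      2 + (if ψ = φ then 1 else 0) + (if ψ = φ⁻¹ then 1 else 0) := by
  classical
  set q : ℂ := (Fintype.card A : ℂ) with hq
  have hq0 : q ≠ 0 := card_ne
  have h1 : ∀ ζ : IrrCharacter G, eB (principalBlock M G) ζ * (nC D ζ.1 ψ * conj (nC D ζ.1 φ)) =
      q⁻¹ * (q⁻¹ * ∑ a : A, (ψ (-a) - 1) * ∑ b : A, (φ b - 1) *
        (eB (principalBlock M G) ζ * (ζ.1 (D.ι a) * conj (ζ.1 (D.ι b))))) := by
    intro ζ
    rw [conj_nC]
    unfold nC
    have h2 : (∑ a : A, ζ.1 (D.ι a) * (ψ (-a) - 1)) * (∑ b : A, conj (ζ.1 (D.ι b)) * (φ b - 1)) *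
        eB (principalBlock M G) ζ = ∑ a : A, (ψ (-a) - 1) * ∑ b : A, (φ b - 1) *
        (eB (principalBlock M G) ζ * (ζ.1 (D.ι a) * conj (ζ.1 (D.ι b)))) := by
      rw [Finset.sum_mul, Finset.sum_mul]
      refine Finset.sum_congr rfl fun a _ => ?_
      rw [Finset.mul_sum, Finset.mul_sum, Finset.sum_mul]
      refine Finset.sum_congr rfl fun b _ => ?_
      ring
    rw [← h2]
    ring
  simp only [h1]
  rw [← Finset.mul_sum, ← Finset.mul_sum, Finset.sum_comm]
  have h2 : ∀ a : A, ∑ ζ : IrrCharacter G, (ψ (-a) - 1) * ∑ b : A, (φ b - 1) *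
        (eB (principalBlock M G) ζ * (ζ.1 (D.ι a) * conj (ζ.1 (D.ι b)))) =
      q * ((ψ (-a) - 1) * (φ a - 1) + (ψ (-a) - 1) * (φ⁻¹ a - 1)) := by
    intro a
    by_cases ha : a = 0
    · subst ha
      simp
    · rw [← Finset.mul_sum]
      have h3 : ∑ ζ : IrrCharacter G, ∑ b : A, (φ b - 1) *
          (eB (principalBlock M G) ζ * (ζ.1 (D.ι a) * conj (ζ.1 (D.ι b)))) =
          ∑ b : A, (φ b - 1) * WW D M a b := by
        rw [Finset.sum_comm]
        refine Finset.sum_congr rfl fun b _ => ?_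
        rw [WW, Finset.mul_sum]
      rw [h3, col_sum D hM hnorm1 hnorm2 ha (fun b => φ b - 1) (by simp)]
      simp only [AddChar.inv_apply]
      ring
  simp only [h2]
  rw [← Finset.mul_sum, ← mul_assoc q⁻¹ q, inv_mul_cancel₀ hq0, one_mul,
    Finset.sum_add_distrib, mul_add, char_inner hψ hφ, char_inner hψ (inv_ne_one.mpr hφ)]
  ring

include hM in
/-- The regular relation. -/
theorem reg_rel {y : G} (hy : ¬ 2 ∣ orderOf y) (ψ : AddChar A ℂ) :
    ∑ ζ : IrrCharacter G, eB (principalBlock M G) ζ * (ζ.1 y * nC D ζ.1 ψ) = 0 := by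
  classical
  have h1 : ∀ ζ : IrrCharacter G, eB (principalBlock M G) ζ * (ζ.1 y * nC D ζ.1 ψ) =
      (Fintype.card A : ℂ)⁻¹ * ∑ a : A, (ψ (-a) - 1) *
        (eB (principalBlock M G) ζ * (ζ.1 y * ζ.1 (D.ι a))) := by
    intro ζ
    unfold nC
    rw [mul_left_comm (ζ.1 y), mul_left_comm (eB _ ζ), Finset.mul_sum, Finset.mul_sum]
    congr 1
    refine Finset.sum_congr rfl fun a _ => ?_
    ring
  simp only [h1]
  rw [← Finset.mul_sum, Finset.sum_comm, Finset.sum_eq_zero, mul_zero]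
  intro a _
  by_cases ha : a = 0
  · subst ha
    simp
  · rw [← Finset.mul_sum]
    have h2 : ∀ ζ : IrrCharacter G, ζ.1 (D.ι a) = conj (ζ.1 (D.ι (-a))) := by
      intro ζ
      rw [D.ι_neg, irr_inv', Complex.conj_conj]
    simp only [h2]
    obtain ⟨k, hk⟩ := D.ord (-a)
    have hk0 : k ≠ 0 := by
      rintro rfl
      have h3 : D.ι (-a) = 1 := by
        rw [← orderOf_eq_one_iff, hk, pow_zero]
      rw [D.ι_eq_one] at h3
      exact ha (neg_eq_zero.mp h3)
    have hd : 2 ∣ orderOf (D.ι (-a)) := by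
      rw [hk]
      exact dvd_pow_self 2 hk0
    rw [block_orth_regular_singular hM principalBlock_isBlock hy hd, mul_zero]

end Block

section Integrality

/-- The embedding as a homomorphism. -/
def ιHom : Multiplicative A →* G where
  toFun x := D.ι (Multiplicative.toAdd x)
  map_one' := D.ι_zero
  map_mul' x y := D.ι_add _ _

theorem cN_exists (ζ : IrrCharacter G) (ψ : AddChar A ℂ) :
    ∃ n : ℕ, (Fintype.card A : ℂ)⁻¹ * ∑ a : A, ζ.1 (D.ι a) * ψ (-a) = n := by
  classical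
  let θ : Multiplicative A → ℂ := fun x => ψ (Multiplicative.toAdd x)
  have hθmul : ∀ x y, θ (x * y) = θ x * θ y := fun _ _ => AddChar.map_add_eq_mul ψ _ _
  have hθ1 : θ 1 = 1 := AddChar.map_zero_eq_one ψ
  have hirr : IsIrrCharacter (Multiplicative A) θ := Cfsg.Agent.H10.isIrrCharacter_of_mul θ hθmul hθ1
  have hchar := isCharacter_comp (ιHom D) (isCharacter_of_irr ζ.2)
  obtain ⟨n, hn⟩ := classInner_isNat hchar ⟨θ, hirr⟩
  refine ⟨n, ?_⟩
  rw [← hn]
  unfold classInner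
  have h1 : Nat.card (Multiplicative A) = Fintype.card A := by
    rw [Nat.card_congr Multiplicative.toAdd, Nat.card_eq_fintype_card]
  rw [h1]
  congr 1
  refine (Fintype.sum_equiv Multiplicative.toAdd _ _ fun x => ?_).symm
  show ζ.1 (D.ι (Multiplicative.toAdd x)) * conj (ψ (Multiplicative.toAdd x)) = _
  rw [AddChar.map_neg_eq_conj]

theorem nC_int (ζ : IrrCharacter G) (ψ : AddChar A ℂ) : ∃ z : ℤ, nC D ζ.1 ψ = z := by
  obtain ⟨n, hn⟩ := cN_exists D ζ ψ
  obtain ⟨n', hn'⟩ := cN_exists D ζ (1 : AddChar A ℂ)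
  refine ⟨(n : ℤ) - n', ?_⟩
  push_cast
  rw [← hn, ← hn']
  unfold nC
  rw [← mul_sub, ← Finset.sum_sub_distrib]
  congr 1
  refine Finset.sum_congr rfl fun a _ => ?_
  simp only [AddChar.one_apply]
  ring

/-- The integer multiplicity differences. -/
noncomputable def nZ (ψ : AddChar A ℂ) (ζ : IrrCharacter G) : ℤ := (nC_int D ζ ψ).choose

theorem nZ_spec (ψ : AddChar A ℂ) (ζ : IrrCharacter G) : ((nZ D ψ ζ : ℤ) : ℂ) = nC D ζ.1 ψ :=
  (nC_int D ζ ψ).choose_spec.symm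

/-- The natural number attached to the trivial character of the subgroup. -/
theorem cN_one (ζ : IrrCharacter G) :
    ∃ n : ℕ, ∑ a : A, ζ.1 (D.ι a) = (Fintype.card A : ℂ) * n := by
  obtain ⟨n, hn⟩ := cN_exists D ζ (1 : AddChar A ℂ)
  refine ⟨n, ?_⟩
  rw [← hn, ← mul_assoc, mul_inv_cancel₀ card_ne, one_mul]
  simp

theorem nZ_one {ψ : AddChar A ℂ} (hψ : ψ ≠ 1) : nZ D ψ (oneIrr G) = -1 := by
  have h := nZ_spec D ψ (oneIrr G)
  have h2 : nC D (oneIrr G).1 ψ = -1 := nC_trivial D hψ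
  rw [h2] at h
  exact_mod_cast h

theorem nZ_one_right (ζ : IrrCharacter G) : nZ D (1 : AddChar A ℂ) ζ = 0 := by
  have h := nZ_spec D (1 : AddChar A ℂ) ζ
  rw [nC_one_right] at h
  exact_mod_cast h

end Integrality

section Gram

variable (hM : IsPModular 2 M)
  (hnorm1 : ∀ a : A, a ≠ 0 → -a ≠ a → WW D M a a = (Fintype.card A : ℂ))
  (hnorm2 : ∀ a : A, a ≠ 0 → -a = a → WW D M a a = 2 * (Fintype.card A : ℂ))

include hM hnorm1 hnorm2

theorem gram_Z {ψ φ : AddChar A ℂ} (hψ : ψ ≠ 1) (hφ : φ ≠ 1) :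
    ((∑ χ ∈ Ss M G, nZ D ψ χ * nZ D φ χ : ℤ) : ℂ) =
      1 + (if ψ = φ then 1 else 0) + (if ψ = φ⁻¹ then 1 else 0) := by
  classical
  have h := gram D hM hnorm1 hnorm2 hψ hφ
  rw [eB_sum_eq] at h
  have h1 : ∀ χ : IrrCharacter G, nC D χ.1 ψ * conj (nC D χ.1 φ) =
      ((nZ D ψ χ * nZ D φ χ : ℤ) : ℂ) := by
    intro χ
    rw [← nZ_spec, ← nZ_spec, map_intCast]
    push_cast
    rfl
  simp only [h1] at h
  rw [nZ_one D hψ, nZ_one D hφ] at h
  push_cast at h ⊢
  linear_combination h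

end Gram

theorem expand_S (f : IrrCharacter G → ℂ) (ψ : AddChar A ℂ) (hψ : ψ ≠ 1) :
    ∑ ζ : IrrCharacter G, eB (principalBlock M G) ζ * (f ζ * nC D ζ.1 ψ) =
      - f (oneIrr G) + ∑ χ ∈ Ss M G, f χ * (nZ D ψ χ : ℂ) := by
  classical
  rw [eB_sum_eq]
  have h1 : nC D (oneIrr G).1 ψ = -1 := nC_trivial D hψ
  rw [h1]
  simp only [← nZ_spec]
  ring

/-- The degree relation. -/
theorem deg_rel (hM : IsPModular 2 M) {ψ : AddChar A ℂ} (hψ : ψ ≠ 1) :
    ∑ χ ∈ Ss M G, (charDegree χ.1 : ℤ) * nZ D ψ χ = 1 := by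
  have h1 := reg_rel D hM (y := (1 : G)) (by rw [orderOf_one]; norm_num) ψ
  rw [expand_S D (fun ζ => ζ.1 1) ψ hψ] at h1
  have hone : (oneIrr G).1 (1 : G) = 1 := rfl
  simp only [hone] at h1
  have h2 : ((∑ χ ∈ Ss M G, (charDegree χ.1 : ℤ) * nZ D ψ χ : ℤ) : ℂ) = ((1 : ℤ) : ℂ) := by
    push_cast
    have h3 : ∀ χ ∈ Ss M G, ((charDegree χ.1 : ℕ) : ℂ) * (nZ D ψ χ : ℂ) = χ.1 1 * (nZ D ψ χ : ℂ) := by
      intro χ _
      rw [deg_spec]
      simp
    rw [Finset.sum_congr rfl h3]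
    linear_combination h1
  exact_mod_cast h2

end Cfsg.Agent.H15.Dih
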