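import Cfsg.Agent.Lib.H15.HomoEnd
import Cfsg.Agent.Lib.H13.FrobFusion
import Cfsg.Agent.Lib.H13.Q8Act

/-! # Groups with dihedral Sylow 2-subgroups: local structure -/

set_option autoImplicit false
set_option linter.unusedSectionVars false
set_option linter.style.haveILetI false
set_option linter.unusedSimpArgs false

namespace Cfsg.Agent.H15.Dih

open Cfsg Cfsg.Agent.H21 Cfsg.Agent.H22 Subgroup
open scoped ComplexConjugate

universe u

variable {G : Type u} [Group G] [Finite G]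

theorem conj_into {H : Type*} [Group H] [Finite H] (P : Sylow 2 H) {Q : Subgroup H}
    (hQ : IsPGroup 2 Q) : ∃ g : H, ∀ x ∈ Q, g * x * g⁻¹ ∈ (P : Subgroup H) := by
  obtain ⟨S, hS⟩ := hQ.exists_le_sylow
  obtain ⟨g, hg⟩ := MulAction.exists_smul_eq H S P
  refine ⟨g, fun x hx => ?_⟩
  rw [← hg, Sylow.coe_subgroup_smul]
  exact Subgroup.smul_mem_pointwise_smul x (MulAut.conj g) _ (hS hx)

theorem pgroup_zpowers {H : Type*} [Group H] [Finite H] {g : H} {k : ℕ} (hg : g ^ (2 ^ k) = 1) :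
    IsPGroup 2 (zpowers g) := by
  obtain ⟨j, _, hj⟩ := (Nat.dvd_prime_pow Nat.prime_two).mp (orderOf_dvd_of_pow_eq_one hg)
  apply IsPGroup.of_card (n := j)
  rw [Nat.card_zpowers, hj]

theorem conj_elem_into {H : Type*} [Group H] [Finite H] (P : Sylow 2 H) {g : H} {k : ℕ}
    (hg : g ^ (2 ^ k) = 1) : ∃ c : H, c * g * c⁻¹ ∈ (P : Subgroup H) := by
  obtain ⟨c, hc⟩ := conj_into P (pgroup_zpowers hg)
  exact ⟨c, hc g (mem_zpowers g)⟩

theorem exists_nat_pow {σ z : G} (h : z ∈ zpowers σ) : ∃ i : ℕ, σ ^ i = z := by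
  have h1 : z ∈ Submonoid.powers σ := (mem_powers_iff_mem_zpowers).mpr h
  exact Submonoid.mem_powers_iff _ _ |>.mp h1

/-- The decomposition into a `2`-part and an odd part, both powers of the element. -/
theorem parts (g : G) : ∃ z ∈ zpowers g, ∃ w ∈ zpowers g, z * w = g ∧ (∃ k : ℕ, z ^ (2 ^ k) = 1) ∧
    Odd (orderOf w) := by
  set n := orderOf g with hn
  have hn0 : n ≠ 0 := (orderOf_pos g).ne'
  set a := 2 ^ n.factorization 2 with ha
  set c := n / a with hc
  have hac : a * c = n := Nat.mul_div_cancel' (Nat.ordProj_dvd n 2)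
  have hcop : Nat.Coprime a c := by
    rw [ha, hc]
    exact Nat.Coprime.pow_left _ (Nat.coprime_ordCompl Nat.prime_two hn0)
  have hgcd := Nat.gcd_eq_gcd_ab a c
  rw [hcop] at hgcd
  set x := Nat.gcdA a c
  set y := Nat.gcdB a c
  have hgn : g ^ ((a : ℤ) * (c : ℤ)) = 1 := by
    have : ((a : ℤ) * (c : ℤ)) = ((a * c : ℕ) : ℤ) := by push_cast; ring
    rw [this, zpow_natCast, hac, hn, pow_orderOf_eq_one]
  refine ⟨g ^ ((c : ℤ) * y), zpow_mem (mem_zpowers g) _, g ^ ((a : ℤ) * x),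
    zpow_mem (mem_zpowers g) _, ?_, ⟨n.factorization 2, ?_⟩, ?_⟩
  · rw [← zpow_add]
    have : (c : ℤ) * y + (a : ℤ) * x = 1 := by
      have h1 : ((1 : ℕ) : ℤ) = a * x + c * y := hgcd
      push_cast at h1
      linarith
    rw [this, zpow_one]
  · rw [← ha, ← zpow_natCast, ← zpow_mul]
    have : (c : ℤ) * y * (a : ℤ) = ((a : ℤ) * c) * y := by ring
    rw [this, zpow_mul, hgn, one_zpow]
  · have h1 : (g ^ ((a : ℤ) * x)) ^ c = 1 := by
      rw [← zpow_natCast, ← zpow_mul]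
      have : (a : ℤ) * x * (c : ℤ) = ((a : ℤ) * c) * x := by ring
      rw [this, zpow_mul, hgn, one_zpow]
    have h2 := orderOf_dvd_of_pow_eq_one h1
    have h3 : Odd c := by
      rw [← Nat.not_even_iff_odd, even_iff_two_dvd]
      exact Nat.not_dvd_ordCompl Nat.prime_two hn0
    exact Odd.of_dvd_nat h3 h2

/-- The dihedral data on a Sylow 2-subgroup. -/
structure DS (P : Sylow 2 G) (σ : G) (m : ℕ) : Prop where
  mem : σ ∈ (P : Subgroup G)
  ord : orderOf σ = 2 * m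
  mtwo : 2 ≤ m
  meven : Even m
  card : Nat.card (P : Subgroup G) = 2 * (2 * m)
  inv : ∀ y ∈ (P : Subgroup G), y ∉ zpowers σ → y * y = 1 ∧ y * σ * y⁻¹ = σ⁻¹
  mul : ∀ y ∈ (P : Subgroup G), ∀ y' ∈ (P : Subgroup G), y ∉ zpowers σ → y' ∉ zpowers σ →
    y * y' ∈ zpowers σ
  ex : ∃ t ∈ (P : Subgroup G), t ∉ zpowers σ

variable {P : Sylow 2 G} {σ : G} {m : ℕ} (h : DS P σ m)

namespace DS

include h

theorem Z_le : zpowers σ ≤ (P : Subgroup G) := by
  rw [zpowers_le]
  exact h.mem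

theorem zinv {y z : G} (hy : y ∈ (P : Subgroup G)) (hy' : y ∉ zpowers σ) (hz : z ∈ zpowers σ) :
    y * z * y⁻¹ = z⁻¹ := by
  obtain ⟨k, rfl⟩ := mem_zpowers_iff.mp hz
  rw [← conj_zpow, (h.inv y hy hy').2, inv_zpow]

theorem sq_mem {y : G} (hy : y ∈ (P : Subgroup G)) (hy2 : y * y ≠ 1) : y ∈ zpowers σ := by
  by_contra hn
  exact hy2 (h.inv y hy hn).1

theorem σm_sq : σ ^ m * σ ^ m = 1 := by
  rw [← pow_add, ← two_mul, ← h.ord, pow_orderOf_eq_one]

theorem m_pos : 0 < m := by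
  have := h.mtwo
  omega

theorem σm_ne : σ ^ m ≠ 1 := by
  intro h1
  have h2 := orderOf_dvd_of_pow_eq_one h1
  rw [h.ord] at h2
  have := Nat.le_of_dvd h.m_pos h2
  have := h.m_pos
  omega

theorem σm_mem : σ ^ m ∈ zpowers σ := npow_mem_zpowers σ m

theorem inv_in_Z {z : G} (hz : z ∈ zpowers σ) (h2 : z * z = 1) : z = 1 ∨ z = σ ^ m := by
  obtain ⟨i, rfl⟩ := exists_nat_pow hz
  have h3 : σ ^ (2 * i) = 1 := by
    rw [two_mul, pow_add]
    exact h2
  have h4 := orderOf_dvd_of_pow_eq_one h3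
  rw [h.ord] at h4
  have h5 : m ∣ i := Nat.dvd_of_mul_dvd_mul_left (by norm_num) h4
  obtain ⟨l, rfl⟩ := h5
  rw [pow_mul]
  have h6 := h.σm_sq
  rcases Nat.even_or_odd' l with ⟨s, rfl | rfl⟩
  · left
    rw [pow_mul, sq, h6, one_pow]
  · right
    rw [pow_succ, pow_mul, sq, h6, one_pow, one_mul]

theorem J_central {y : G} (hy : y ∈ (P : Subgroup G)) : y * σ ^ m = σ ^ m * y := by
  by_cases hyZ : y ∈ zpowers σ
  · obtain ⟨k, rfl⟩ := mem_zpowers_iff.mp hyZ
    exact (((Commute.refl σ).zpow_left k).pow_right m).eq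
  · have h1 := h.zinv hy hyZ h.σm_mem
    have h2 : (σ ^ m)⁻¹ = σ ^ m := inv_eq_of_mul_eq_one_left h.σm_sq
    rw [h2] at h1
    exact mul_inv_eq_iff_eq_mul.mp h1

theorem Z_comm {x y : G} (hx : x ∈ zpowers σ) (hy : y ∈ zpowers σ) : x * y = y * x := by
  obtain ⟨k, rfl⟩ := mem_zpowers_iff.mp hx
  obtain ⟨l, rfl⟩ := mem_zpowers_iff.mp hy
  exact (Commute.zpow_zpow (Commute.refl σ) k l).eq

/-- The centralizer of a noncentral involution in `P`. -/
theorem CP_eq {y z : G} (hy : y ∈ (P : Subgroup G)) (hy' : y ∉ zpowers σ) (hz : z ∈ (P : Subgroup G))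
    (hc : z * y = y * z) : z = 1 ∨ z = σ ^ m ∨ z = y ∨ z = σ ^ m * y := by
  have hyy := (h.inv y hy hy').1
  have hyinv : y⁻¹ = y := inv_eq_of_mul_eq_one_left hyy
  by_cases hzZ : z ∈ zpowers σ
  · have h1 := h.zinv hy hy' hzZ
    rw [← hc, mul_inv_cancel_right] at h1
    have h2 : z * z = 1 := by
      nth_rw 1 [h1]
      simp
    rcases h.inv_in_Z hzZ h2 with h3 | h3
    · exact Or.inl h3
    · exact Or.inr (Or.inl h3)
  · have h1 := h.mul z hz y hy hzZ hy'
    have h2 := h.zinv hy hy' h1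
    have h3 : y * (z * y) * y⁻¹ = z * y := by
      calc y * (z * y) * y⁻¹ = y * z := by group
        _ = z * y := hc.symm
    rw [h3] at h2
    have h4 : (z * y) * (z * y) = 1 := by
      nth_rw 1 [h2]
      simp
    rcases h.inv_in_Z h1 h4 with h5 | h5
    · right; right; left
      have := mul_eq_one_iff_eq_inv.mp h5
      rw [this, hyinv]
    · right; right; right
      rw [← h5, mul_assoc, hyy, mul_one]

theorem conj_σ_of_mem_P {y : G} (hy : y ∈ (P : Subgroup G)) : y * σ * y⁻¹ ∈ zpowers σ := by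
  by_cases hyZ : y ∈ zpowers σ
  · rw [h.Z_comm hyZ (mem_zpowers σ)]
    simp
  · rw [(h.inv y hy hyZ).2]
    exact inv_mem (mem_zpowers σ)

/-- An element of the normalizer of `⟨σ⟩` acts as `±1`. -/
theorem norm_action {g : G} (hg : g * σ * g⁻¹ ∈ zpowers σ) :
    g * σ * g⁻¹ = σ ∨ g * σ * g⁻¹ = σ⁻¹ := by
  classical
  have hnormal : ∀ {k : G}, k * σ * k⁻¹ ∈ zpowers σ → k ∈ normalizer (zpowers σ : Set G) := by
    intro k hk
    apply Cfsg.Agent.H13.mem_normalizer_of_map_conj_le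
    rintro _ ⟨u, hu, rfl⟩
    obtain ⟨i, rfl⟩ := mem_zpowers_iff.mp hu
    show k * σ ^ i * k⁻¹ ∈ zpowers σ
    rw [← conj_zpow]
    exact zpow_mem hk i
  set L := normalizer (zpowers σ : Set G) with hL
  have hPL : (P : Subgroup G) ≤ L := fun y hy => hnormal (h.conj_σ_of_mem_P hy)
  let PL : Sylow 2 L := P.subtype hPL
  have hPLc : (PL : Subgroup L) = (P : Subgroup G).subgroupOf L := P.coe_subtype hPL
  have hLmem : ∀ {c : G}, c ∈ L → c * σ * c⁻¹ ∈ zpowers σ := by
    intro c hc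
    exact (mem_normalizer_iff.mp hc σ).mp (mem_zpowers σ)
  have h2el : ∀ z : G, z ∈ L → (∃ k : ℕ, z ^ (2 ^ k) = 1) → z * σ * z⁻¹ = σ ∨ z * σ * z⁻¹ = σ⁻¹ := by
    rintro z hz ⟨k, hk⟩
    have hk' : (⟨z, hz⟩ : L) ^ (2 ^ k) = 1 := by
      apply Subtype.ext
      simpa using hk
    obtain ⟨c, hc⟩ := conj_elem_into PL hk'
    rw [hPLc, Subgroup.mem_subgroupOf] at hc
    have hy : (c : G) * z * (c : G)⁻¹ ∈ (P : Subgroup G) := hc
    have hu : (c : G) * σ * (c : G)⁻¹ ∈ zpowers σ := hLmem c.2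
    set y := (c : G) * z * (c : G)⁻¹ with hydef
    have hact : y * ((c : G) * σ * (c : G)⁻¹) * y⁻¹ = (c : G) * (z * σ * z⁻¹) * (c : G)⁻¹ := by
      rw [hydef]
      group
    by_cases hyZ : y ∈ zpowers σ
    · left
      have h1 : y * ((c : G) * σ * (c : G)⁻¹) * y⁻¹ = (c : G) * σ * (c : G)⁻¹ := by
        rw [h.Z_comm hyZ hu]
        simp
      rw [hact] at h1
      simpa using h1
    · right
      have h1 := h.zinv hy hyZ hu
      rw [hact] at h1
      have h2 : ((c : G) * σ * (c : G)⁻¹)⁻¹ = (c : G) * σ⁻¹ * (c : G)⁻¹ := by group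
      rw [h2] at h1
      simpa using h1
  obtain ⟨z, hz, w, hw, hzw, h2, hodd⟩ := parts g
  have hgL : zpowers g ≤ L := by
    rw [zpowers_le]
    exact hnormal hg
  have hσpow : σ ^ (2 ^ (Nat.card (P : Subgroup G)).factorization 2) = 1 := by
    have h1 : orderOf σ ∣ Nat.card (P : Subgroup G) := by
      have h3 : orderOf (⟨σ, h.mem⟩ : (P : Subgroup G)) ∣ Nat.card (P : Subgroup G) :=
        orderOf_dvd_natCard _
      rwa [Subgroup.orderOf_mk] at h3
    obtain ⟨e, he⟩ := P.2.exists_card_eq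
    have h4 : σ ^ Nat.card (P : Subgroup G) = 1 := orderOf_dvd_iff_pow_eq_one.mp h1
    rw [he] at h4 ⊢
    rw [Nat.Prime.factorization_pow Nat.prime_two]
    simpa using h4
  have hwc : w * σ = σ * w :=
    Cfsg.Agent.H13.odd_comm_of_conj_mem_zpowers hodd hσpow (hLmem (hgL hw))
  have hg1 : g * σ * g⁻¹ = z * σ * z⁻¹ := by
    rw [← hzw]
    calc z * w * σ * (z * w)⁻¹ = z * (w * σ) * w⁻¹ * z⁻¹ := by group
      _ = z * (σ * w) * w⁻¹ * z⁻¹ := by rw [hwc]
      _ = z * σ * z⁻¹ := by group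
  rw [hg1]
  exact h2el z (hgL hz) h2

end DS

/-- The centralizer has a normal 2-complement. -/
def NPCat (x : G) : Prop :=
  ∃ O : Subgroup (centralizer ({x} : Set G)), O.Normal ∧ (Nat.card O).Coprime 2 ∧
    ∃ k : ℕ, O.index = 2 ^ k

theorem exists_sylow_of {x : G} (Q₀ : Subgroup G) (hle : Q₀ ≤ centralizer ({x} : Set G))
    (hp : IsPGroup 2 Q₀)
    (hmax : ∀ Q' : Subgroup G, IsPGroup 2 Q' → Q₀ ≤ Q' → Q' ≤ centralizer ({x} : Set G) → Q' = Q₀) :
    ∃ Q : Sylow 2 (centralizer ({x} : Set G)),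
      (Q : Subgroup (centralizer ({x} : Set G))) = Q₀.subgroupOf (centralizer ({x} : Set G)) := by
  refine ⟨{ toSubgroup := Q₀.subgroupOf (centralizer ({x} : Set G))
            isPGroup' := hp.comap_of_injective (centralizer ({x} : Set G)).subtype
              (Subgroup.subtype_injective _)
            is_maximal' := ?_ }, rfl⟩
  intro Q' hQ' hle'
  have h1 : Q'.map (centralizer ({x} : Set G)).subtype = Q₀ := by
    apply hmax _ (hQ'.map _)
    · intro y hy
      exact ⟨⟨y, hle hy⟩, hle' (by rw [Subgroup.mem_subgroupOf]; exact hy), rfl⟩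
    · rintro _ ⟨y, _, rfl⟩
      exact y.2
  apply le_antisymm
  · intro y hy
    rw [Subgroup.mem_subgroupOf, ← h1]
    exact ⟨y, hy, rfl⟩
  · exact hle'

/-- The norm of the column of a `2`-element from a Sylow subgroup satisfying Burnside's condition. -/
theorem norm_of_sylow {M : Ideal AlgInt} [M.IsPrime] (hM : IsPModular 2 M) {x : G} {k : ℕ}
    (hx : orderOf x = 2 ^ k) (Q₀ : Subgroup G) (hle : Q₀ ≤ centralizer ({x} : Set G))
    (hp : IsPGroup 2 Q₀)
    (hmax : ∀ Q' : Subgroup G, IsPGroup 2 Q' → Q₀ ≤ Q' → Q' ≤ centralizer ({x} : Set G) → Q' = Q₀)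
    (hburn : ∀ g ∈ centralizer ({x} : Set G), g ∈ normalizer (Q₀ : Set G) →
      (∃ r : ℕ, Odd r ∧ g ^ r ∈ Q₀) → ∀ y ∈ Q₀, g * y = y * g) :
    NPCat x ∧ ∑ ζ : IrrCharacter G, eB (principalBlock M G) ζ * (ζ.1 x * conj (ζ.1 x)) =
      ((Nat.card Q₀ : ℕ) : ℂ) := by
  classical
  set C := centralizer ({x} : Set G) with hC
  obtain ⟨Q, hQ⟩ := exists_sylow_of Q₀ hle hp hmax
  have hN : normalizer (Q : Subgroup C) ≤ centralizer ((Q : Subgroup C) : Set C) := by
    intro g hg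
    rw [Subgroup.mem_centralizer_iff]
    intro a ha
    rw [SetLike.mem_coe, hQ, Subgroup.mem_subgroupOf] at ha
    have hgN : (g : G) ∈ normalizer (Q₀ : Set G) := by
      rw [Subgroup.mem_normalizer_iff]
      rw [Subgroup.mem_normalizer_iff] at hg
      intro h
      constructor
      · intro hh
        have hhC : h ∈ C := hle hh
        have h1 : (⟨h, hhC⟩ : C) ∈ (Q : Subgroup C) := by
          rw [hQ, Subgroup.mem_subgroupOf]
          exact hh
        have h2 := (hg _).mp h1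
        rw [hQ, Subgroup.mem_subgroupOf] at h2
        exact h2
      · intro hh
        have hhC : h ∈ C := by
          have h3 := hle hh
          have h4 : (g : G)⁻¹ * ((g : G) * h * (g : G)⁻¹) * (g : G) = h := by group
          rw [← h4]
          exact C.mul_mem (C.mul_mem (C.inv_mem g.2) h3) g.2
        have h1 : (g * ⟨h, hhC⟩ * g⁻¹ : C) ∈ (Q : Subgroup C) := by
          rw [hQ, Subgroup.mem_subgroupOf]
          exact hh
        have h2 := (hg _).mpr h1
        rw [hQ, Subgroup.mem_subgroupOf] at h2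
        exact h2
    obtain ⟨r, hr, hgr⟩ := Cfsg.Agent.H15.Homo.exists_odd_pow_mem Q hg
    rw [hQ, Subgroup.mem_subgroupOf] at hgr
    have h5 := hburn g g.2 hgN ⟨r, hr, by simpa using hgr⟩ _ ha
    apply Subtype.ext
    show (a : G) * (g : G) = (g : G) * (a : G)
    exact h5.symm
  let f := MonoidHom.transferSylow Q hN
  have hcompl := MonoidHom.ker_transferSylow_isComplement' Q hN
  have hcop : (Nat.card f.ker).Coprime 2 := by
    rw [Nat.coprime_comm, Nat.prime_two.coprime_iff_not_dvd]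
    exact Cfsg.Agent.H01.not_dvd_card_of_complement Q hcompl
  have hk2 : ∃ k : ℕ, f.ker.index = 2 ^ k := by
    obtain ⟨k, hk⟩ := Q.2.exists_card_eq
    exact ⟨k, by rw [hcompl.symm.index_eq_card, hk]⟩
  haveI hOn : f.ker.Normal := MonoidHom.normal_ker _
  refine ⟨⟨f.ker, hOn, hcop, hk2⟩, ?_⟩
  have hy : ¬ 2 ∣ orderOf (1 : C) := by
    rw [orderOf_one]
    norm_num
  have h1 := principal_norm_sum (M := M) hM hx (1 : C) hy
  have h2 := principal_column_npc (M := M) hM f.ker hcop hk2 hy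
  rw [h2] at h1
  have hcQ : Nat.card (Q : Subgroup C) = Nat.card Q₀ := by
    rw [hQ]
    exact Nat.card_congr (Subgroup.subgroupOfEquivOfLe hle).toEquiv
  have h3 := finsum_norm_sq_cast (principalBlock M G) (fun ζ : IrrCharacter G => ζ.1 x)
  simp only [Subgroup.coe_one, mul_one] at h1
  rw [← hcQ, Q.card_eq_multiplicity, ← h3, h1]
  norm_cast

end Cfsg.Agent.H15.Dih
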