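import Cfsg.Agent.Lib.H15.DihE

/-! # From an abstract dihedral group to the dihedral data -/

set_option autoImplicit false
set_option linter.unusedSectionVars false
set_option linter.style.haveILetI false
set_option linter.unusedSimpArgs false

namespace Cfsg.Agent.H15.Dih

open Subgroup DihedralGroup

universe u

variable {G : Type u} [Group G] [Finite G]

/-- The dihedral data from an isomorphism with a dihedral group. -/
theorem ds_of_iso {P : Sylow 2 G} {σ : G} {m : ℕ} (hm : 2 ≤ m) (hev : Even m)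
    (e : (P : Subgroup G) ≃* DihedralGroup (2 * m)) (hσ : σ ∈ (P : Subgroup G))
    (hσo : orderOf σ = 2 * m) : DS P σ m := by
  classical
  haveI : NeZero (2 * m) := ⟨by omega⟩
  set σ' : (P : Subgroup G) := ⟨σ, hσ⟩ with hσ'
  have hord : orderOf (e σ') = 2 * m := by
    rw [MulEquiv.orderOf_eq, hσ', Subgroup.orderOf_mk, hσo]
  obtain ⟨i, hi⟩ : ∃ i : ZMod (2 * m), e σ' = r i := by
    cases hes : e σ' with
    | r i => exact ⟨i, rfl⟩
    | sr j =>
      rw [hes, orderOf_sr] at hord
      omega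
  have hcop : Nat.Coprime i.val (2 * m) := by
    rw [hi, orderOf_r] at hord
    have h1 : Nat.gcd (2 * m) i.val ∣ 2 * m := Nat.gcd_dvd_left _ _
    obtain ⟨c, hc⟩ := h1
    have h2 : 0 < Nat.gcd (2 * m) i.val := Nat.gcd_pos_of_pos_left _ (by omega)
    have h3 : 2 * m / Nat.gcd (2 * m) i.val = c := by
      nth_rw 1 [hc]
      exact Nat.mul_div_cancel_left _ h2
    rw [h3] at hord
    have h4 : Nat.gcd (2 * m) i.val = 1 := by
      rw [hord] at hc
      have h5 : 1 * (2 * m) = Nat.gcd (2 * m) i.val * (2 * m) := by omega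
      exact (Nat.eq_of_mul_eq_mul_right (by omega) h5).symm
    exact Nat.Coprime.symm h4
  have hrot : ∀ y : (P : Subgroup G), ∀ a : ZMod (2 * m), e y = r a → (y : G) ∈ zpowers σ := by
    intro y a hy
    have h1 := ZMod.coe_mul_inv_eq_one i.val hcop
    rw [ZMod.natCast_zmod_val] at h1
    set k : ℕ := (a * i⁻¹).val with hk
    have h2 : e y = e (σ' ^ k) := by
      rw [hy, map_pow, hi, r_pow, hk, ZMod.natCast_zmod_val]
      congr 1
      rw [mul_comm a, ← mul_assoc, h1, one_mul]
    have h3 := e.injective h2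
    rw [h3]
    show σ ^ k ∈ zpowers σ
    exact npow_mem_zpowers σ k
  have hsr : ∀ y : (P : Subgroup G), (y : G) ∉ zpowers σ → ∃ j : ZMod (2 * m), e y = sr j := by
    intro y hy
    cases hes : e y with
    | r a => exact absurd (hrot y a hes) hy
    | sr j => exact ⟨j, rfl⟩
  refine ⟨hσ, hσo, hm, hev, ?_, ?_, ?_, ?_⟩
  · rw [Nat.card_congr e.toEquiv, nat_card]
  · intro y hy hyZ
    obtain ⟨j, hj⟩ := hsr ⟨y, hy⟩ hyZ
    constructor
    · have h1 : e (⟨y, hy⟩ * ⟨y, hy⟩) = 1 := by
        rw [map_mul, hj, sr_mul_sr, sub_self]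
        rfl
      have h2 := e.injective (h1.trans (map_one e).symm)
      exact congrArg Subtype.val h2
    · have h1 : e (⟨y, hy⟩ * σ' * ⟨y, hy⟩⁻¹) = e (σ'⁻¹) := by
        rw [map_mul, map_mul, map_inv, map_inv, hj, hi]
        have h3 : (sr j : DihedralGroup (2 * m))⁻¹ = sr j := by
          rw [inv_eq_of_mul_eq_one_left]
          rw [sr_mul_sr, sub_self]
          rfl
        rw [h3, sr_mul_r, sr_mul_sr]
        rw [show j - (j + i) = -i by ring]
        rfl
      have h2 := e.injective h1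
      exact congrArg Subtype.val h2
  · intro y hy y' hy' hyZ hy'Z
    obtain ⟨j, hj⟩ := hsr ⟨y, hy⟩ hyZ
    obtain ⟨j', hj'⟩ := hsr ⟨y', hy'⟩ hy'Z
    have h1 : e (⟨y, hy⟩ * ⟨y', hy'⟩) = r (j' - j) := by
      rw [map_mul, hj, hj', sr_mul_sr]
    exact hrot _ _ h1
  · refine ⟨(e.symm (sr 0) : (P : Subgroup G)), (e.symm (sr 0)).2, ?_⟩
    intro hZ
    obtain ⟨k, hk⟩ := exists_nat_pow hZ
    have h1 : (e.symm (sr 0) : (P : Subgroup G)) = σ' ^ k := by
      apply Subtype.ext
      rw [← hk]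
      rfl
    have h2 := congrArg e h1
    rw [MulEquiv.apply_symm_apply, map_pow, hi, r_pow] at h2
    exact absurd h2 (by simp)

end Cfsg.Agent.H15.Dih
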