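import Cfsg.Agent.Lib.H15.DihIso

/-! # Dihedral Sylow 2-subgroups with one class of involutions: counting pairs -/

set_option autoImplicit false
set_option linter.unusedSectionVars false
set_option linter.style.haveILetI false
set_option linter.unusedSimpArgs false

namespace Cfsg.Agent.H15.Dih

open Cfsg Cfsg.Agent.H21 Cfsg.Agent.H22 Subgroup

universe u

variable {G : Type u} [Group G] [Finite G]

/-- Pairwise commuting involutions generate a 2-group. -/
theorem pgroup_closure3 {a b c : G} (haa : a * a = 1) (hbb : b * b = 1) (hcc : c * c = 1)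
    (hab : a * b = b * a) (hac : a * c = c * a) (hbc : b * c = c * b) :
    IsPGroup 2 (closure ({a, b, c} : Set G)) := by
  set S : Set G := {a, b, c} with hS
  have hgen : ∀ u ∈ S, ∀ v ∈ S, u * v = v * u := by
    rintro u (rfl | rfl | rfl) v (rfl | rfl | rfl)
    · rfl
    · exact hab
    · exact hac
    · exact hab.symm
    · rfl
    · exact hbc
    · exact hac.symm
    · exact hbc.symm
    · rfl
  have hinv : ∀ {x y : G}, x * y = y * x → x⁻¹ * y = y * x⁻¹ := by
    intro x y hxy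
    have : Commute x y := hxy
    exact this.inv_left.eq
  have h1 : ∀ u ∈ closure S, ∀ v ∈ S, u * v = v * u := by
    intro u hu v hv
    induction hu using Subgroup.closure_induction with
    | mem x hx => exact hgen x hx v hv
    | one => simp
    | mul x y _ _ hx hy =>
      rw [mul_assoc, hy, ← mul_assoc, hx, mul_assoc]
    | inv x _ hx => exact hinv hx
  have h2 : ∀ u ∈ closure S, ∀ v ∈ closure S, u * v = v * u := by
    intro u hu v hv
    induction hv using Subgroup.closure_induction with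
    | mem x hx => exact h1 u hu x hx
    | one => simp
    | mul x y _ _ hx hy =>
      rw [← mul_assoc, hx, mul_assoc, hy, mul_assoc]
    | inv x _ hx =>
      have : Commute u x := hx
      exact this.inv_right.eq
  have h3 : ∀ u ∈ closure S, u * u = 1 := by
    intro u hu
    induction hu using Subgroup.closure_induction with
    | mem x hx =>
      rcases hx with rfl | rfl | rfl
      · exact haa
      · exact hbb
      · exact hcc
    | one => simp
    | mul x y hxm hym hx hy =>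
      have := h2 x hxm y hym
      calc x * y * (x * y) = x * (y * x) * y := by group
        _ = x * (x * y) * y := by rw [this]
        _ = (x * x) * (y * y) := by group
        _ = 1 := by rw [hx, hy, one_mul]
    | inv x _ hx =>
      rw [← mul_inv_rev, hx, inv_one]
  intro g
  refine ⟨1, ?_⟩
  apply Subtype.ext
  have := h3 g g.2
  simp only [pow_one, sq, Subgroup.coe_mul, Subgroup.coe_one]
  exact this

variable {P : Sylow 2 G} {σ : G} {m : ℕ} (h : DS P σ m)

namespace DS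

include h

theorem conj_two (τ : G) (hτ : τ ∈ (P : Subgroup G)) (hτZ : τ ∉ zpowers σ) (e : ℕ) :
    σ ^ e * τ * (σ ^ e)⁻¹ = σ ^ (2 * e) * τ := by
  have h1 := h.zinv hτ hτZ (inv_mem (npow_mem_zpowers σ e))
  rw [inv_inv] at h1
  have h2 : τ * (σ ^ e)⁻¹ = σ ^ e * τ := mul_inv_eq_iff_eq_mul.mp h1
  rw [mul_assoc, h2, ← mul_assoc, two_mul, pow_add]

/-- The two classes of `P` outside `⟨σ⟩`. -/
theorem P_class {τ y : G} (hτ : τ ∈ (P : Subgroup G)) (hτZ : τ ∉ zpowers σ)
    (hy : y ∈ (P : Subgroup G)) (hyZ : y ∉ zpowers σ) :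
    (∃ e : ℕ, y = σ ^ e * τ * (σ ^ e)⁻¹) ∨ (∃ e : ℕ, y = σ ^ e * (σ * τ) * (σ ^ e)⁻¹) := by
  obtain ⟨k, hk⟩ := exists_nat_pow (h.mul y hy τ hτ hyZ hτZ)
  have hττ := (h.inv τ hτ hτZ).1
  have hyk : y = σ ^ k * τ := by
    rw [hk, mul_assoc, hττ, mul_one]
  rcases Nat.even_or_odd' k with ⟨e, rfl | rfl⟩
  · left
    exact ⟨e, by rw [h.conj_two τ hτ hτZ]; exact hyk⟩
  · right
    refine ⟨e, ?_⟩
    have h1 := h.conj_two τ hτ hτZ e
    rw [hyk]
    calc σ ^ (2 * e + 1) * τ = σ * (σ ^ (2 * e) * τ) := by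
          rw [pow_succ', mul_assoc]
      _ = σ * (σ ^ e * τ * (σ ^ e)⁻¹) := by rw [h1]
      _ = σ ^ e * (σ * τ) * (σ ^ e)⁻¹ := by
          have : Commute σ (σ ^ e) := (Commute.refl σ).pow_right _
          rw [← mul_assoc, ← mul_assoc, this.eq]
          group

/-- The two classes of `P` outside `⟨σ⟩` are different. -/
theorem not_P_conj {τ p : G} (hτ : τ ∈ (P : Subgroup G)) (hτZ : τ ∉ zpowers σ)
    (hp : p ∈ (P : Subgroup G)) : p * τ * p⁻¹ ≠ σ * τ := by
  have hττ := (h.inv τ hτ hτZ).1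
  have hτinv : τ⁻¹ = τ := inv_eq_of_mul_eq_one_left hττ
  have hm := h.mtwo
  have key : ∀ e : ℕ, σ ^ e * τ * (σ ^ e)⁻¹ ≠ σ * τ := by
    intro e he
    rw [h.conj_two τ hτ hτZ] at he
    have h1 : σ ^ (2 * e) = σ ^ 1 := by
      rw [pow_one]
      exact mul_right_cancel he
    have h2 := (pow_eq_pow_iff_modEq.mp h1)
    rw [h.ord] at h2
    unfold Nat.ModEq at h2
    rw [Nat.mul_mod_mul_left, Nat.mod_eq_of_lt (by omega : 1 < 2 * m)] at h2
    omega
  by_cases hpZ : p ∈ zpowers σ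
  · obtain ⟨e, rfl⟩ := exists_nat_pow hpZ
    exact key e
  · obtain ⟨e, he⟩ := exists_nat_pow (h.mul p hp τ hτ hpZ hτZ)
    have hpe : p = σ ^ e * τ := by
      rw [he, mul_assoc, hττ, mul_one]
    rw [hpe]
    intro h1
    apply key e
    have h2 : σ ^ e * τ * τ * (σ ^ e * τ)⁻¹ = σ ^ e * τ * (σ ^ e)⁻¹ := by
      calc σ ^ e * τ * τ * (σ ^ e * τ)⁻¹ = σ ^ e * (τ * τ) * τ⁻¹ * (σ ^ e)⁻¹ := by group
        _ = σ ^ e * τ * (σ ^ e)⁻¹ := by rw [hττ, mul_one, hτinv]
    rw [← h2]
    exact h1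

/-- All involutions are conjugate. -/
theorem all_inv_conj (hcl : ∀ y ∈ (P : Subgroup G), y ∉ zpowers σ → IsConj y (σ ^ m)) {t : G}
    (ht : t * t = 1) (ht1 : t ≠ 1) : IsConj t (σ ^ m) := by
  obtain ⟨g, hg⟩ := conj_elem_into P (g := t) (k := 1) (by rw [pow_one, sq]; exact ht)
  set y := g * t * g⁻¹ with hy
  have hyy : y * y = 1 := by
    rw [hy]
    calc g * t * g⁻¹ * (g * t * g⁻¹) = g * (t * t) * g⁻¹ := by group
      _ = 1 := by rw [ht]; group
  have hty : IsConj t y := isConj_iff.mpr ⟨g, rfl⟩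
  by_cases hyZ : y ∈ zpowers σ
  · rcases h.inv_in_Z hyZ hyy with h1 | h1
    · exact absurd (conj_eq_one_iff.mp h1) ht1
    · rw [← h1]
      exact hty
  · exact hty.trans (hcl y hg hyZ)

/-- The 2-rank is at most two. -/
theorem rank_two {a b c : G} (haa : a * a = 1) (hbb : b * b = 1) (hcc : c * c = 1)
    (ha1 : a ≠ 1) (hb1 : b ≠ 1) (hc1 : c ≠ 1) (hab : a * b = b * a) (hac : a * c = c * a)
    (hbc : b * c = c * b) (hne : a ≠ b) : c = a ∨ c = b ∨ c = a * b := by
  obtain ⟨g, hg⟩ := conj_into P (pgroup_closure3 haa hbb hcc hab hac hbc)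
  have hmem : ∀ x ∈ ({a, b, c} : Set G), g * x * g⁻¹ ∈ (P : Subgroup G) := fun x hx =>
    hg x (subset_closure hx)
  have hinj : ∀ {x y : G}, g * x * g⁻¹ = g * y * g⁻¹ → x = y := by
    intro x y hxy
    simpa using hxy
  have hcomm : ∀ {x y : G}, x * y = y * x → (g * x * g⁻¹) * (g * y * g⁻¹) = (g * y * g⁻¹) * (g * x * g⁻¹) := by
    intro x y hxy
    calc (g * x * g⁻¹) * (g * y * g⁻¹) = g * (x * y) * g⁻¹ := by group
      _ = g * (y * x) * g⁻¹ := by rw [hxy]
      _ = (g * y * g⁻¹) * (g * x * g⁻¹) := by group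
  have hsq : ∀ {x : G}, x * x = 1 → (g * x * g⁻¹) * (g * x * g⁻¹) = 1 := by
    intro x hx
    calc (g * x * g⁻¹) * (g * x * g⁻¹) = g * (x * x) * g⁻¹ := by group
      _ = 1 := by rw [hx]; group
  have hne1 : ∀ {x : G}, x ≠ 1 → g * x * g⁻¹ ≠ 1 := fun hx h0 => hx (conj_eq_one_iff.mp h0)
  have hpr : ∀ x y : G, (g * x * g⁻¹) * (g * y * g⁻¹) = g * (x * y) * g⁻¹ := by
    intro x y
    group
  have haP := hmem a (by simp)
  have hbP := hmem b (by simp)
  have hcP := hmem c (by simp)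
  by_cases haZ : g * a * g⁻¹ ∈ zpowers σ
  · have haJ := (h.inv_in_Z haZ (hsq haa)).resolve_left (hne1 ha1)
    have hbZ : g * b * g⁻¹ ∉ zpowers σ := by
      intro hz
      have hbJ := (h.inv_in_Z hz (hsq hbb)).resolve_left (hne1 hb1)
      exact hne (hinj (haJ.trans hbJ.symm))
    have hcb : (g * c * g⁻¹) * (g * b * g⁻¹) = (g * b * g⁻¹) * (g * c * g⁻¹) := hcomm hbc.symm
    rcases h.CP_eq hbP hbZ hcP hcb with h1 | h1 | h1 | h1
    · exact absurd h1 (hne1 hc1)
    · left
      exact hinj (h1.trans haJ.symm)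
    · right; left
      exact hinj h1
    · right; right
      apply hinj
      rw [← hpr, haJ]
      exact h1
  · have hba : (g * b * g⁻¹) * (g * a * g⁻¹) = (g * a * g⁻¹) * (g * b * g⁻¹) := hcomm hab.symm
    have hca : (g * c * g⁻¹) * (g * a * g⁻¹) = (g * a * g⁻¹) * (g * c * g⁻¹) := hcomm hac.symm
    have hJcomm := h.J_central haP
    have hJJ := h.σm_sq
    have haa' := hsq haa
    rcases h.CP_eq haP haZ hbP hba with h1 | h1 | h1 | h1
    · exact absurd h1 (hne1 hb1)
    · -- `b' = J`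
      rcases h.CP_eq haP haZ hcP hca with h2 | h2 | h2 | h2
      · exact absurd h2 (hne1 hc1)
      · right; left
        exact hinj (h2.trans h1.symm)
      · left
        exact hinj h2
      · right; right
        apply hinj
        rw [← hpr, h1, h2, hJcomm]
    · exact absurd (hinj h1).symm hne
    · -- `b' = J a'`
      rcases h.CP_eq haP haZ hcP hca with h2 | h2 | h2 | h2
      · exact absurd h2 (hne1 hc1)
      · right; right
        apply hinj
        rw [← hpr, h1, h2, ← mul_assoc, hJcomm, mul_assoc, haa', mul_one]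
      · left
        exact hinj h2
      · right; left
        exact hinj (h2.trans h1.symm)

end DS

/-- Facts about an involution in the cyclic group generated by a product of two involutions. -/
theorem inv_facts {x J z : G} (hxx : x * x = 1) (hJJ : J * J = 1) (hx1 : x ≠ 1) (hJ1 : J ≠ 1)
    (hz : z ∈ zpowers (x * J)) (hzz : z * z = 1) (hz1 : z ≠ 1) :
    z * x = x * z ∧ z * J = J * z ∧ z ≠ J ∧ z ≠ x := by
  have hxinv : x⁻¹ = x := inv_eq_of_mul_eq_one_left hxx
  have hJinv : J⁻¹ = J := inv_eq_of_mul_eq_one_left hJJ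
  have hzinv : z⁻¹ = z := inv_eq_of_mul_eq_one_left hzz
  obtain ⟨k, rfl⟩ := mem_zpowers_iff.mp hz
  set g := x * J with hg
  have hx' : x * g * x⁻¹ = g⁻¹ := by
    rw [hg, hxinv, mul_inv_rev, hJinv, hxinv, ← mul_assoc, hxx, one_mul]
  have hJ' : J * g * J⁻¹ = g⁻¹ := by
    rw [hg, hJinv, mul_inv_rev, hJinv, hxinv, mul_assoc, mul_assoc, hJJ, mul_one]
  have hcx : x * g ^ k * x⁻¹ = g ^ k := by
    rw [← conj_zpow, hx', inv_zpow]
    exact hzinv
  have hcJ : J * g ^ k * J⁻¹ = g ^ k := by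
    rw [← conj_zpow, hJ', inv_zpow]
    exact hzinv
  have hzx : g ^ k * x = x * g ^ k := (mul_inv_eq_iff_eq_mul.mp hcx).symm
  have hzJ : g ^ k * J = J * g ^ k := (mul_inv_eq_iff_eq_mul.mp hcJ).symm
  -- if `g` is inverted trivially then `z = g`
  have hgg : g * g = 1 → g ^ k = g := by
    intro h1
    rcases Int.even_or_odd' k with ⟨s, rfl | rfl⟩
    · exfalso
      apply hz1
      rw [zpow_mul, zpow_two, h1, one_zpow]
    · rw [zpow_add, zpow_mul, zpow_two, h1, one_zpow, one_mul, zpow_one]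
  refine ⟨hzx, hzJ, ?_, ?_⟩
  · intro he
    have hc : Commute (g ^ k) g := (Commute.refl g).zpow_left k
    rw [he] at hc
    have h1 : J * g * J⁻¹ = g := by rw [hc.eq, mul_inv_cancel_right]
    rw [hJ'] at h1
    have h2 := hgg (mul_eq_one_iff_eq_inv.mpr h1.symm)
    rw [he, hg] at h2
    apply hx1
    have h3 : J = x * J := h2
    exact (mul_eq_right.mp h3.symm)
  · intro he
    have hc : Commute (g ^ k) g := (Commute.refl g).zpow_left k
    rw [he] at hc
    have h1 : x * g * x⁻¹ = g := by rw [hc.eq, mul_inv_cancel_right]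
    rw [hx'] at h1
    have h2 := hgg (mul_eq_one_iff_eq_inv.mpr h1.symm)
    rw [he, hg] at h2
    apply hJ1
    have h3 : x = x * J := h2
    exact (mul_eq_left.mp h3.symm)

/-- The involutions commuting with `z` and different from `z`. -/
noncomputable def I0 (z : G) : Finset G := by
  classical
  exact Finset.univ.filter fun t => t * t = 1 ∧ t ≠ 1 ∧ t * z = z * t ∧ t ≠ z

theorem mem_I0 {z t : G} : t ∈ I0 z ↔ t * t = 1 ∧ t ≠ 1 ∧ t * z = z * t ∧ t ≠ z := by
  classical
  simp [I0]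

/-- The number of involutions commuting with a conjugate. -/
theorem card_I0_conj {z J : G} (hz : IsConj z J) : (I0 z).card = (I0 J).card := by
  classical
  obtain ⟨g, hg⟩ := isConj_iff.mp hz
  refine Finset.card_nbij' (fun t => g * t * g⁻¹) (fun t => g⁻¹ * t * g) ?_ ?_ ?_ ?_
  · intro t ht
    have ht' := mem_I0.mp ht
    apply mem_I0.mpr
    refine ⟨?_, ?_, ?_, ?_⟩
    · calc g * t * g⁻¹ * (g * t * g⁻¹) = g * (t * t) * g⁻¹ := by group
        _ = 1 := by rw [ht'.1]; group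
    · exact fun h0 => ht'.2.1 (conj_eq_one_iff.mp h0)
    · rw [← hg]
      calc g * t * g⁻¹ * (g * z * g⁻¹) = g * (t * z) * g⁻¹ := by group
        _ = g * (z * t) * g⁻¹ := by rw [ht'.2.2.1]
        _ = g * z * g⁻¹ * (g * t * g⁻¹) := by group
    · intro h0
      apply ht'.2.2.2
      rw [← hg] at h0
      simpa using h0
  · intro t ht
    have ht' := mem_I0.mp ht
    apply mem_I0.mpr
    refine ⟨?_, ?_, ?_, ?_⟩
    · calc g⁻¹ * t * g * (g⁻¹ * t * g) = g⁻¹ * (t * t) * g := by group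
        _ = 1 := by rw [ht'.1]; group
    · intro h0
      apply ht'.2.1
      have h0' : g⁻¹ * t * g = 1 := h0
      have h1 : g * (g⁻¹ * t * g) * g⁻¹ = 1 := by rw [h0']; group
      simpa [mul_assoc] using h1
    · have h1 : t * J = J * t := ht'.2.2.1
      rw [← hg] at h1
      have h2 : z = g⁻¹ * J * g := by rw [← hg]; group
      rw [h2, ← hg]
      calc g⁻¹ * t * g * (g⁻¹ * (g * z * g⁻¹) * g) = g⁻¹ * (t * (g * z * g⁻¹)) * g := by group
        _ = g⁻¹ * ((g * z * g⁻¹) * t) * g := by rw [h1]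
        _ = g⁻¹ * (g * z * g⁻¹) * g * (g⁻¹ * t * g) := by group
    · intro h0
      apply ht'.2.2.2
      rw [← hg, ← h0]
      group
  · intro t _
    group
  · intro t _
    group

/-- The involutions whose product with `J` has even order. -/
noncomputable def EE (J : G) : Finset G := by
  classical
  exact Finset.univ.filter fun x => x * x = 1 ∧ x ≠ 1 ∧ Even (orderOf (x * J))

/-- The involutions whose product with `J` has a `2`-part of order two. -/
noncomputable def EE2 (J : G) : Finset G := by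
  classical
  exact Finset.univ.filter fun x => x * x = 1 ∧ x ≠ 1 ∧
    ∃ z c : G, x * J = z * c ∧ z * c = c * z ∧ z * z = 1 ∧ z ≠ 1 ∧ Odd (orderOf c)

theorem mem_EE {J x : G} : x ∈ EE J ↔ x * x = 1 ∧ x ≠ 1 ∧ Even (orderOf (x * J)) := by
  classical
  simp [EE]

theorem mem_EE2 {J x : G} : x ∈ EE2 J ↔ x * x = 1 ∧ x ≠ 1 ∧
    ∃ z c : G, x * J = z * c ∧ z * c = c * z ∧ z * z = 1 ∧ z ≠ 1 ∧ Odd (orderOf c) := by
  classical
  simp [EE2]

theorem exists_inv_of_even {g : G} (hg : Even (orderOf g)) :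
    ∃ w ∈ zpowers g, w * w = 1 ∧ w ≠ 1 := by
  obtain ⟨s, hs⟩ := hg
  have hpos : 0 < orderOf g := orderOf_pos g
  refine ⟨g ^ s, npow_mem_zpowers g s, ?_, ?_⟩
  · rw [← pow_add, ← hs, pow_orderOf_eq_one]
  · exact pow_ne_one_of_lt_orderOf (by omega) (by omega)

namespace DS

include h

theorem unique_z {z x w : G} (hz : z ∈ I0 (σ ^ m)) (hx : x ∈ I0 z) (hev : Even (orderOf (x * σ ^ m)))
    (hw : w ∈ zpowers (x * σ ^ m)) (hww : w * w = 1) (hw1 : w ≠ 1) : z = w := by
  obtain ⟨hzz, hz1, hzJ, hzneJ⟩ := mem_I0.mp hz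
  obtain ⟨hxx, hx1, hxz, hxnez⟩ := mem_I0.mp hx
  obtain ⟨hwx, hwJ, hwneJ, hwnex⟩ := inv_facts hxx h.σm_sq hx1 h.σm_ne hw hww hw1
  have hzg : Commute z (x * σ ^ m) := by
    have h1 : Commute z x := hxz.symm
    have h2 : Commute z (σ ^ m) := hzJ
    exact h1.mul_right h2
  have hzw : z * w = w * z := by
    obtain ⟨k, rfl⟩ := mem_zpowers_iff.mp hw
    exact (hzg.zpow_right k).eq
  by_contra hne
  have h1 := h.rank_two hzz hww hxx hz1 hw1 hx1 hzw hxz.symm hwx hne
  have h2 := h.rank_two hzz hww h.σm_sq hz1 hw1 h.σm_ne hzw hzJ hwJ hne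
  rcases h1 with h1 | h1 | h1
  · exact absurd h1 hxnez
  · exact absurd h1.symm hwnex
  rcases h2 with h2 | h2 | h2
  · exact absurd h2.symm hzneJ
  · exact absurd h2.symm hwneJ
  have hxJ : x = σ ^ m := h1.trans h2.symm
  rw [hxJ, h.σm_sq, orderOf_one] at hev
  exact absurd hev (by decide)

/-- The count of pairs of commuting involutions. -/
theorem pair_count (hcl : ∀ t : G, t * t = 1 → t ≠ 1 → IsConj t (σ ^ m)) :
    (EE (σ ^ m)).card + (EE2 (σ ^ m)).card = (I0 (σ ^ m)).card * (I0 (σ ^ m)).card := by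
  classical
  set J := σ ^ m with hJ
  have hJJ : J * J = 1 := h.σm_sq
  have hJ1 : J ≠ 1 := h.σm_ne
  let Pi : Finset (Σ _ : G, G) := (I0 J).sigma I0
  have hPi : Pi.card = (I0 J).card * (I0 J).card := by
    rw [Finset.card_sigma]
    rw [Finset.sum_congr rfl (fun z hz => card_I0_conj (hcl z (mem_I0.mp hz).1 (mem_I0.mp hz).2.1))]
    simp
  have hmemPi : ∀ {p : Σ _ : G, G}, p ∈ Pi ↔ p.1 ∈ I0 J ∧ p.2 ∈ I0 p.1 := by
    intro p
    simp [Pi, Finset.mem_sigma]
  have hE : (Pi.filter fun p => Even (orderOf (p.2 * J))).card = (EE J).card := by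
    refine Finset.card_bij (fun p _ => p.2) ?_ ?_ ?_
    · intro p hp
      obtain ⟨hp1, hp2⟩ := Finset.mem_filter.mp hp
      have hx := mem_I0.mp (hmemPi.mp hp1).2
      exact mem_EE.mpr ⟨hx.1, hx.2.1, hp2⟩
    · intro p hp q hq hpq
      obtain ⟨hp1, hp2⟩ := Finset.mem_filter.mp hp
      obtain ⟨hq1, hq2⟩ := Finset.mem_filter.mp hq
      obtain ⟨w, hw, hww, hw1⟩ := exists_inv_of_even hp2
      have h1 := h.unique_z (hmemPi.mp hp1).1 (hmemPi.mp hp1).2 hp2 hw hww hw1
      have hq2' : q.2 ∈ I0 q.1 := (hmemPi.mp hq1).2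
      have hpq' : p.2 = q.2 := hpq
      have h2 := h.unique_z (x := q.2) (w := w) (hmemPi.mp hq1).1 hq2' hq2
        (by rw [← hpq']; exact hw) hww hw1
      exact Sigma.ext (h1.trans h2.symm) (heq_of_eq hpq')
    · intro x hx
      obtain ⟨hxx, hx1, hev⟩ := mem_EE.mp hx
      obtain ⟨w, hw, hww, hw1⟩ := exists_inv_of_even hev
      obtain ⟨hwx, hwJ, hwneJ, hwnex⟩ := inv_facts hxx hJJ hx1 hJ1 hw hww hw1
      refine ⟨⟨w, x⟩, Finset.mem_filter.mpr ⟨hmemPi.mpr ⟨mem_I0.mpr ⟨hww, hw1, hwJ, hwneJ⟩,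
        mem_I0.mpr ⟨hxx, hx1, hwx.symm, hwnex.symm⟩⟩, hev⟩, rfl⟩
  have hO : (Pi.filter fun p => ¬ Even (orderOf (p.2 * J))).card = (EE2 J).card := by
    refine Finset.card_bij (fun p _ => p.1 * p.2) ?_ ?_ ?_
    · intro p hp
      obtain ⟨hp1, hp2⟩ := Finset.mem_filter.mp hp
      obtain ⟨hzz, hz1, hzJ, hzneJ⟩ := mem_I0.mp (hmemPi.mp hp1).1
      obtain ⟨hxx, hx1, hxz, hxnez⟩ := mem_I0.mp (hmemPi.mp hp1).2
      apply mem_EE2.mpr
      refine ⟨?_, ?_, p.1, p.2 * J, mul_assoc _ _ _, ?_, hzz, hz1, Nat.not_even_iff_odd.mp hp2⟩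
      · calc p.1 * p.2 * (p.1 * p.2) = p.1 * (p.2 * p.1) * p.2 := by group
          _ = p.1 * (p.1 * p.2) * p.2 := by rw [hxz]
          _ = (p.1 * p.1) * (p.2 * p.2) := by group
          _ = 1 := by rw [hzz, hxx, one_mul]
      · intro h0
        apply hxnez
        have h1 : p.2 = p.1⁻¹ := eq_inv_of_mul_eq_one_right h0
        rw [h1, inv_eq_of_mul_eq_one_left hzz]
      · have h1 : Commute p.1 p.2 := hxz.symm
        have h2 : Commute p.1 J := hzJ
        exact (h1.mul_right h2).eq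
    · intro p hp q hq hpq
      obtain ⟨hp1, hp2⟩ := Finset.mem_filter.mp hp
      obtain ⟨hq1, hq2⟩ := Finset.mem_filter.mp hq
      obtain ⟨hzz, hz1, hzJ, hzneJ⟩ := mem_I0.mp (hmemPi.mp hp1).1
      obtain ⟨hxx, hx1, hxz, hxnez⟩ := mem_I0.mp (hmemPi.mp hp1).2
      obtain ⟨hzz', hz1', hzJ', hzneJ'⟩ := mem_I0.mp (hmemPi.mp hq1).1
      obtain ⟨hxx', hx1', hxz', hxnez'⟩ := mem_I0.mp (hmemPi.mp hq1).2
      have hord : orderOf p.1 = 2 ^ 1 := by
        rw [pow_one]
        exact orderOf_eq_prime (by rw [sq]; exact hzz) hz1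
      have hord' : orderOf q.1 = 2 ^ 1 := by
        rw [pow_one]
        exact orderOf_eq_prime (by rw [sq]; exact hzz') hz1'
      have hpq' : p.1 * p.2 = q.1 * q.2 := hpq
      have hpp : IsPPart 2 (p.1 * p.2 * J) p.1 := by
        refine ⟨p.2 * J, mul_assoc _ _ _ |>.symm, ?_, ⟨1, hord⟩, ?_⟩
        · exact (show Commute p.1 p.2 from hxz.symm).mul_right (show Commute p.1 J from hzJ)
        · rw [← even_iff_two_dvd]
          exact hp2
      have hqq : IsPPart 2 (p.1 * p.2 * J) q.1 := by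
        rw [hpq']
        refine ⟨q.2 * J, mul_assoc _ _ _ |>.symm, ?_, ⟨1, hord'⟩, ?_⟩
        · exact (show Commute q.1 q.2 from hxz'.symm).mul_right (show Commute q.1 J from hzJ')
        · rw [← even_iff_two_dvd]
          exact hq2
      have h1 : p.1 = q.1 := pPart_unique hpp hqq
      have h2 : p.2 = q.2 := by
        rw [h1] at hpq'
        exact mul_left_cancel hpq'
      exact Sigma.ext h1 (heq_of_eq h2)
    · intro x' hx'
      obtain ⟨hxx, hx1, z, c, hzc, hcomm, hzz, hz1, hodd⟩ := mem_EE2.mp hx'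
      have hzmem : z ∈ zpowers (x' * J) := by
        have h1 : (z * c) ^ orderOf c = z := by
          rw [(show Commute z c from hcomm).mul_pow, pow_orderOf_eq_one, mul_one]
          obtain ⟨t, ht⟩ := hodd
          rw [ht, pow_succ, pow_mul, sq, hzz, one_pow, one_mul]
        have hmem : (z * c) ^ orderOf c ∈ zpowers (z * c) := npow_mem_zpowers _ _
        rw [h1] at hmem
        rw [hzc]
        exact hmem
      obtain ⟨hzx, hzJ, hzneJ, hznex⟩ := inv_facts hxx hJJ hx1 hJ1 hzmem hzz hz1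
      have hxJ : z * x' * J = c := by
        rw [mul_assoc, hzc, ← mul_assoc, hzz, one_mul]
      refine ⟨⟨z, z * x'⟩, Finset.mem_filter.mpr ⟨hmemPi.mpr ⟨mem_I0.mpr ⟨hzz, hz1, hzJ, hzneJ⟩,
        mem_I0.mpr ⟨?_, ?_, ?_, ?_⟩⟩, ?_⟩, ?_⟩
      · show z * x' * (z * x') = 1
        calc z * x' * (z * x') = z * (x' * z) * x' := by group
          _ = z * (z * x') * x' := by rw [hzx]
          _ = (z * z) * (x' * x') := by group
          _ = 1 := by rw [hzz, hxx, one_mul]
      · show z * x' ≠ 1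
        intro h0
        apply hznex
        have h1 : x' = z⁻¹ := eq_inv_of_mul_eq_one_right h0
        rw [h1, inv_eq_of_mul_eq_one_left hzz]
      · show z * x' * z = z * (z * x')
        rw [mul_assoc, ← hzx]
      · show z * x' ≠ z
        intro h0
        exact hx1 (mul_eq_left.mp h0)
      · show ¬ Even (orderOf (z * x' * J))
        rw [hxJ]
        exact Nat.not_even_iff_odd.mpr hodd
      · show z * (z * x') = x'
        rw [← mul_assoc, hzz, one_mul]
  have hsplit := Finset.card_filter_add_card_filter_not (s := Pi)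
    (fun p : Σ _ : G, G => Even (orderOf (p.2 * J)))
  rw [hE, hO, hPi] at hsplit
  exact hsplit

end DS

end Cfsg.Agent.H15.Dih
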