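import Cfsg.Agent.Lib.H15.DihO1

/-! # Dihedral Sylow 2-subgroups with one class of involutions: the block sum -/

set_option autoImplicit false
set_option linter.unusedSectionVars false
set_option linter.style.haveILetI false
set_option linter.unusedSimpArgs false

namespace Cfsg.Agent.H15.Dih

open Cfsg Cfsg.Agent.H21 Cfsg.Agent.H22 Subgroup
open Cfsg.Agent.H15.Homo (section_orth char_inner card_ne sum_neg_char char_neg_conj Bs Ss mem_Bs
  mem_Ss eB_sum_eq deg_spec deg_pos)
open scoped ComplexConjugate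

universe u

variable {G : Type u} [Group G] [Finite G]

/-- Characters of the principal block are constant on the section of a `2`-element whose centralizer
has a normal 2-complement. -/
theorem value_npc {M : Ideal AlgInt} [M.IsPrime] (hM : IsPModular 2 M) {z c : G} {k : ℕ}
    (hz : orderOf z = 2 ^ k) (hnpc : NPCat z) (hc : z * c = c * z) (hodd : ¬ 2 ∣ orderOf c)
    {χ : IrrCharacter G} (hχ : χ ∈ principalBlock M G) : χ.1 (z * c) = χ.1 z := by
  obtain ⟨O, hO, hcop, hk⟩ := hnpc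
  have hcC : c ∈ centralizer ({z} : Set G) := Subgroup.mem_centralizer_singleton_iff.mpr hc.symm
  have hmem : (⟨c, hcC⟩ : centralizer ({z} : Set G)) ∈ O := by
    by_contra hn
    apply hodd
    have h1 := dvd_orderOf_of_not_mem hk hn
    rwa [Subgroup.orderOf_mk] at h1
  exact principal_mul_core hM hz hχ O hcop hmem

variable {P : Sylow 2 G} {σ : G} {m : ℕ} (h : DS P σ m)
variable [NeZero (2 * m)]

/-- The indicator of the nonzero elements. -/
noncomputable def ff (b : ZMod (2 * m)) : ℂ := by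
  classical
  exact if b = 0 then 0 else 1

@[simp] theorem ff_zero : ff (0 : ZMod (2 * m)) = 0 := by
  classical
  simp [ff]

theorem ff_ne {b : ZMod (2 * m)} (hb : b ≠ 0) : ff b = 1 := by
  classical
  simp [ff, hb]

/-- The column function. -/
noncomputable def ss (σ : G) (m : ℕ) [NeZero (2 * m)] (χ : IrrCharacter G) : ℂ :=
  ∑ b : ZMod (2 * m), ff b * conj (χ.1 (iota σ m b)) + conj (χ.1 (σ ^ m))

theorem S_expand {M : Ideal AlgInt} (f : IrrCharacter G → ℂ) :
    ∑ χ : IrrCharacter G, eB (principalBlock M G) χ * (f χ * ss σ m χ) =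
      ∑ b : ZMod (2 * m), ff b * ∑ χ : IrrCharacter G, eB (principalBlock M G) χ *
        (f χ * conj (χ.1 (iota σ m b))) +
      ∑ χ : IrrCharacter G, eB (principalBlock M G) χ * (f χ * conj (χ.1 (σ ^ m))) := by
  classical
  unfold ss
  simp only [Finset.mul_sum]
  rw [Finset.sum_comm]
  rw [← Finset.sum_add_distrib]
  refine Finset.sum_congr rfl fun χ _ => ?_
  rw [mul_add, mul_add, Finset.mul_sum, Finset.mul_sum]
  congr 1
  refine Finset.sum_congr rfl fun b _ => ?_
  ring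

/-- The element of order two. -/
noncomputable def m₀ (m : ℕ) : ZMod (2 * m) := (m : ZMod (2 * m))

namespace DS

include h

theorem val_m₀ : (m₀ m).val = m := by
  have := h.m_pos
  exact ZMod.val_natCast_of_lt (by omega)

theorem iota_m₀ : iota σ m (m₀ m) = σ ^ m := by
  unfold iota
  rw [h.val_m₀]

theorem m₀_ne : m₀ m ≠ 0 := by
  intro h0
  have h1 := h.val_m₀
  rw [h0, ZMod.val_zero] at h1
  have := h.m_pos
  omega

theorem neg_m₀ : -(m₀ m) = m₀ m := by
  have h1 : m₀ m + m₀ m = 0 := by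
    unfold m₀
    rw [← Nat.cast_add, ← two_mul, ZMod.natCast_self]
  exact (eq_neg_of_add_eq_zero_left h1).symm

/-- Every `2`-element is conjugate into `⟨σ⟩`. -/
theorem exists_conj_iota (hcl : ∀ t : G, t * t = 1 → t ≠ 1 → IsConj t (σ ^ m)) {w : G} {k : ℕ}
    (hw : orderOf w = 2 ^ k) : ∃ (g : G) (a : ZMod (2 * m)), g * w * g⁻¹ = iota σ m a := by
  obtain ⟨g, hg⟩ := conj_elem_into P (g := w) (k := k) (by rw [← hw, pow_orderOf_eq_one])
  by_cases hZ : g * w * g⁻¹ ∈ zpowers σ
  · obtain ⟨a, ha⟩ := h.exists_iota (m := m) hZ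
    exact ⟨g, a, ha.symm⟩
  · obtain ⟨hyy, -⟩ := h.inv _ hg hZ
    have hy1 : g * w * g⁻¹ ≠ 1 := fun h0 => hZ (h0 ▸ one_mem _)
    obtain ⟨g', hg'⟩ := isConj_iff.mp (hcl _ hyy hy1)
    refine ⟨g' * g, m₀ m, ?_⟩
    rw [h.iota_m₀, ← hg']
    group

theorem npc_iota (a : ZMod (2 * m)) : a ≠ 0 → NPCat (iota σ m a) := by
  intro ha
  by_cases hxx : iota σ m a * iota σ m a = 1
  · have h1 : iota σ m a = σ ^ m :=
      (h.inv_in_Z (h.iota_mem a) hxx).resolve_left (fun h0 => ha (h.iota_eq_one.mp h0))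
    rw [h1]
    exact h.npc_J
  · obtain ⟨M, hM⟩ := Cfsg.Agent.H21.exists_pModular (p := 2) Nat.prime_two
    haveI hMprime : M.IsPrime := hM.2.1.isPrime
    exact (h.norm_big hM (h.iota_mem a) hxx).1

theorem iota_eq_J {a : ZMod (2 * m)} (ha : a ≠ 0) (hxx : iota σ m a * iota σ m a = 1) :
    a = m₀ m := by
  apply h.iota_inj
  rw [h.iota_m₀]
  exact (h.inv_in_Z (h.iota_mem a) hxx).resolve_left (fun h0 => ha (h.iota_eq_one.mp h0))

end DS

section Block

variable {M : Ideal AlgInt} [hMp : M.IsPrime] (hM : IsPModular 2 M)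

include h hM in
/-- The block sum at a regular element. -/
theorem S_regular {g : G} (hg : ¬ 2 ∣ orderOf g) :
    ∑ χ : IrrCharacter G, eB (principalBlock M G) χ * (χ.1 g * ss σ m χ) = 0 := by
  classical
  rw [S_expand (fun χ => χ.1 g)]
  have h1 : ∀ b : ZMod (2 * m), ff b * ∑ χ : IrrCharacter G, eB (principalBlock M G) χ *
        (χ.1 g * conj (χ.1 (iota σ m b))) = 0 := by
    intro b
    by_cases hb : b = 0
    · rw [hb, ff_zero, zero_mul]
    · have hd : 2 ∣ orderOf (iota σ m b) := by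
        obtain ⟨k, hk⟩ := h.ord_of_mem (h.Z_le (h.iota_mem b))
        have hk0 : k ≠ 0 := by
          rintro rfl
          apply hb
          rw [pow_zero, orderOf_eq_one_iff] at hk
          exact h.iota_eq_one.mp hk
        rw [hk]
        exact dvd_pow_self 2 hk0
      rw [block_orth_regular_singular hM principalBlock_isBlock hg hd, mul_zero]
  rw [Finset.sum_eq_zero (fun b _ => h1 b), zero_add]
  have hd : 2 ∣ orderOf (σ ^ m) := by
    rw [orderOf_eq_prime (by rw [sq]; exact h.σm_sq) h.σm_ne]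
  exact block_orth_regular_singular hM principalBlock_isBlock hg hd

include h hM in
/-- The block sum on a section. -/
theorem S_section {g : G} {a : ZMod (2 * m)} (ha : a ≠ 0)
    (hval : ∀ χ ∈ principalBlock M G, χ.1 g = χ.1 (iota σ m a)) :
    ∑ χ : IrrCharacter G, eB (principalBlock M G) χ * (χ.1 g * ss σ m χ) =
      2 * ((2 * m : ℕ) : ℂ) + if a = m₀ m then 2 * ((2 * m : ℕ) : ℂ) else 0 := by
  classical
  have hq : ((Fintype.card (ZMod (2 * m)) : ℕ) : ℂ) = ((2 * m : ℕ) : ℂ) := card_A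
  have hcongr : ∀ (t : IrrCharacter G → ℂ), ∑ χ : IrrCharacter G, eB (principalBlock M G) χ *
      (χ.1 g * t χ) = ∑ χ : IrrCharacter G, eB (principalBlock M G) χ * (χ.1 (iota σ m a) * t χ) := by
    intro t
    refine Finset.sum_congr rfl fun χ _ => ?_
    by_cases hχ : χ ∈ principalBlock M G
    · rw [hval χ hχ]
    · rw [eB_apply_not_mem hχ, zero_mul, zero_mul]
  rw [hcongr]
  rw [S_expand (fun χ => χ.1 (iota σ m a))]
  have h1 := col_sum (mkCD h) hM (hnorm1 h hM) (hnorm2 h hM) ha ff ff_zero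
  have h1' : ∑ b : ZMod (2 * m), ff b * ∑ χ : IrrCharacter G, eB (principalBlock M G) χ *
      (χ.1 (iota σ m a) * conj (χ.1 (iota σ m b))) =
      ∑ b : ZMod (2 * m), ff b * WW (mkCD h) M a b := rfl
  rw [h1', h1, ff_ne ha, ff_ne (neg_ne_zero.mpr ha), hq]
  have h2 : ∑ χ : IrrCharacter G, eB (principalBlock M G) χ *
      (χ.1 (iota σ m a) * conj (χ.1 (σ ^ m))) = WW (mkCD h) M a (m₀ m) := by
    unfold WW
    simp only [mkCD_ι, h.iota_m₀]
  rw [h2]
  by_cases ham : a = m₀ m
  · rw [if_pos ham, ham, hnorm2 h hM _ h.m₀_ne h.neg_m₀, hq]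
    ring
  · rw [if_neg ham, W_not_conj (mkCD h) hM]
    · ring
    · intro hconj
      rcases ((mkCD h).conj_iff a (m₀ m) ha).mp hconj with h3 | h3
      · exact ham h3.symm
      · apply ham
        have h4 : -(m₀ m) = a := by rw [h3, neg_neg]
        rw [← h4, h.neg_m₀]

include h hM in
open Classical in
/-- The block sum at the product of an involution with the central involution. -/
theorem S_inv (hcl : ∀ t : G, t * t = 1 → t ≠ 1 → IsConj t (σ ^ m)) {x : G} (hxx : x * x = 1)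
    (hx1 : x ≠ 1) :
    ∑ χ : IrrCharacter G, eB (principalBlock M G) χ * (χ.1 (x * σ ^ m) * ss σ m χ) =
      2 * ((2 * m : ℕ) : ℂ) * ((if x ∈ EE (σ ^ m) then 1 else 0) + (if x ∈ EE2 (σ ^ m) then 1 else 0)) := by
  classical
  obtain ⟨z, y, hzy, hcomm, ⟨k, hk⟩, hy⟩ := Cfsg.Agent.H21.exists_pPart (p := 2) (x * σ ^ m)
  have hyodd : Odd (orderOf y) := by
    rw [← Nat.not_even_iff_odd, even_iff_two_dvd]
    exact hy
  have hcop : Nat.Coprime (orderOf z) (orderOf y) := by
    rw [hk]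
    exact Nat.Coprime.pow_left _ (Nat.coprime_two_left.mpr hyodd)
  have hord : orderOf (x * σ ^ m) = orderOf z * orderOf y := by
    rw [← hzy]
    exact hcomm.orderOf_mul_eq_mul_orderOf_of_coprime hcop
  by_cases hz1 : z = 1
  · have hnE : x ∉ EE (σ ^ m) := by
      intro hE
      obtain ⟨-, -, hev⟩ := mem_EE.mp hE
      rw [hord, hz1, orderOf_one, one_mul] at hev
      exact (Nat.not_even_iff_odd.mpr hyodd) hev
    have hnE2 : x ∉ EE2 (σ ^ m) := by
      intro hE
      obtain ⟨-, -, z', c', hzc, hcomm', hzz', hz1', hodd'⟩ := mem_EE2.mp hE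
      have hord' : orderOf z' = 2 ^ 1 := by
        rw [pow_one]
        exact orderOf_eq_prime (by rw [sq]; exact hzz') hz1'
      have hp1 : IsPPart 2 (x * σ ^ m) z := ⟨y, hzy, hcomm, ⟨k, hk⟩, hy⟩
      have hp2 : IsPPart 2 (x * σ ^ m) z' :=
        ⟨c', hzc.symm, hcomm', ⟨1, hord'⟩, by
          rw [← even_iff_two_dvd, Nat.not_even_iff_odd]
          exact hodd'⟩
      have := pPart_unique hp1 hp2
      rw [hz1] at this
      exact hz1' this.symm
    rw [if_neg hnE, if_neg hnE2, add_zero, mul_zero]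
    apply S_regular h hM
    rw [← hzy, hz1, one_mul]
    exact hy
  · -- the `2`-part is nontrivial
    have hk0 : k ≠ 0 := by
      rintro rfl
      apply hz1
      rwa [pow_zero, orderOf_eq_one_iff] at hk
    have hE : x ∈ EE (σ ^ m) := by
      refine mem_EE.mpr ⟨hxx, hx1, ?_⟩
      rw [hord, hk, even_iff_two_dvd]
      exact Dvd.dvd.mul_right (dvd_pow_self 2 hk0) _
    obtain ⟨g₁, a, hg₁⟩ := h.exists_conj_iota hcl hk
    have ha : a ≠ 0 := by
      rintro rfl
      have h0 : iota σ m (0 : ZMod (2 * m)) = 1 := h.iota_eq_one.mpr rfl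
      rw [h0] at hg₁
      exact hz1 (conj_eq_one_iff.mp hg₁)
    have hordι : orderOf (iota σ m a) = 2 ^ k := by
      rw [← hg₁, Cfsg.Agent.H15.orderOf_conj_eq, hk]
    have hval : ∀ χ ∈ principalBlock M G, χ.1 (x * σ ^ m) = χ.1 (iota σ m a) := by
      intro χ hχ
      have h1 : g₁ * (x * σ ^ m) * g₁⁻¹ = iota σ m a * (g₁ * y * g₁⁻¹) := by
        rw [← hg₁, ← hzy]
        group
      rw [← irr_conj' χ (x * σ ^ m) g₁, h1]
      refine value_npc hM hordι (h.npc_iota a ha) ?_ ?_ hχ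
      · rw [← hg₁]
        calc g₁ * z * g₁⁻¹ * (g₁ * y * g₁⁻¹) = g₁ * (z * y) * g₁⁻¹ := by group
          _ = g₁ * (y * z) * g₁⁻¹ := by rw [hcomm.eq]
          _ = g₁ * y * g₁⁻¹ * (g₁ * z * g₁⁻¹) := by group
      · rw [Cfsg.Agent.H15.orderOf_conj_eq]
        exact hy
    rw [S_section h hM ha hval, if_pos hE]
    by_cases ham : a = m₀ m
    · have hzz : z * z = 1 := by
        have h1 : g₁ * (z * z) * g₁⁻¹ = 1 := by
          have h2 : g₁ * (z * z) * g₁⁻¹ = (g₁ * z * g₁⁻¹) * (g₁ * z * g₁⁻¹) := by group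
          rw [h2, hg₁, ham, h.iota_m₀, h.σm_sq]
        exact conj_eq_one_iff.mp h1
      have hE2 : x ∈ EE2 (σ ^ m) :=
        mem_EE2.mpr ⟨hxx, hx1, z, y, hzy.symm, hcomm.eq, hzz, hz1, hyodd⟩
      rw [if_pos hE2, if_pos ham]
      ring
    · have hnE2 : x ∉ EE2 (σ ^ m) := by
        intro hE2
        obtain ⟨-, -, z', c', hzc, hcomm', hzz', hz1', hodd'⟩ := mem_EE2.mp hE2
        have hord' : orderOf z' = 2 ^ 1 := by
          rw [pow_one]
          exact orderOf_eq_prime (by rw [sq]; exact hzz') hz1'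
        have hp1 : IsPPart 2 (x * σ ^ m) z := ⟨y, hzy, hcomm, ⟨k, hk⟩, hy⟩
        have hp2 : IsPPart 2 (x * σ ^ m) z' :=
          ⟨c', hzc.symm, hcomm', ⟨1, hord'⟩, by
            rw [← even_iff_two_dvd, Nat.not_even_iff_odd]
            exact hodd'⟩
        have h1 : z = z' := pPart_unique hp1 hp2
        apply ham
        apply h.iota_eq_J ha
        rw [← hg₁, h1]
        calc g₁ * z' * g₁⁻¹ * (g₁ * z' * g₁⁻¹) = g₁ * (z' * z') * g₁⁻¹ := by group
          _ = 1 := by rw [hzz']; group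
      rw [if_neg hnE2, if_neg ham]
      ring

include h hM in
/-- **The block count.** -/
theorem block_count (hcl : ∀ t : G, t * t = 1 → t ≠ 1 → IsConj t (σ ^ m)) :
    ((centralizer ({σ ^ m} : Set G)).index : ℂ) *
      ∑ χ : IrrCharacter G, eB (principalBlock M G) χ *
        ((χ.1 (σ ^ m) * χ.1 (σ ^ m) / χ.1 1) * ss σ m χ) =
      2 * ((2 * m : ℕ) : ℂ) * (((I0 (σ ^ m)).card * (I0 (σ ^ m)).card : ℕ) : ℂ) := by
  classical
  have hJJ := h.σm_sq
  have hJ1 := h.σm_ne
  have hIff : ∀ x : G, IsConj x (σ ^ m) ↔ x * x = 1 ∧ x ≠ 1 := by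
    intro x
    constructor
    · intro hc
      obtain ⟨c, hc⟩ := isConj_iff.mp hc
      constructor
      · have h1 : c * (x * x) * c⁻¹ = 1 := by
          have h2 : c * (x * x) * c⁻¹ = (c * x * c⁻¹) * (c * x * c⁻¹) := by group
          rw [h2, hc, hJJ]
        exact conj_eq_one_iff.mp h1
      · rintro rfl
        apply hJ1
        rw [← hc]
        group
    · rintro ⟨h1, h2⟩
      exact hcl x h1 h2
  have hpoint : ∀ x : G, classIndicator (σ ^ m) x * ∑ χ : IrrCharacter G, eB (principalBlock M G) χ *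
      (χ.1 (x * σ ^ m) * ss σ m χ) = 2 * ((2 * m : ℕ) : ℂ) *
        ((if x ∈ EE (σ ^ m) then 1 else 0) + (if x ∈ EE2 (σ ^ m) then 1 else 0)) := by
    intro x
    by_cases hx : IsConj x (σ ^ m)
    · obtain ⟨h1, h2⟩ := (hIff x).mp hx
      unfold classIndicator
      rw [if_pos hx, one_mul, S_inv h hM hcl h1 h2]
    · have hnE : x ∉ EE (σ ^ m) := fun hE => hx ((hIff x).mpr ⟨(mem_EE.mp hE).1, (mem_EE.mp hE).2.1⟩)
      have hnE2 : x ∉ EE2 (σ ^ m) :=
        fun hE => hx ((hIff x).mpr ⟨(mem_EE2.mp hE).1, (mem_EE2.mp hE).2.1⟩)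
      unfold classIndicator
      rw [if_neg hx, if_neg hnE, if_neg hnE2]
      ring
  have h1 : ∑ x : G, classIndicator (σ ^ m) x * ∑ χ : IrrCharacter G, eB (principalBlock M G) χ *
      (χ.1 (x * σ ^ m) * ss σ m χ) = 2 * ((2 * m : ℕ) : ℂ) *
        (((EE (σ ^ m)).card + (EE2 (σ ^ m)).card : ℕ) : ℂ) := by
    simp only [hpoint]
    rw [← Finset.mul_sum, Finset.sum_add_distrib]
    congr 1
    rw [Finset.sum_ite_mem, Finset.sum_ite_mem, Finset.univ_inter, Finset.univ_inter]
    simp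
  have h3 : ∑ x : G, classIndicator (σ ^ m) x * ∑ χ : IrrCharacter G, eB (principalBlock M G) χ *
      (χ.1 (x * σ ^ m) * ss σ m χ) = ((centralizer ({σ ^ m} : Set G)).index : ℂ) *
      ∑ χ : IrrCharacter G, eB (principalBlock M G) χ *
        ((χ.1 (σ ^ m) * χ.1 (σ ^ m) / χ.1 1) * ss σ m χ) := by
    simp only [Finset.mul_sum]
    rw [Finset.sum_comm]
    refine Finset.sum_congr rfl fun χ _ => ?_
    have h4 := sum_class_mul_char (classIndicator (σ ^ m)) (classIndicator_isClass (σ ^ m)) χ (σ ^ m)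
    rw [om_classIndicator] at h4
    unfold cc centralChar at h4
    have h5 : ∑ x : G, classIndicator (σ ^ m) x * (eB (principalBlock M G) χ *
        (χ.1 (x * σ ^ m) * ss σ m χ)) =
        eB (principalBlock M G) χ * ss σ m χ * ∑ x : G, classIndicator (σ ^ m) x * χ.1 (x * σ ^ m) := by
      rw [Finset.mul_sum]
      refine Finset.sum_congr rfl fun x _ => ?_
      ring
    rw [h5, h4]
    ring
  rw [← h3, h1, h.pair_count hcl]

end Block

end Cfsg.Agent.H15.Dih
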