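import Cfsg.Agent.Lib.H15.DihO2

/-! # Dihedral Sylow 2-subgroups with one class of involutions: the number of commuting involutions -/

set_option autoImplicit false
set_option linter.unusedSectionVars false
set_option linter.style.haveILetI false
set_option linter.unusedSimpArgs false

namespace Cfsg.Agent.H15.Dih

open Cfsg Cfsg.Agent.H21 Cfsg.Agent.H22 Subgroup

universe u

variable {G : Type u} [Group G] [Finite G]

/-- The class of an element of a subgroup, counted inside the subgroup. -/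
theorem class_count (C : Subgroup G) (t : C) {t' : G} (ht : (t : G) = t') (J : G)
    (hC : C = centralizer ({J} : Set G)) (A : Finset C) (hA : ∀ y : C, y ∈ A ↔ IsConj y t) :
    A.card * Nat.card (centralizer ({J, t'} : Set G)) = Nat.card C := by
  classical
  have h1 : A.card = (centralizer ({t} : Set C)).index := by
    rw [← card_isConj_eq_index, Nat.card_eq_fintype_card, Fintype.card_subtype]
    congr 1
    ext y
    rw [hA]
    simp
  have h2 : Nat.card (centralizer ({J, t'} : Set G)) = Nat.card (centralizer ({t} : Set C)) := by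
    have hle : centralizer ({J, t'} : Set G) ≤ C := by
      rw [hC]
      intro x hx
      rw [Subgroup.mem_centralizer_iff] at hx ⊢
      intro y hy
      exact hx y (by rw [Set.mem_singleton_iff] at hy; simp [hy])
    have h3 : centralizer ({t} : Set C) = (centralizer ({J, t'} : Set G)).subgroupOf C := by
      ext x
      rw [Subgroup.mem_subgroupOf, Subgroup.mem_centralizer_singleton_iff,
        Subgroup.mem_centralizer_iff]
      constructor
      · intro h4 y hy
        rcases hy with rfl | hy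
        · have h5 : (x : G) ∈ centralizer ({y} : Set G) := by rw [← hC]; exact x.2
          rw [Subgroup.mem_centralizer_singleton_iff] at h5
          exact h5.symm
        · rw [Set.mem_singleton_iff] at hy
          rw [hy, ← ht]
          exact (congrArg Subtype.val h4).symm
      · intro h4
        apply Subtype.ext
        have h5 := h4 t' (by simp)
        rw [← ht] at h5
        exact h5.symm
    rw [h3]
    exact (Nat.card_congr (Subgroup.subgroupOfEquivOfLe hle).toEquiv).symm
  rw [h1, h2]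
  exact index_mul_card_centralizer t

variable {P : Sylow 2 G} {σ : G} {m : ℕ} (h : DS P σ m)

namespace DS

include h

/-- Elements of `P` conjugate in `C(J)` are conjugate in `P`. -/
theorem conj_in_CJ {a b g : G} (ha : a ∈ (P : Subgroup G)) (hb : b ∈ (P : Subgroup G))
    (hg : g ∈ centralizer ({σ ^ m} : Set G)) (hab : g * a * g⁻¹ = b) :
    ∃ p ∈ (P : Subgroup G), p * a * p⁻¹ = b := by
  classical
  obtain ⟨P₁, N, hN, hc⟩ := Cfsg.Agent.H13.hasNormalPComplement_of_frobCond h.frob_CJ
  let PC : Sylow 2 (centralizer ({σ ^ m} : Set G)) := P.subtype h.P_le_CJ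
  have hPCc : (PC : Subgroup (centralizer ({σ ^ m} : Set G))) =
      (P : Subgroup G).subgroupOf (centralizer ({σ ^ m} : Set G)) := P.coe_subtype h.P_le_CJ
  have hcardP : Nat.card (PC : Subgroup (centralizer ({σ ^ m} : Set G))) = Nat.card (P₁ : Subgroup (centralizer ({σ ^ m} : Set G))) := by
    rw [PC.card_eq_multiplicity, P₁.card_eq_multiplicity]
  have hcop : Nat.Coprime (Nat.card N) (Nat.card (PC : Subgroup (centralizer ({σ ^ m} : Set G)))) := by
    obtain ⟨k, hk⟩ := PC.2.exists_card_eq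
    rw [hk]
    apply Nat.Coprime.pow_right
    rw [Nat.coprime_comm, Nat.prime_two.coprime_iff_not_dvd]
    exact Cfsg.Agent.H01.not_dvd_card_of_complement P₁ hc
  have hc' : N.IsComplement' (PC : Subgroup (centralizer ({σ ^ m} : Set G))) :=
    Subgroup.isComplement'_of_coprime (by rw [hcardP]; exact hc.card_mul_card) hcop
  obtain ⟨⟨n, p⟩, hnp⟩ := hc'.2 (⟨g, hg⟩ : centralizer ({σ ^ m} : Set G))
  have hnp' : ((n : centralizer ({σ ^ m} : Set G)) : G) * ((p : centralizer ({σ ^ m} : Set G)) : G) = g :=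
    congrArg Subtype.val hnp
  have hkey : ∀ y : centralizer ({σ ^ m} : Set G),
      y ∈ (PC : Subgroup (centralizer ({σ ^ m} : Set G))) → (y : G) ∈ (P : Subgroup G) := by
    intro y hy
    rw [hPCc, Subgroup.mem_subgroupOf] at hy
    exact hy
  have hpP : ((p : centralizer ({σ ^ m} : Set G)) : G) ∈ (P : Subgroup G) := hkey _ p.2
  refine ⟨_, hpP, ?_⟩
  set y : G := ((p : centralizer ({σ ^ m} : Set G)) : G) * a *
    ((p : centralizer ({σ ^ m} : Set G)) : G)⁻¹ with hy
  have hyP : y ∈ (P : Subgroup G) := mul_mem (mul_mem hpP ha) (inv_mem hpP)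
  have hb' : ((n : centralizer ({σ ^ m} : Set G)) : G) * y *
      ((n : centralizer ({σ ^ m} : Set G)) : G)⁻¹ = b := by
    rw [← hab, ← hnp', hy]
    group
  -- the commutator lies in `N`
  have hyC : y ∈ centralizer ({σ ^ m} : Set G) := h.P_le_CJ hyP
  have hbC : b ∈ centralizer ({σ ^ m} : Set G) := h.P_le_CJ hb
  have hcomm : (⟨b, hbC⟩ : centralizer ({σ ^ m} : Set G)) * (⟨y, hyC⟩ : centralizer ({σ ^ m} : Set G))⁻¹ ∈ N := by
    have h1 : (⟨y, hyC⟩ : centralizer ({σ ^ m} : Set G)) * (n : centralizer ({σ ^ m} : Set G))⁻¹ *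
        (⟨y, hyC⟩ : centralizer ({σ ^ m} : Set G))⁻¹ ∈ N := hN.conj_mem _ (inv_mem n.2) _
    have h2 := mul_mem n.2 h1
    convert h2 using 1
    apply Subtype.ext
    simp only [Subgroup.coe_mul, Subgroup.coe_inv]
    rw [← hb']
    group
  have hcommP : (⟨b, hbC⟩ : centralizer ({σ ^ m} : Set G)) * (⟨y, hyC⟩ : centralizer ({σ ^ m} : Set G))⁻¹ ∈
      (PC : Subgroup (centralizer ({σ ^ m} : Set G))) := by
    rw [hPCc, Subgroup.mem_subgroupOf]
    exact mul_mem hb (inv_mem hyP)
  have h1 := hc'.disjoint.le_bot ⟨hcomm, hcommP⟩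
  rw [Subgroup.mem_bot] at h1
  have h2 : b * y⁻¹ = 1 := congrArg Subtype.val h1
  exact (mul_inv_eq_one.mp h2).symm

/-- The number of involutions commuting with `J`. -/
theorem card_I0 {τ : G} (hτ : τ ∈ (P : Subgroup G)) (hτZ : τ ∉ zpowers σ) :
    (((I0 (σ ^ m)).card : ℕ) : ℚ) = (Nat.card (centralizer ({σ ^ m} : Set G)) : ℚ) *
      (1 / (Nat.card (centralizer ({σ ^ m, τ} : Set G)) : ℚ) +
        1 / (Nat.card (centralizer ({σ ^ m, σ * τ} : Set G)) : ℚ)) := by
  classical
  have hστP : σ * τ ∈ (P : Subgroup G) := mul_mem h.mem hτ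
  have hστZ : σ * τ ∉ zpowers σ := by
    intro hz
    apply hτZ
    have := mul_mem (inv_mem (mem_zpowers σ)) hz
    simpa using this
  let τ' : centralizer ({σ ^ m} : Set G) := ⟨τ, h.P_le_CJ hτ⟩
  let ρ' : centralizer ({σ ^ m} : Set G) := ⟨σ * τ, h.P_le_CJ hστP⟩
  let A₁ : Finset (centralizer ({σ ^ m} : Set G)) := Finset.univ.filter fun y => IsConj y τ'
  let A₂ : Finset (centralizer ({σ ^ m} : Set G)) := Finset.univ.filter fun y => IsConj y ρ'
  have h1 := class_count (centralizer ({σ ^ m} : Set G)) τ' (t' := τ) rfl (σ ^ m) rfl A₁ (by simp [A₁])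
  have h2 := class_count (centralizer ({σ ^ m} : Set G)) ρ' (t' := σ * τ) rfl (σ ^ m) rfl A₂ (by simp [A₂])
  have hdisj : Disjoint A₁ A₂ := by
    rw [Finset.disjoint_left]
    intro y hy1 hy2
    have h3 := (Finset.mem_filter.mp hy1).2
    have h4 := (Finset.mem_filter.mp hy2).2
    obtain ⟨g, hg⟩ := isConj_iff.mp (h3.symm.trans h4)
    have hg' : (g : G) * τ * (g : G)⁻¹ = σ * τ := congrArg Subtype.val hg
    obtain ⟨p, hp, hp'⟩ := h.conj_in_CJ hτ hστP g.2 hg'
    exact h.not_P_conj hτ hτZ hp hp'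
  have hI : I0 (σ ^ m) = (A₁ ∪ A₂).image Subtype.val := by
    ext z
    simp only [Finset.mem_image, Finset.mem_union, mem_I0]
    constructor
    · rintro ⟨hzz, hz1, hzJ, hzne⟩
      have hzC : z ∈ centralizer ({σ ^ m} : Set G) := Subgroup.mem_centralizer_singleton_iff.mpr hzJ
      refine ⟨⟨z, hzC⟩, ?_, rfl⟩
      let PC : Sylow 2 (centralizer ({σ ^ m} : Set G)) := P.subtype h.P_le_CJ
      have hPCc : (PC : Subgroup (centralizer ({σ ^ m} : Set G))) =
          (P : Subgroup G).subgroupOf (centralizer ({σ ^ m} : Set G)) := P.coe_subtype h.P_le_CJ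
      obtain ⟨c, hc⟩ := conj_elem_into PC (g := (⟨z, hzC⟩ : centralizer ({σ ^ m} : Set G))) (k := 1) (by
        apply Subtype.ext
        simpa [sq] using hzz)
      rw [hPCc, Subgroup.mem_subgroupOf] at hc
      have hy : (c : G) * z * (c : G)⁻¹ ∈ (P : Subgroup G) := hc
      have hcJ : (c : G) * σ ^ m = σ ^ m * (c : G) := Subgroup.mem_centralizer_singleton_iff.mp c.2
      have hyZ : (c : G) * z * (c : G)⁻¹ ∉ zpowers σ := by
        intro hz
        have hsq : ((c : G) * z * (c : G)⁻¹) * ((c : G) * z * (c : G)⁻¹) = 1 := by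
          calc ((c : G) * z * (c : G)⁻¹) * ((c : G) * z * (c : G)⁻¹) = (c : G) * (z * z) * (c : G)⁻¹ := by group
            _ = 1 := by rw [hzz]; group
        rcases h.inv_in_Z hz hsq with h3 | h3
        · exact hz1 (conj_eq_one_iff.mp h3)
        · apply hzne
          have h4 : (c : G) * z * (c : G)⁻¹ = (c : G) * σ ^ m * (c : G)⁻¹ := by
            rw [h3, hcJ, mul_inv_cancel_right]
          simpa using h4
      have hcls : ∀ {q : centralizer ({σ ^ m} : Set G)} {e : ℕ},
          (c : G) * z * (c : G)⁻¹ = σ ^ e * (q : G) * (σ ^ e)⁻¹ →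
          IsConj (⟨z, hzC⟩ : centralizer ({σ ^ m} : Set G)) q := by
        intro q e he
        have hσe : σ ^ e ∈ centralizer ({σ ^ m} : Set G) :=
          h.P_le_CJ (pow_mem h.mem e)
        refine isConj_iff.mpr ⟨⟨σ ^ e, hσe⟩⁻¹ * c, ?_⟩
        apply Subtype.ext
        simp only [Subgroup.coe_mul, Subgroup.coe_inv]
        calc (σ ^ e)⁻¹ * (c : G) * z * ((σ ^ e)⁻¹ * (c : G))⁻¹
            = (σ ^ e)⁻¹ * ((c : G) * z * (c : G)⁻¹) * σ ^ e := by group
          _ = (q : G) := by rw [he]; group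
      rcases h.P_class hτ hτZ hy hyZ with ⟨e, he⟩ | ⟨e, he⟩
      · left
        exact Finset.mem_filter.mpr ⟨Finset.mem_univ _, hcls (q := τ') he⟩
      · right
        exact Finset.mem_filter.mpr ⟨Finset.mem_univ _, hcls (q := ρ') he⟩
    · rintro ⟨y, hy, rfl⟩
      have hcls : ∀ {q : centralizer ({σ ^ m} : Set G)}, (q : G) ∈ (P : Subgroup G) →
          (q : G) ∉ zpowers σ → IsConj y q →
          (y : G) * (y : G) = 1 ∧ (y : G) ≠ 1 ∧ (y : G) * σ ^ m = σ ^ m * (y : G) ∧ (y : G) ≠ σ ^ m := by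
        intro q hq hqZ hc
        obtain ⟨g, hg⟩ := isConj_iff.mp hc.symm
        have hg' : (g : G) * (q : G) * (g : G)⁻¹ = (y : G) := congrArg Subtype.val hg
        have hgJ : (g : G) * σ ^ m = σ ^ m * (g : G) := Subgroup.mem_centralizer_singleton_iff.mp g.2
        have hqq := (h.inv q hq hqZ).1
        refine ⟨?_, ?_, Subgroup.mem_centralizer_singleton_iff.mp y.2, ?_⟩
        · rw [← hg']
          calc (g : G) * (q : G) * (g : G)⁻¹ * ((g : G) * (q : G) * (g : G)⁻¹) = (g : G) * ((q : G) * (q : G)) * (g : G)⁻¹ := by group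
            _ = 1 := by rw [hqq]; group
        · rw [← hg']
          intro h0
          apply hqZ
          rw [conj_eq_one_iff.mp h0]
          exact one_mem _
        · rw [← hg']
          intro h0
          have h1 : (g : G) * (q : G) * (g : G)⁻¹ = (g : G) * σ ^ m * (g : G)⁻¹ := by
            rw [h0, hgJ, mul_inv_cancel_right]
          have h2 : (q : G) = σ ^ m := by simpa using h1
          apply hqZ
          rw [h2]
          exact h.σm_mem
      rcases hy with hy | hy
      · exact hcls (q := τ') hτ hτZ (Finset.mem_filter.mp hy).2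
      · exact hcls (q := ρ') hστP hστZ (Finset.mem_filter.mp hy).2
  have hcard : (I0 (σ ^ m)).card = A₁.card + A₂.card := by
    rw [hI, Finset.card_image_of_injective _ Subtype.val_injective,
      Finset.card_union_of_disjoint hdisj]
  have hc₁ : (Nat.card (centralizer ({σ ^ m, τ} : Set G)) : ℚ) ≠ 0 := by
    exact_mod_cast Nat.card_pos.ne'
  have hc₂ : (Nat.card (centralizer ({σ ^ m, σ * τ} : Set G)) : ℚ) ≠ 0 := by
    exact_mod_cast Nat.card_pos.ne'
  have h1' : (A₁.card : ℚ) * (Nat.card (centralizer ({σ ^ m, τ} : Set G)) : ℚ) =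
      (Nat.card (centralizer ({σ ^ m} : Set G)) : ℚ) := by exact_mod_cast h1
  have h2' : (A₂.card : ℚ) * (Nat.card (centralizer ({σ ^ m, σ * τ} : Set G)) : ℚ) =
      (Nat.card (centralizer ({σ ^ m} : Set G)) : ℚ) := by exact_mod_cast h2
  have e1 : (Nat.card (centralizer ({σ ^ m} : Set G)) : ℚ) *
      (1 / (Nat.card (centralizer ({σ ^ m, τ} : Set G)) : ℚ)) = A₁.card := by
    rw [← h1']
    field_simp
  have e2 : (Nat.card (centralizer ({σ ^ m} : Set G)) : ℚ) *
      (1 / (Nat.card (centralizer ({σ ^ m, σ * τ} : Set G)) : ℚ)) = A₂.card := by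
    rw [← h2']
    field_simp
  rw [hcard]
  push_cast
  rw [mul_add, e1, e2]

end DS

end Cfsg.Agent.H15.Dih
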