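import Cfsg.Agent.Lib.H15.DihO3

/-! # Brauer's order formula for groups with dihedral Sylow 2-subgroups and one class of involutions -/

set_option autoImplicit false
set_option linter.unusedSectionVars false
set_option linter.style.haveILetI false
set_option linter.unusedSimpArgs false

namespace Cfsg.Agent.H15.Dih

open Cfsg Cfsg.Agent.H21 Cfsg.Agent.H22 Subgroup
open Cfsg.Agent.H15.Homo (section_orth char_inner card_ne sum_neg_char char_neg_conj Bs Ss mem_Bs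
  mem_Ss eB_sum_eq deg_spec deg_pos)
open scoped ComplexConjugate

universe u

variable {G : Type u} [Group G] [Finite G]

theorem alt_sum_aux (s : ℕ) :
    ∑ i ∈ Finset.range (2 * s + 1), ((-1 : ℂ) ^ (i + 1) - 1) = -(2 * (s : ℂ) + 2) := by
  induction s with
  | zero => norm_num
  | succ s ih =>
    rw [show 2 * (s + 1) + 1 = 2 * s + 1 + 1 + 1 by ring, Finset.sum_range_succ,
      Finset.sum_range_succ, ih]
    have h2 : (-1 : ℂ) ^ (2 * s + 1 + 1) = 1 := by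
      rw [show 2 * s + 1 + 1 = 2 * (s + 1) by ring, pow_mul]
      norm_num
    have h3 : (-1 : ℂ) ^ (2 * s + 1 + 1 + 1) = -1 := by
      rw [pow_succ, h2]
      norm_num
    rw [h2, h3]
    push_cast
    ring

theorem alt_sum {m : ℕ} (hm : 2 ≤ m) (hev : Even m) :
    ∑ j : Fin (m - 1), ((-1 : ℂ) ^ ((j : ℕ) + 1) - 1) = -(m : ℂ) := by
  obtain ⟨t, rfl⟩ := hev
  obtain ⟨s, rfl⟩ : ∃ s, t = s + 1 := ⟨t - 1, by omega⟩
  have h1 : s + 1 + (s + 1) - 1 = 2 * s + 1 := by omega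
  rw [h1, Fin.sum_univ_eq_sum_range (fun i => (-1 : ℂ) ^ (i + 1) - 1), alt_sum_aux]
  push_cast
  ring

section Sums

variable {m : ℕ} [NeZero (2 * m)]

theorem sum_ff : ∑ b : ZMod (2 * m), ff b = ((2 * m : ℕ) : ℂ) - 1 := by
  classical
  have h1 : ∀ b : ZMod (2 * m), ff b = 1 - if b = 0 then 1 else 0 := by
    intro b
    by_cases hb : b = 0
    · rw [hb, ff_zero]
      simp
    · rw [ff_ne hb]
      simp [hb]
  simp only [h1]
  rw [Finset.sum_sub_distrib, Finset.sum_ite_eq' Finset.univ (0 : ZMod (2 * m))]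
  simp [ZMod.card]

theorem sum_ff_char {ψ : AddChar (ZMod (2 * m)) ℂ} (hψ : ψ ≠ 1) :
    ∑ b : ZMod (2 * m), ff b * ψ b = -1 := by
  classical
  have h1 : ∀ b : ZMod (2 * m), ff b * ψ b = ψ b - if b = 0 then 1 else 0 := by
    intro b
    by_cases hb : b = 0
    · rw [hb, ff_zero]
      simp
    · rw [ff_ne hb]
      simp [hb]
  simp only [h1]
  rw [Finset.sum_sub_distrib, AddChar.sum_eq_zero_of_ne_one hψ,
    Finset.sum_ite_eq' Finset.univ (0 : ZMod (2 * m))]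
  simp

end Sums

variable {P : Sylow 2 G} {σ : G} {m : ℕ} (h : DS P σ m)

theorem ss_eval [NeZero (2 * m)] (hm : 0 < m) {χ : IrrCharacter G} {v : ℕ → ℂ}
    (hv : ∀ l : ℕ, 0 < l → l < 2 * m → χ.1 (σ ^ l) = v l) :
    ss σ m χ = ∑ b : ZMod (2 * m), ff b * conj (v b.val) + conj (v m) := by
  unfold ss
  rw [hv m hm (by omega)]
  congr 1
  refine Finset.sum_congr rfl fun b _ => ?_
  by_cases hb : b = 0
  · rw [hb, ff_zero, zero_mul, zero_mul]
  · have h1 : 0 < b.val := Nat.pos_of_ne_zero (fun h0 => hb ((ZMod.val_eq_zero b).mp h0))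
    have h2 : b.val < 2 * m := ZMod.val_lt b
    unfold iota
    rw [hv _ h1 h2]

set_option maxHeartbeats 2000000 in
include h in
/-- The order formula. -/
theorem dih_order {τ : G} (hτ : τ ∈ (P : Subgroup G)) (hτZ : τ ∉ zpowers σ)
    (hconj : IsConj (σ ^ m) τ ∧ IsConj (σ ^ m) (σ * τ)) {M : Ideal AlgInt} (hM : IsPModular 2 M)
    (χ₁ : IrrCharacter G) (hχ₁ : χ₁ ∈ principalBlock M G) (h1 : (χ₁ : G → ℂ) ≠ (fun _ => 1))
    (δ₁ : ℤ) (hδ₁ : δ₁ = 1 ∨ δ₁ = -1)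
    (hval : ∀ l : ℕ, 0 < l → l < 2 * m → (χ₁ : G → ℂ) (σ ^ l) = δ₁) :
    (charDegree (χ₁ : G → ℂ) : ℤ) ≠ δ₁ ∧
    (Nat.card G : ℚ) * ((charDegree (χ₁ : G → ℂ) : ℚ) - δ₁) ^ 2 =
      2 * (charDegree (χ₁ : G → ℂ) : ℚ) * ((charDegree (χ₁ : G → ℂ) : ℚ) + δ₁) *
        (Nat.card (centralizer ({σ ^ m} : Set G)) : ℚ) ^ 3 *
        (1 / (Nat.card (centralizer ({σ ^ m, τ} : Set G)) : ℚ) +
          1 / (Nat.card (centralizer ({σ ^ m, σ * τ} : Set G)) : ℚ)) ^ 2 := by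
  classical
  haveI hMp : M.IsPrime := hM.2.1.isPrime
  have hm := h.mtwo
  have hmpos : 0 < m := by omega
  haveI : NeZero (2 * m) := ⟨by omega⟩
  have hζ : IsPrimitiveRoot (Complex.exp (2 * Real.pi * Complex.I / ((2 * m : ℕ) : ℂ))) (2 * m) :=
    Complex.isPrimitiveRoot_exp (2 * m) (by omega)
  set ζ := Complex.exp (2 * Real.pi * Complex.I / ((2 * m : ℕ) : ℂ)) with hζdef
  obtain ⟨hcardB, a₁, a₂, a₃, χ', d₁, d₂, d₃, hd₁, hd₂, hd₃, hinj, hne₁, hne₂, hne₃, h12, h13, h23,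
    hjne, hset, hvals, hreg⟩ := dih_main h hM hζ
  have hd₁sq : (d₁ : ℂ) * d₁ = 1 := by
    rcases hd₁ with h0 | h0 <;> rw [h0] <;> norm_num
  have hδsq : (δ₁ : ℂ) * δ₁ = 1 := by
    rcases hδ₁ with h0 | h0 <;> rw [h0] <;> norm_num
  have hζm := zeta_m hζ hm
  -- the value of `χ' j` at the central involution
  have hvalJ : ∀ j : Fin (m - 1), (χ' j).1 (σ ^ m) = d₁ * (2 * (-1) ^ ((j : ℕ) + 1)) := by
    intro j
    have h2 := (hvals m hmpos (by omega)).2.2.2 j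
    have h3 : ζ ^ (((j : ℕ) + 1) * m) = (-1) ^ ((j : ℕ) + 1) := by
      rw [mul_comm, pow_mul, hζm]
    have h4 : (((-1 : ℂ) ^ ((j : ℕ) + 1))⁻¹) = (-1) ^ ((j : ℕ) + 1) := by
      rw [← inv_pow]
      norm_num
    rw [h3, h4] at h2
    rw [h2]
    ring
  have hsgn : ∀ k : ℕ, ((-1 : ℂ) ^ k) * (-1) ^ k = 1 := by
    intro k
    rw [← mul_pow]
    norm_num
  -- identification of `χ₁`
  have hmem : (χ₁ : G → ℂ) = (fun _ => 1) ∨ χ₁ = a₁ ∨ χ₁ = a₂ ∨ χ₁ = a₃ ∨ ∃ j, χ₁ = χ' j := by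
    rw [hset] at hχ₁
    exact hχ₁
  have hval1 := hval 1 (by norm_num) (by omega)
  have hval2 := hval 2 (by norm_num) (by omega)
  have hid : χ₁ = a₁ := by
    rcases hmem with h2 | h2 | h2 | h2 | ⟨j, h2⟩
    · exact absurd h2 h1
    · exact h2
    · exfalso
      have e1 := (hvals 1 (by norm_num) (by omega)).2.1
      have e2 := (hvals 2 (by norm_num) (by omega)).2.1
      rw [← h2, hval1] at e1
      rw [← h2, hval2] at e2
      have e3 : (d₂ : ℂ) = 0 := by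
        have e5 : (-1 : ℂ) ^ (1 + 1) = 1 := by norm_num
        have e6 : (-1 : ℂ) ^ (2 + 1) = -1 := by norm_num
        rw [e5] at e1
        rw [e6] at e2
        linear_combination (1 / 2 : ℂ) * e2 - (1 / 2 : ℂ) * e1
      have e4 : d₂ = 0 := by exact_mod_cast e3
      rcases hd₂ with h0 | h0 <;> omega
    · exfalso
      have e1 := (hvals 1 (by norm_num) (by omega)).2.2.1
      have e2 := (hvals 2 (by norm_num) (by omega)).2.2.1
      rw [← h2, hval1] at e1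
      rw [← h2, hval2] at e2
      have e3 : (d₃ : ℂ) = 0 := by
        have e5 : (-1 : ℂ) ^ (1 + 1) = 1 := by norm_num
        have e6 : (-1 : ℂ) ^ (2 + 1) = -1 := by norm_num
        rw [e5] at e1
        rw [e6] at e2
        linear_combination (1 / 2 : ℂ) * e2 - (1 / 2 : ℂ) * e1
      have e4 : d₃ = 0 := by exact_mod_cast e3
      rcases hd₃ with h0 | h0 <;> omega
    · exfalso
      have e1 := hvalJ j
      rw [← h2, hval m hmpos (by omega)] at e1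
      have e2 : ((δ₁ : ℂ) * δ₁) = 4 * ((d₁ : ℂ) * d₁) * (((-1 : ℂ) ^ ((j : ℕ) + 1)) * (-1) ^ ((j : ℕ) + 1)) := by
        nth_rw 1 [e1]
        nth_rw 1 [e1]
        ring
      rw [hδsq, hd₁sq, hsgn] at e2
      norm_num at e2
  subst hid
  have hδd : δ₁ = d₁ := by
    have e1 := (hvals 1 (by norm_num) (by omega)).1
    rw [hval1] at e1
    exact_mod_cast e1
  subst hδd
  -- degrees
  have hdeg : ∀ χ : IrrCharacter G, χ.1 1 = ((charDegree χ.1 : ℕ) : ℂ) := fun χ =>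
    one_eq_charDegree (isCharacter_of_irr χ.2)
  set x₁ : ℕ := charDegree (χ₁ : G → ℂ) with hx₁
  have hodd1 : Odd (orderOf (1 : G)) := by
    rw [orderOf_one]
    exact odd_one
  have hX : ∀ j : Fin (m - 1), (χ' j).1 1 = (x₁ : ℂ) + δ₁ := by
    intro j
    have e1 := (hreg 1 hodd1 j).2
    have e2 : χ₁.1 1 = (x₁ : ℂ) := hdeg χ₁
    have e3 : (↑χ₁ : G → ℂ) 1 = (x₁ : ℂ) := e2
    rw [e3] at e1
    have e4 : (χ' j).1 1 = (δ₁ : ℂ) * ((δ₁ : ℂ) * (χ' j).1 1) := by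
      rw [← mul_assoc, hδsq, one_mul]
    rw [e4]
    have e5 : (δ₁ : ℂ) * (χ' j).1 1 = 1 + δ₁ * x₁ := e1.symm
    rw [e5]
    linear_combination (x₁ : ℂ) * hδsq
  have hx₁pos : 0 < x₁ := irr_charDegree_pos χ₁.2
  obtain ⟨j₀⟩ : Nonempty (Fin (m - 1)) := ⟨⟨0, by omega⟩⟩
  have hXpos : (1 : ℤ) ≤ (x₁ : ℤ) + δ₁ := by
    have e1 := irr_charDegree_pos (χ' j₀).2
    have e2 : ((charDegree (χ' j₀).1 : ℕ) : ℂ) = (x₁ : ℂ) + δ₁ := by
      rw [← hX j₀, hdeg]
    have e3 : ((charDegree (χ' j₀).1 : ℕ) : ℤ) = (x₁ : ℤ) + δ₁ := by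
      have : (((charDegree (χ' j₀).1 : ℕ) : ℤ) : ℂ) = (((x₁ : ℤ) + δ₁ : ℤ) : ℂ) := by
        push_cast
        exact e2
      exact_mod_cast this
    rw [← e3]
    exact_mod_cast e1
  have hx₁C : (x₁ : ℂ) ≠ 0 := by exact_mod_cast hx₁pos.ne'
  have hXC : (x₁ : ℂ) + δ₁ ≠ 0 := by
    have : (((x₁ : ℤ) + δ₁ : ℤ) : ℂ) ≠ 0 := by
      exact_mod_cast (by omega : (x₁ : ℤ) + δ₁ ≠ 0)
    push_cast at this
    exact this
  -- the sum over the block
  have hSS : Ss M G = insert χ₁ (insert a₂ (insert a₃ (Finset.univ.image χ'))) := by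
    ext χ
    rw [mem_Ss]
    simp only [Finset.mem_insert, Finset.mem_image, Finset.mem_univ, true_and]
    constructor
    · rintro ⟨h2, h3⟩
      rw [hset] at h3
      rcases h3 with h3 | h3 | h3 | h3 | ⟨j, h3⟩
      · exact absurd (Subtype.ext h3) h2
      · exact Or.inl h3
      · exact Or.inr (Or.inl h3)
      · exact Or.inr (Or.inr (Or.inl h3))
      · exact Or.inr (Or.inr (Or.inr ⟨j, h3.symm⟩))
    · intro h2
      have hne : χ ≠ oneIrr G := by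
        rintro rfl
        rcases h2 with h3 | h3 | h3 | ⟨j, h3⟩
        · exact hne₁ (by rw [← h3]; rfl)
        · exact hne₂ (by rw [← h3]; rfl)
        · exact hne₃ (by rw [← h3]; rfl)
        · exact (hjne j).2.2.2 (by rw [h3]; rfl)
      refine ⟨hne, ?_⟩
      rw [hset]
      rcases h2 with h3 | h3 | h3 | ⟨j, h3⟩
      · exact Or.inr (Or.inl h3)
      · exact Or.inr (Or.inr (Or.inl h3))
      · exact Or.inr (Or.inr (Or.inr (Or.inl h3)))
      · exact Or.inr (Or.inr (Or.inr (Or.inr ⟨j, h3.symm⟩)))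
  let F : IrrCharacter G → ℂ := fun χ => (χ.1 (σ ^ m) * χ.1 (σ ^ m) / χ.1 1) * ss σ m χ
  have hsumF : ∑ χ : IrrCharacter G, eB (principalBlock M G) χ * F χ =
      F (oneIrr G) + F χ₁ + F a₂ + F a₃ + ∑ j, F (χ' j) := by
    rw [eB_sum_eq, hSS, Finset.sum_insert, Finset.sum_insert, Finset.sum_insert,
      Finset.sum_image (fun a _ b _ hab => hinj hab)]
    · ring
    · simp only [Finset.mem_image, Finset.mem_univ, true_and, not_exists]
      exact fun j => (hjne j).2.2.1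
    · simp only [Finset.mem_insert, Finset.mem_image, Finset.mem_univ, true_and, not_or, not_exists]
      exact ⟨h23, fun j => (hjne j).2.1⟩
    · simp only [Finset.mem_insert, Finset.mem_image, Finset.mem_univ, true_and, not_or, not_exists]
      exact ⟨h12, h13, fun j => (hjne j).1⟩
  have hω1 := ω_ne hζ hm
  have hqm : ((2 * m : ℕ) : ℂ) = 2 * (m : ℂ) := by push_cast; ring
  -- the value at the trivial character
  have hF1 : F (oneIrr G) = ((2 * m : ℕ) : ℂ) := by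
    have e1 : ss σ m (oneIrr G) = ((2 * m : ℕ) : ℂ) := by
      rw [ss_eval hmpos (v := fun _ => 1) (fun l _ _ => rfl)]
      simp only [map_one, mul_one]
      rw [sum_ff]
      ring
    show ((1 : ℂ) * 1 / 1) * ss σ m (oneIrr G) = _
    rw [e1]
    ring
  have hF2 : F χ₁ = ((2 * m : ℕ) : ℂ) * δ₁ / x₁ := by
    have e1 : ss σ m χ₁ = ((2 * m : ℕ) : ℂ) * δ₁ := by
      rw [ss_eval hmpos (v := fun _ => (δ₁ : ℂ)) hval]
      simp only [map_intCast]
      rw [← Finset.sum_mul, sum_ff]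
      ring
    show (χ₁.1 (σ ^ m) * χ₁.1 (σ ^ m) / χ₁.1 1) * ss σ m χ₁ = _
    have e2 : χ₁.1 (σ ^ m) = δ₁ := hval m hmpos (by omega)
    have e3 : χ₁.1 1 = (x₁ : ℂ) := hdeg χ₁
    rw [e1, e2, e3, hδsq]
    field_simp
  have hmev : (-1 : ℂ) ^ (m + 1) = -1 := by
    rw [pow_succ, h.meven.neg_one_pow]
    norm_num
  have hss0 : ∀ (a : IrrCharacter G) (d : ℤ), (∀ l : ℕ, 0 < l → l < 2 * m → a.1 (σ ^ l) = d * (-1) ^ (l + 1)) →
      ss σ m a = 0 := by
    intro a d hv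
    rw [ss_eval hmpos (v := fun l => (d : ℂ) * (-1) ^ (l + 1)) hv]
    have e1 : ∀ b : ZMod (2 * m), ff b * conj ((d : ℂ) * (-1) ^ (b.val + 1)) =
        -(d : ℂ) * (ff b * psi hζ m b) := by
      intro b
      rw [psi_m_apply hζ hm]
      simp only [map_mul, map_pow, map_neg, map_one, map_intCast]
      rw [pow_succ]
      ring
    simp only [e1]
    rw [← Finset.mul_sum, sum_ff_char hω1]
    simp only [map_mul, map_pow, map_neg, map_one, map_intCast]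
    rw [hmev]
    ring
  have hF3 : F a₂ = 0 := by
    show _ * ss σ m a₂ = 0
    rw [hss0 a₂ d₂ (fun l h3 h4 => (hvals l h3 h4).2.1), mul_zero]
  have hF4 : F a₃ = 0 := by
    show _ * ss σ m a₃ = 0
    rw [hss0 a₃ d₃ (fun l h3 h4 => (hvals l h3 h4).2.2.1), mul_zero]
  have hF5 : ∀ j : Fin (m - 1), F (χ' j) = 8 * δ₁ / ((x₁ : ℂ) + δ₁) * ((-1) ^ ((j : ℕ) + 1) - 1) := by
    intro j
    set k := (j : ℕ) + 1 with hk
    have hj := j.2
    have hψ1 : psi hζ k ≠ 1 := by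
      intro h0
      rw [← psi_zero hζ] at h0
      have := psi_inj_lt hζ hm (by omega) (by omega) h0
      omega
    have e1 : ss σ m (χ' j) = (δ₁ : ℂ) * (2 * ((-1) ^ k - 1)) := by
      rw [ss_eval hmpos (v := fun l => (δ₁ : ℂ) * (ζ ^ (k * l) + (ζ ^ (k * l))⁻¹))
        (fun l h3 h4 => (hvals l h3 h4).2.2.2 j)]
      have e2 : ∀ b : ZMod (2 * m), ff b * conj ((δ₁ : ℂ) * (ζ ^ (k * b.val) + (ζ ^ (k * b.val))⁻¹)) =
          (δ₁ : ℂ) * (ff b * psi hζ k b + ff b * (psi hζ k)⁻¹ b) := by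
        intro b
        have e0 : psi hζ k b = ζ ^ (k * b.val) := psi_apply hζ k b
        have e4 : (psi hζ k)⁻¹ b = (ζ ^ (k * b.val))⁻¹ := by
          rw [AddChar.inv_apply, AddChar.map_neg_eq_inv, e0]
        have e3 : conj (ζ ^ (k * b.val)) = (ζ ^ (k * b.val))⁻¹ := by
          rw [← e0, ← AddChar.map_neg_eq_conj, AddChar.map_neg_eq_inv]
        rw [map_mul, map_add, map_intCast, map_inv₀, e3, inv_inv, e0, e4]
        ring
      simp only [e2]
      rw [← Finset.mul_sum, Finset.sum_add_distrib, sum_ff_char hψ1,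
        sum_ff_char (inv_ne_one.mpr hψ1)]
      have e5 : ζ ^ (k * m) = (-1) ^ k := by
        rw [mul_comm, pow_mul, hζm]
      have e6 : (((-1 : ℂ) ^ k)⁻¹) = (-1) ^ k := by
        rw [← inv_pow]
        norm_num
      rw [e5, e6]
      simp only [map_mul, map_pow, map_neg, map_one, map_intCast, map_add]
      ring
    show ((χ' j).1 (σ ^ m) * (χ' j).1 (σ ^ m) / (χ' j).1 1) * ss σ m (χ' j) = _
    rw [e1, hvalJ j, hX j]
    have e7 : ((δ₁ : ℂ) * (2 * (-1) ^ k)) * ((δ₁ : ℂ) * (2 * (-1) ^ k)) = 4 := by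
      have := hsgn k
      linear_combination (4 * ((-1 : ℂ) ^ k * (-1) ^ k)) * hδsq + 4 * this
    rw [e7]
    field_simp
    ring
  have hT : ∑ χ : IrrCharacter G, eB (principalBlock M G) χ * F χ =
      ((2 * m : ℕ) : ℂ) * (1 + δ₁ / x₁ - 4 * δ₁ / ((x₁ : ℂ) + δ₁)) := by
    rw [hsumF, hF1, hF2, hF3, hF4]
    simp only [hF5]
    rw [← Finset.mul_sum, alt_sum hm h.meven, hqm]
    field_simp
    ring
  -- the group side
  have hτy : τ * τ = 1 := (h.inv τ hτ hτZ).1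
  have hcl' : ∀ y ∈ (P : Subgroup G), y ∉ zpowers σ → IsConj y (σ ^ m) := by
    intro y hy hyZ
    rcases h.P_class hτ hτZ hy hyZ with ⟨e, he⟩ | ⟨e, he⟩
    · rw [he]
      exact (isConj_iff.mpr ⟨σ ^ e, rfl⟩).symm.trans hconj.1.symm
    · rw [he]
      exact (isConj_iff.mpr ⟨σ ^ e, rfl⟩).symm.trans hconj.2.symm
  have hcl : ∀ t : G, t * t = 1 → t ≠ 1 → IsConj t (σ ^ m) := fun t h2 h3 =>
    h.all_inv_conj hcl' h2 h3
  have hcount := block_count h hM hcl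
  have hcount' : ((centralizer ({σ ^ m} : Set G)).index : ℂ) *
      ∑ χ : IrrCharacter G, eB (principalBlock M G) χ * F χ =
      2 * ((2 * m : ℕ) : ℂ) * (((I0 (σ ^ m)).card * (I0 (σ ^ m)).card : ℕ) : ℂ) := hcount
  rw [hT] at hcount'
  set idx : ℕ := (centralizer ({σ ^ m} : Set G)).index with hidx
  set i : ℕ := (I0 (σ ^ m)).card with hi
  have hq0 : ((2 * m : ℕ) : ℂ) ≠ 0 := by exact_mod_cast (by omega : 2 * m ≠ 0)
  have hmain : (idx : ℂ) * ((x₁ : ℂ) - δ₁) ^ 2 = 2 * x₁ * ((x₁ : ℂ) + δ₁) * ((i : ℂ) * i) := by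
    have e1 : (idx : ℂ) * (1 + δ₁ / x₁ - 4 * δ₁ / ((x₁ : ℂ) + δ₁)) = 2 * ((i : ℂ) * i) := by
      apply mul_left_cancel₀ hq0
      push_cast at hcount' ⊢
      linear_combination hcount'
    have e2 : ((x₁ : ℂ) - δ₁) ^ 2 = x₁ * ((x₁ : ℂ) + δ₁) * (1 + δ₁ / x₁ - 4 * δ₁ / ((x₁ : ℂ) + δ₁)) := by
      field_simp
      ring
    rw [e2]
    linear_combination (x₁ * ((x₁ : ℂ) + δ₁)) * e1
  have hmainZ : (idx : ℤ) * ((x₁ : ℤ) - δ₁) ^ 2 = 2 * x₁ * ((x₁ : ℤ) + δ₁) * ((i : ℤ) * i) := by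
    have : (((idx : ℤ) * ((x₁ : ℤ) - δ₁) ^ 2 : ℤ) : ℂ) = ((2 * x₁ * ((x₁ : ℤ) + δ₁) * ((i : ℤ) * i) : ℤ) : ℂ) := by
      push_cast
      exact hmain
    exact_mod_cast this
  have hipos : 0 < i := by
    apply Finset.card_pos.mpr
    refine ⟨τ, mem_I0.mpr ⟨hτy, fun h0 => hτZ (h0 ▸ one_mem _), (h.J_central hτ), ?_⟩⟩
    intro h0
    exact hτZ (h0 ▸ h.σm_mem)
  refine ⟨?_, ?_⟩
  · intro h0
    rw [h0, sub_self, zero_pow two_ne_zero, mul_zero] at hmainZ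
    have h3 : (0 : ℤ) < 2 * x₁ * ((x₁ : ℤ) + δ₁) * ((i : ℤ) * i) := by
      have h4 : (0 : ℤ) < (x₁ : ℤ) := by exact_mod_cast hx₁pos
      have h5 : (0 : ℤ) < (i : ℤ) := by exact_mod_cast hipos
      have h6 : (0 : ℤ) < (x₁ : ℤ) + δ₁ := by omega
      positivity
    rw [h0, ← hmainZ] at h3
    exact lt_irrefl _ h3
  · have hcI := h.card_I0 hτ hτZ
    rw [← hi] at hcI
    have hcG : (Nat.card G : ℚ) = (idx : ℚ) * (Nat.card (centralizer ({σ ^ m} : Set G)) : ℚ) := by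
      have := index_mul_card_centralizer (σ ^ m)
      exact_mod_cast this.symm
    have hmainQ : (idx : ℚ) * ((x₁ : ℚ) - δ₁) ^ 2 = 2 * x₁ * ((x₁ : ℚ) + δ₁) * ((i : ℚ) * i) := by
      exact_mod_cast hmainZ
    rw [hcG]
    have e3 : (Nat.card (centralizer ({σ ^ m} : Set G)) : ℚ) ^ 3 *
        (1 / (Nat.card (centralizer ({σ ^ m, τ} : Set G)) : ℚ) +
          1 / (Nat.card (centralizer ({σ ^ m, σ * τ} : Set G)) : ℚ)) ^ 2 =
        (Nat.card (centralizer ({σ ^ m} : Set G)) : ℚ) * ((i : ℚ) * i) := by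
      rw [hcI]
      ring
    rw [mul_assoc (2 * (x₁ : ℚ) * ((x₁ : ℚ) + δ₁)), e3]
    linear_combination (Nat.card (centralizer ({σ ^ m} : Set G)) : ℚ) * hmainQ

end Cfsg.Agent.H15.Dih
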