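import Cfsg.Agent.Lib.H15.DihO4

/-! # From a presentation of the dihedral Sylow subgroup to the dihedral data -/

set_option autoImplicit false
set_option linter.unusedSectionVars false
set_option linter.style.haveILetI false
set_option linter.unusedSimpArgs false

namespace Cfsg.Agent.H15.Dih

open Subgroup

universe u

variable {G : Type u} [Group G] [Finite G]

theorem conj_mem_zpowers_inv {σ τ : G} (hrel : τ * σ * τ⁻¹ = σ⁻¹) {z : G} (hz : z ∈ zpowers σ) :
    τ * z * τ⁻¹ = z⁻¹ := by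
  obtain ⟨k, rfl⟩ := mem_zpowers_iff.mp hz
  rw [← conj_zpow, hrel, inv_zpow]

/-- Every element of the subgroup generated by a rotation and a reflection is a rotation or a
rotation times the reflection. -/
theorem closure_cases {σ τ : G} (hτ2 : τ * τ = 1) (hrel : τ * σ * τ⁻¹ = σ⁻¹) {y : G}
    (hy : y ∈ closure ({σ, τ} : Set G)) : y ∈ zpowers σ ∨ ∃ z ∈ zpowers σ, y = z * τ := by
  have hτi : τ⁻¹ = τ := inv_eq_of_mul_eq_one_left hτ2
  induction hy using closure_induction with
  | mem x hx =>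
    rcases hx with rfl | hx
    · exact Or.inl (mem_zpowers x)
    · rw [Set.mem_singleton_iff] at hx
      subst hx
      exact Or.inr ⟨1, one_mem _, (one_mul _).symm⟩
  | one => exact Or.inl (one_mem _)
  | mul a b _ _ ha hb =>
    rcases ha with ha | ⟨z, hz, rfl⟩ <;> rcases hb with hb | ⟨z', hz', rfl⟩
    · exact Or.inl (mul_mem ha hb)
    · exact Or.inr ⟨a * z', mul_mem ha hz', by group⟩
    · refine Or.inr ⟨z * b⁻¹, mul_mem hz (inv_mem hb), ?_⟩
      have h1 := conj_mem_zpowers_inv hrel hb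
      rw [hτi] at h1
      have h2 : z * (τ * b * τ) * τ = z * τ * b * (τ * τ) := by group
      calc z * τ * b = z * (τ * b * τ) * τ := by rw [h2, hτ2, mul_one]
        _ = z * b⁻¹ * τ := by rw [h1]
    · refine Or.inl ?_
      have h1 := conj_mem_zpowers_inv hrel hz'
      rw [hτi] at h1
      have h2 : z * τ * (z' * τ) = z * (τ * z' * τ) := by group
      rw [h2, h1]
      exact mul_mem hz (inv_mem hz')
  | inv a _ ha =>
    rcases ha with ha | ⟨z, hz, rfl⟩
    · exact Or.inl (inv_mem ha)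
    · refine Or.inr ⟨z, hz, ?_⟩
      have h1 := conj_mem_zpowers_inv hrel hz
      rw [hτi] at h1
      rw [mul_inv_rev, hτi]
      have h2 : τ * z⁻¹ * τ = z := by
        have h3 := conj_mem_zpowers_inv hrel (inv_mem hz)
        rw [hτi, inv_inv] at h3
        exact h3
      calc τ * z⁻¹ = τ * z⁻¹ * τ * τ := by rw [mul_assoc _ τ τ, hτ2, mul_one]
        _ = z * τ := by rw [h2]

theorem ds_of_closure {P : Sylow 2 G} {σ τ : G} {m : ℕ} (hm : 2 ≤ m) (hev : Even m)
    (hσ : σ ∈ (P : Subgroup G)) (hτ : τ ∈ (P : Subgroup G)) (hσo : orderOf σ = 2 * m)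
    (hτo : orderOf τ = 2) (hrel : τ * σ * τ⁻¹ = σ⁻¹)
    (hgen : closure ({σ, τ} : Set G) = (P : Subgroup G)) :
    DS P σ m ∧ τ ∉ zpowers σ := by
  classical
  have hτ2 : τ * τ = 1 := by
    rw [← pow_two, ← hτo]
    exact pow_orderOf_eq_one τ
  have hτi : τ⁻¹ = τ := inv_eq_of_mul_eq_one_left hτ2
  have hτZ : τ ∉ zpowers σ := by
    intro h0
    have h1 := conj_mem_zpowers_inv hrel (mem_zpowers σ)
    have h2 : τ * σ * τ⁻¹ = σ := by
      have hc : Commute τ σ := by
        obtain ⟨k, rfl⟩ := mem_zpowers_iff.mp h0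
        exact (Commute.refl σ).zpow_left k
      rw [hc.eq, mul_inv_cancel_right]
    have h3 : σ * σ = 1 := by
      rw [h2] at hrel
      exact mul_eq_one_iff_eq_inv.mpr hrel
    have h4 : orderOf σ ∣ 2 := orderOf_dvd_of_pow_eq_one (by rw [pow_two, h3])
    rw [hσo] at h4
    have := Nat.le_of_dvd (by norm_num) h4
    omega
  have hZP : zpowers σ ≤ (P : Subgroup G) := by
    rw [zpowers_le]
    exact hσ
  have hcases : ∀ y ∈ (P : Subgroup G), y ∈ zpowers σ ∨ ∃ z ∈ zpowers σ, y = z * τ := by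
    intro y hy
    rw [← hgen] at hy
    exact closure_cases hτ2 hrel hy
  have hcases' : ∀ y ∈ (P : Subgroup G), y ∉ zpowers σ → ∃ z ∈ zpowers σ, y = z * τ := by
    intro y hy hyZ
    rcases hcases y hy with h0 | h0
    · exact absurd h0 hyZ
    · exact h0
  have hinv : ∀ y ∈ (P : Subgroup G), y ∉ zpowers σ → y * y = 1 ∧ y * σ * y⁻¹ = σ⁻¹ := by
    intro y hy hyZ
    obtain ⟨z, hz, rfl⟩ := hcases' y hy hyZ
    have h1 := conj_mem_zpowers_inv hrel hz
    rw [hτi] at h1
    constructor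
    · have h2 : z * τ * (z * τ) = z * (τ * z * τ) := by group
      rw [h2, h1, mul_inv_cancel]
    · have hc : Commute z σ := by
        obtain ⟨k, rfl⟩ := mem_zpowers_iff.mp hz
        exact (Commute.refl σ).zpow_left k
      rw [mul_inv_rev, hτi]
      have h2 : z * τ * σ * (τ * z⁻¹) = z * (τ * σ * τ) * z⁻¹ := by group
      rw [hτi] at hrel
      rw [h2, hrel]
      have h3 : Commute z σ⁻¹ := hc.inv_right
      rw [h3.eq]
      group
  have hcardZ : Nat.card (zpowers σ) = 2 * m := by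
    rw [Nat.card_zpowers, hσo]
  have hcardP : Nat.card (P : Subgroup G) = 2 * (2 * m) := by
    have hidx : ((zpowers σ).subgroupOf (P : Subgroup G)).index = 2 := by
      rw [index_eq_two_iff]
      refine ⟨⟨τ, hτ⟩, ?_⟩
      intro y
      have hy := y.2
      rw [mem_subgroupOf, mem_subgroupOf]
      show Xor ((y : G) * τ ∈ zpowers σ) ((y : G) ∈ zpowers σ)
      by_cases hyZ : (y : G) ∈ zpowers σ
      · refine Or.inr ⟨hyZ, fun h0 => hτZ ?_⟩
        have h1 := mul_mem (inv_mem hyZ) h0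
        rwa [inv_mul_cancel_left] at h1
      · refine Or.inl ⟨?_, hyZ⟩
        obtain ⟨z, hz, hyz⟩ := hcases' _ hy hyZ
        rw [hyz, mul_assoc, hτ2, mul_one]
        exact hz
    have h1 := card_mul_index ((zpowers σ).subgroupOf (P : Subgroup G))
    rw [hidx] at h1
    have h2 : Nat.card ((zpowers σ).subgroupOf (P : Subgroup G)) = Nat.card (zpowers σ) :=
      Nat.card_congr (subgroupOfEquivOfLe hZP).toEquiv
    rw [h2, hcardZ] at h1
    omega
  refine ⟨⟨hσ, hσo, hm, hev, hcardP, hinv, ?_, ⟨τ, hτ, hτZ⟩⟩, hτZ⟩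
  intro y hy y' hy' hyZ hyZ'
  obtain ⟨z, hz, rfl⟩ := hcases' y hy hyZ
  obtain ⟨z', hz', rfl⟩ := hcases' y' hy' hyZ'
  have h1 := conj_mem_zpowers_inv hrel hz'
  rw [hτi] at h1
  have h2 : z * τ * (z' * τ) = z * (τ * z' * τ) := by group
  rw [h2, h1]
  exact mul_mem hz (inv_mem hz')

end Cfsg.Agent.H15.Dih
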