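import Mathlib

/-! # Final arithmetic for an involution centralizer `GL(2,3)` -/

set_option autoImplicit false

namespace Cfsg.Agent.H15.Col

/-- Final arithmetic: solve the two structure constant equations. -/
theorem final_gl23 (n : ℕ) (hn : Odd n) (p s : ℤ) (hp : p % 8 = 2) (hs : s % 8 = 4)
    (hy : p + s + 1 ≠ 0)
    (Ex : (1 : ℚ) - 9 / (p + 1) - 9 / (s + 1) + 1 / (p + s + 1) = 0)
    (Ef : (n : ℚ) * (1 + 4 / p + 16 / s - 1 / (p + s + 1)) = 288) : n = 117 ∨ n = 165 := by
  have hp0 : p ≠ 0 := by omega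
  have hs0 : s ≠ 0 := by omega
  have hp1 : p + 1 ≠ 0 := by omega
  have hs1 : s + 1 ≠ 0 := by omega
  have hp0' : (p : ℚ) ≠ 0 := by exact_mod_cast hp0
  have hs0' : (s : ℚ) ≠ 0 := by exact_mod_cast hs0
  have hp1' : (p : ℚ) + 1 ≠ 0 := by exact_mod_cast hp1
  have hs1' : (s : ℚ) + 1 ≠ 0 := by exact_mod_cast hs1
  have hy' : (p : ℚ) + s + 1 ≠ 0 := by exact_mod_cast hy
  have hpoly : ((p : ℚ) + s + 2) * (((p : ℚ) - 8) * (s - 8) - 72) = 0 := by
    field_simp at Ex
    linear_combination Ex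
  have hEf : (n : ℚ) * ((p : ℚ) * s * (p + s + 1) + 4 * s * (p + s + 1) + 16 * p * (p + s + 1) - p * s) =
      288 * (p * s * (p + s + 1)) := by
    field_simp at Ef
    linear_combination Ef
  have hEfZ : (n : ℤ) * (p * s * (p + s + 1) + 4 * s * (p + s + 1) + 16 * p * (p + s + 1) - p * s) =
      288 * (p * s * (p + s + 1)) := by exact_mod_cast hEf
  obtain ⟨j, rfl⟩ : ∃ j, p = 8 * j + 2 := ⟨p / 8, by omega⟩
  obtain ⟨i, rfl⟩ : ∃ i, s = 8 * i + 4 := ⟨s / 8, by omega⟩
  rcases mul_eq_zero.1 hpoly with h | h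
  · -- `y = -1`
    exfalso
    have hZ : (8 * j + 2) + (8 * i + 4) + 2 = 0 := by
      have : (((8 * j + 2) + (8 * i + 4) + 2 : ℤ) : ℚ) = 0 := by
        push_cast
        push_cast at h
        linarith
      exact_mod_cast this
    have hi : i = -j - 1 := by omega
    subst hi
    have h1 : (n : ℤ) * (j * j) = 18 * ((4 * j + 1) * (2 * j + 1)) := by
      have h2 : 128 * ((n : ℤ) * (j * j)) = 128 * (18 * ((4 * j + 1) * (2 * j + 1))) := by
        linear_combination hEfZ
      exact mul_left_cancel₀ (by norm_num) h2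
    obtain ⟨k, rfl⟩ := hn
    rcases Int.even_or_odd' j with ⟨m, rfl | rfl⟩
    · have h4 : (2 * (k : ℤ) + 1) * ((2 * m) * (2 * m)) = 18 * ((4 * (2 * m) + 1) * (2 * (2 * m) + 1)) := by
        exact_mod_cast h1
      ring_nf at h4
      omega
    · have h4 : (2 * (k : ℤ) + 1) * ((2 * m + 1) * (2 * m + 1)) =
          18 * ((4 * (2 * m + 1) + 1) * (2 * (2 * m + 1) + 1)) := by
        exact_mod_cast h1
      ring_nf at h4
      omega
  · have hZ : (4 * j - 3) * (2 * i - 1) = 9 := by
      have : ((((8 * j + 2) - 8) * ((8 * i + 4) - 8) : ℤ) : ℚ) = 72 := by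
        push_cast
        push_cast at h
        linarith
      have h2 : ((8 * j + 2) - 8) * ((8 * i + 4) - 8) = (72 : ℤ) := by exact_mod_cast this
      nlinarith
    have hd : (4 * j - 3) ∣ 9 := ⟨_, hZ.symm⟩
    have hle := Int.le_of_dvd (by norm_num) hd
    have hge : -(4 * j - 3) ≤ 9 := Int.le_of_dvd (by norm_num) ((neg_dvd).2 hd)
    have hj1 : j ≤ 3 := by omega
    have hj2 : -1 ≤ j := by omega
    clear hd hle hge hpoly h hEf Ef Ex hy' hp0' hs0' hp1' hs1' hp hs hp0 hs0 hp1 hs1 hy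
    interval_cases j
    · omega
    · have hi : i = -1 := by omega
      subst hi
      norm_num at hEfZ
    · have hi : i = 5 := by omega
      subst hi
      right
      norm_num at hEfZ
      omega
    · omega
    · have hi : i = 1 := by omega
      subst hi
      left
      norm_num at hEfZ
      omega

end Cfsg.Agent.H15.Col
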