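import Mathlib

/-! # Extraction of the eight rows for an involution centralizer `GL(2,3)` -/

set_option autoImplicit false

namespace Cfsg.Agent.H15.Col

section
variable {X : Type*} [Fintype X] [DecidableEq X]

theorem vals_of_norm (u : X → ℤ) (k : ℤ) (hk : k ≤ 3) (h : ∑ x, u x ^ 2 = k) (x : X) :
    u x = 0 ∨ u x = 1 ∨ u x = -1 := by
  have h1 : u x ^ 2 ≤ 3 := by
    refine le_trans ?_ hk
    rw [← h]
    exact Finset.single_le_sum (f := fun x => u x ^ 2) (fun i _ => sq_nonneg _) (Finset.mem_univ x)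
  have h2 : u x ≤ 1 := by nlinarith
  have h3 : -1 ≤ u x := by nlinarith
  omega

theorem card_supp (u : X → ℤ) (k : ℕ) (hk : k ≤ 3) (h : ∑ x, u x ^ 2 = k) :
    (Finset.univ.filter (fun x => u x ≠ 0)).card = k := by
  have h1 : ∑ x ∈ Finset.univ.filter (fun x => u x ≠ 0), u x ^ 2 = ∑ x, u x ^ 2 := by
    refine Finset.sum_filter_of_ne (fun x _ hx => ?_)
    intro h0
    apply hx
    simp [h0]
  have h2 : ∑ x ∈ Finset.univ.filter (fun x => u x ≠ 0), u x ^ 2 =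
      ∑ x ∈ Finset.univ.filter (fun x => u x ≠ 0), 1 := by
    refine Finset.sum_congr rfl fun x hx => ?_
    have hx' := (Finset.mem_filter.1 hx).2
    rcases vals_of_norm u k (by omega) h x with h3 | h3 | h3
    · exact absurd h3 hx'
    · simp [h3]
    · simp [h3]
  rw [h1, h] at h2
  simp only [Finset.sum_const, smul_eq_mul, mul_one, nsmul_eq_mul] at h2
  exact_mod_cast h2.symm

/-- Support of a vector of norm two, containing a given element. -/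
theorem supp_two_of_mem (u : X → ℤ) (h : ∑ x, u x ^ 2 = 2) (p : X) (hp : u p ≠ 0) :
    ∃ w, w ≠ p ∧ ∀ x, u x ≠ 0 ↔ x = p ∨ x = w := by
  have hc := card_supp u 2 (by norm_num) (by simpa using h)
  have hm : p ∈ Finset.univ.filter (fun x => u x ≠ 0) := Finset.mem_filter.2 ⟨Finset.mem_univ _, hp⟩
  have h1 : ((Finset.univ.filter (fun x => u x ≠ 0)).erase p).card = 1 := by
    rw [Finset.card_erase_of_mem hm, hc]
  obtain ⟨w, hw⟩ := Finset.card_eq_one.1 h1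
  have hw1 : w ∈ (Finset.univ.filter (fun x => u x ≠ 0)).erase p := by rw [hw]; simp
  refine ⟨w, (Finset.mem_erase.1 hw1).1, fun x => ⟨fun hx => ?_, ?_⟩⟩
  · by_cases hxp : x = p
    · exact Or.inl hxp
    · right
      have : x ∈ (Finset.univ.filter (fun x => u x ≠ 0)).erase p :=
        Finset.mem_erase.2 ⟨hxp, Finset.mem_filter.2 ⟨Finset.mem_univ _, hx⟩⟩
      rw [hw] at this
      simpa using this
  · rintro (rfl | rfl)
    · exact hp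
    · exact (Finset.mem_filter.1 (Finset.mem_erase.1 hw1).2).2

/-- Support of a vector of norm two. -/
theorem supp_two (u : X → ℤ) (h : ∑ x, u x ^ 2 = 2) :
    ∃ p w, w ≠ p ∧ ∀ x, u x ≠ 0 ↔ x = p ∨ x = w := by
  have hc := card_supp u 2 (by norm_num) (by simpa using h)
  obtain ⟨p, hp⟩ : (Finset.univ.filter (fun x => u x ≠ 0)).Nonempty := by
    rw [← Finset.card_pos, hc]
    norm_num
  obtain ⟨w, hw⟩ := supp_two_of_mem u h p (Finset.mem_filter.1 hp).2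
  exact ⟨p, w, hw⟩

/-- Support of a vector of norm three, containing two given elements. -/
theorem supp_three_of_mem2 (u : X → ℤ) (h : ∑ x, u x ^ 2 = 3) (p q : X) (hp : u p ≠ 0) (hq : u q ≠ 0)
    (hpq : p ≠ q) : ∃ w, w ≠ p ∧ w ≠ q ∧ ∀ x, u x ≠ 0 ↔ x = p ∨ x = q ∨ x = w := by
  have hc := card_supp u 3 (by norm_num) (by simpa using h)
  have hm : p ∈ Finset.univ.filter (fun x => u x ≠ 0) := Finset.mem_filter.2 ⟨Finset.mem_univ _, hp⟩
  have hm2 : q ∈ (Finset.univ.filter (fun x => u x ≠ 0)).erase p :=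
    Finset.mem_erase.2 ⟨hpq.symm, Finset.mem_filter.2 ⟨Finset.mem_univ _, hq⟩⟩
  have h1 : (((Finset.univ.filter (fun x => u x ≠ 0)).erase p).erase q).card = 1 := by
    rw [Finset.card_erase_of_mem hm2, Finset.card_erase_of_mem hm, hc]
  obtain ⟨w, hw⟩ := Finset.card_eq_one.1 h1
  have hw1 : w ∈ ((Finset.univ.filter (fun x => u x ≠ 0)).erase p).erase q := by rw [hw]; simp
  have hw2 := Finset.mem_erase.1 hw1
  have hw3 := Finset.mem_erase.1 hw2.2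
  refine ⟨w, hw3.1, hw2.1, fun x => ⟨fun hx => ?_, ?_⟩⟩
  · by_cases hxp : x = p
    · exact Or.inl hxp
    by_cases hxq : x = q
    · exact Or.inr (Or.inl hxq)
    right
    right
    have : x ∈ ((Finset.univ.filter (fun x => u x ≠ 0)).erase p).erase q :=
      Finset.mem_erase.2 ⟨hxq, Finset.mem_erase.2 ⟨hxp, Finset.mem_filter.2 ⟨Finset.mem_univ _, hx⟩⟩⟩
    rw [hw] at this
    simpa using this
  · rintro (rfl | rfl | rfl)
    · exact hp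
    · exact hq
    · exact (Finset.mem_filter.1 hw3.2).2

/-- Support of a vector of norm three containing a given element. -/
theorem supp_three_of_mem1 (u : X → ℤ) (h : ∑ x, u x ^ 2 = 3) (p : X) (hp : u p ≠ 0) :
    ∃ w w', w ≠ p ∧ w' ≠ p ∧ w ≠ w' ∧ ∀ x, u x ≠ 0 ↔ x = p ∨ x = w ∨ x = w' := by
  have hc := card_supp u 3 (by norm_num) (by simpa using h)
  have hm : p ∈ Finset.univ.filter (fun x => u x ≠ 0) := Finset.mem_filter.2 ⟨Finset.mem_univ _, hp⟩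
  have h1 : ((Finset.univ.filter (fun x => u x ≠ 0)).erase p).card = 2 := by
    rw [Finset.card_erase_of_mem hm, hc]
  obtain ⟨w, hw⟩ : ((Finset.univ.filter (fun x => u x ≠ 0)).erase p).Nonempty := by
    rw [← Finset.card_pos, h1]
    norm_num
  have hw' := Finset.mem_erase.1 hw
  obtain ⟨w', h2, h3, h4⟩ := supp_three_of_mem2 u h p w hp (Finset.mem_filter.1 hw'.2).2 hw'.1.symm
  exact ⟨w, w', hw'.1, h2, h3.symm, h4⟩

/-- Sum of a function with prescribed finite support. -/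
theorem sum_on (F : Finset X) (f : X → ℤ) (h : ∀ x, x ∉ F → f x = 0) : ∑ x, f x = ∑ x ∈ F, f x :=
  (Finset.sum_subset (Finset.subset_univ F) fun x _ hx => h x hx).symm

theorem sq_eq_one_of (u : ℤ) (h : u = 1 ∨ u = -1) : u * u = 1 := by
  rcases h with rfl | rfl <;> norm_num

theorem eq_of_mul_one' (u v : ℤ) (h : u * v = 1) : u = v := by
  rcases Int.isUnit_iff.1 (IsUnit.of_mul_eq_one _ h) with rfl | rfl <;> omega

theorem eq_neg_of_mul_neg_one' (u v : ℤ) (h : u * v = -1) : u = -v := by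
  have h1 : u * (-v) = 1 := by linarith
  exact eq_of_mul_one' _ _ h1

theorem val_mul' (u v : ℤ) (hu : u = 0 ∨ u = 1 ∨ u = -1) (hv : v = 0 ∨ v = 1 ∨ v = -1) :
    u * v = 0 ∨ u * v = 1 ∨ u * v = -1 := by
  rcases hu with rfl | rfl | rfl <;> rcases hv with rfl | rfl | rfl <;> norm_num

theorem sum_three (E u : X → ℤ) (p q w : X) (hpq : p ≠ q) (hpw : p ≠ w) (hqw : q ≠ w)
    (hs : ∀ x, E x ≠ 0 ↔ x = p ∨ x = q ∨ x = w) :
    ∑ x, u x * E x = u p * E p + u q * E q + u w * E w := by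
  rw [sum_on {p, q, w} _ (fun x hx => by
    have h : E x = 0 := by
      by_contra h0
      rcases (hs x).1 h0 with h | h | h <;> simp [h] at hx
    simp [h])]
  rw [Finset.sum_insert (by simp [hpq, hpw]), Finset.sum_pair hqw]
  ring

theorem sq_mul_unit (t u : ℤ) (hu : u * u = 1) : (t * u) ^ 2 = t ^ 2 := by
  calc (t * u) ^ 2 = t ^ 2 * (u * u) := by ring
    _ = t ^ 2 := by rw [hu, mul_one]

theorem ne_of_zero {Y : Type*} (f : Y → ℤ) (x y : Y) (h1 : f x = 0) (h2 : f y ≠ 0) : x ≠ y := by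
  rintro rfl
  exact h2 h1

theorem two_sq_case (t₁ t₂ : ℤ) (h1 : t₁ + t₂ = -1) (h2 : t₁ ^ 2 + t₂ ^ 2 ≤ 2) :
    (t₁ = -1 ∧ t₂ = 0) ∨ (t₁ = 0 ∧ t₂ = -1) := by
  have h3 : t₁ ≤ 1 := by nlinarith [sq_nonneg t₂]
  have h4 : -1 ≤ t₁ := by nlinarith [sq_nonneg t₂]
  have h5 : t₂ = -1 - t₁ := by linarith
  subst h5
  interval_cases t₁ <;> simp_all

set_option maxHeartbeats 4000000 in
/-- The eight rows. -/
theorem rows_gl23 (E₁ E₂ b c T : X → ℤ) (o : X) (h1o : E₁ o = 1) (h2o : E₂ o = 0) (hbo : b o = 0)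
    (hco : c o = 0) (hTo : T o = 0)
    (n11 : ∑ x, E₁ x ^ 2 = 3) (n22 : ∑ x, E₂ x ^ 2 = 3) (nbb : ∑ x, b x ^ 2 = 2)
    (ncc : ∑ x, c x ^ 2 = 2) (nTT : ∑ x, T x ^ 2 = 4)
    (s12 : ∑ x, E₁ x * E₂ x = 1) (s1b : ∑ x, E₁ x * b x = 0) (s2b : ∑ x, E₂ x * b x = 0)
    (sbc : ∑ x, b x * c x = 1) (s1c : ∑ x, E₁ x * c x = 1) (s2c : ∑ x, E₂ x * c x = 1)
    (sT1 : ∑ x, T x * E₁ x = -1) (sT2 : ∑ x, T x * E₂ x = -1) (sTb : ∑ x, T x * b x = -1)
    (sTc : ∑ x, T x * c x = 0) :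
    ∃ z y₁ y₂ s₁ s₂ s₃ r : X, [o, z, y₁, y₂, s₁, s₂, s₃, r].Nodup ∧
      (∀ x, x ∉ [o, z, y₁, y₂, s₁, s₂, s₃, r] →
        E₁ x = 0 ∧ E₂ x = 0 ∧ b x = 0 ∧ c x = 0 ∧ T x = 0) ∧
      ∃ σz σ1 σ2 σs1 σs2 σs3 σr : ℤ, (σz = 1 ∨ σz = -1) ∧ (σ1 = 1 ∨ σ1 = -1) ∧ (σ2 = 1 ∨ σ2 = -1) ∧
        (σs1 = 1 ∨ σs1 = -1) ∧ (σs2 = 1 ∨ σs2 = -1) ∧ (σs3 = 1 ∨ σs3 = -1) ∧ (σr = 1 ∨ σr = -1) ∧
        (E₁ z = σz ∧ E₂ z = σz ∧ b z = 0 ∧ c z = σz ∧ T z = 0) ∧
        (E₁ y₁ = 0 ∧ E₂ y₁ = 0 ∧ b y₁ = σ1 ∧ c y₁ = 0 ∧ T y₁ = -σ1) ∧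
        (E₁ y₂ = 0 ∧ E₂ y₂ = 0 ∧ b y₂ = σ2 ∧ c y₂ = σ2 ∧ T y₂ = 0) ∧
        (E₁ s₁ = σs1 ∧ E₂ s₁ = 0 ∧ b s₁ = 0 ∧ c s₁ = 0 ∧ T s₁ = -σs1) ∧
        (E₁ s₂ = 0 ∧ E₂ s₂ = σs2 ∧ b s₂ = 0 ∧ c s₂ = 0 ∧ T s₂ = 0) ∧
        (E₁ s₃ = 0 ∧ E₂ s₃ = σs3 ∧ b s₃ = 0 ∧ c s₃ = 0 ∧ T s₃ = -σs3) ∧
        (E₁ r = 0 ∧ E₂ r = 0 ∧ b r = 0 ∧ c r = 0 ∧ T r = σr) := by
  have vb := vals_of_norm b 2 (by norm_num) (by simpa using nbb)
  have vc := vals_of_norm c 2 (by norm_num) (by simpa using ncc)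
  have v1 := vals_of_norm E₁ 3 (by norm_num) (by simpa using n11)
  have v2 := vals_of_norm E₂ 3 (by norm_num) (by simpa using n22)
  -- y₁ y₂
  obtain ⟨y₁, y₂, hy12, hsb, hcy1, hby2⟩ : ∃ y₁ y₂, y₁ ≠ y₂ ∧ (∀ x, b x ≠ 0 ↔ x = y₁ ∨ x = y₂) ∧
      c y₁ = 0 ∧ b y₂ * c y₂ = 1 := by
    obtain ⟨p, w, hw, hs⟩ := supp_two b nbb
    have h1 : ∑ x, b x * c x = b p * c p + b w * c w := by
      rw [sum_on {p, w} _ (fun x hx => by
        have : b x = 0 := by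
          by_contra h0
          rcases (hs x).1 h0 with h | h <;> simp [h] at hx
        simp [this])]
      rw [Finset.sum_pair hw.symm]
    rw [sbc] at h1
    have hbp : b p ≠ 0 := (hs p).2 (Or.inl rfl)
    have hbw : b w ≠ 0 := (hs w).2 (Or.inr rfl)
    have vp := vb p
    have vw := vb w
    have cp := vc p
    have cw := vc w
    by_cases h0 : c p = 0
    · refine ⟨p, w, hw.symm, hs, h0, ?_⟩
      rw [h0] at h1
      linarith
    · by_cases h0' : c w = 0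
      · refine ⟨w, p, hw, fun x => (hs x).trans or_comm, h0', ?_⟩
        rw [h0'] at h1
        linarith
      · exfalso
        have hp1 : b p * c p = 1 ∨ b p * c p = -1 := by
          rcases val_mul' _ _ vp cp with h | h
          · rcases mul_eq_zero.1 h with h | h
            · exact absurd h hbp
            · exact absurd h h0
          · exact h
        have hw1 : b w * c w = 1 ∨ b w * c w = -1 := by
          rcases val_mul' _ _ vw cw with h | h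
          · rcases mul_eq_zero.1 h with h | h
            · exact absurd h hbw
            · exact absurd h h0'
          · exact h
        omega
  have hby1 : b y₁ ≠ 0 := (hsb y₁).2 (Or.inl rfl)
  have hby2' : b y₂ ≠ 0 := (hsb y₂).2 (Or.inr rfl)
  have hb0 : ∀ x, x ≠ y₁ → x ≠ y₂ → b x = 0 := by
    intro x h1 h2
    by_contra h0
    rcases (hsb x).1 h0 with h | h
    · exact h1 h
    · exact h2 h
  have hcy2 : c y₂ ≠ 0 := by
    intro h
    rw [h] at hby2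
    simp at hby2
  -- z
  obtain ⟨z, hzy2, hsc⟩ := supp_two_of_mem c ncc y₂ hcy2
  have hcz : c z ≠ 0 := (hsc z).2 (Or.inr rfl)
  have hc0 : ∀ x, x ≠ y₂ → x ≠ z → c x = 0 := by
    intro x h1 h2
    by_contra h0
    rcases (hsc x).1 h0 with h | h
    · exact h1 h
    · exact h2 h
  have hzy1 : z ≠ y₁ := by
    intro h
    rw [h] at hcz
    exact hcz hcy1
  have hbz : b z = 0 := hb0 z hzy1 hzy2
  have hoy1 : o ≠ y₁ := by
    intro h
    rw [h] at hbo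
    exact hby1 hbo
  have hoy2 : o ≠ y₂ := by
    intro h
    rw [h] at hbo
    exact hby2' hbo
  have hoz : o ≠ z := by
    intro h
    rw [h] at hco
    exact hcz hco
  -- sign identities
  have hbc2 : b y₂ = c y₂ := eq_of_mul_one' _ _ hby2
  -- sums over b and c
  have hsumb : ∀ u : X → ℤ, ∑ x, u x * b x = u y₁ * b y₁ + u y₂ * b y₂ := by
    intro u
    rw [sum_on {y₁, y₂} _ (fun x hx => by
      have h : x ≠ y₁ ∧ x ≠ y₂ := by simpa [not_or] using hx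
      simp [hb0 x h.1 h.2]), Finset.sum_pair hy12]
  have hsumc : ∀ u : X → ℤ, ∑ x, u x * c x = u y₂ * c y₂ + u z * c z := by
    intro u
    rw [sum_on {y₂, z} _ (fun x hx => by
      have h : x ≠ y₂ ∧ x ≠ z := by simpa [not_or] using hx
      simp [hc0 x h.1 h.2]), Finset.sum_pair hzy2.symm]
  have e1b := hsumb E₁
  have e2b := hsumb E₂
  have e1c := hsumc E₁
  have e2c := hsumc E₂
  have tb := hsumb T
  have tc := hsumc T
  rw [s1b] at e1b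
  rw [s2b] at e2b
  rw [s1c] at e1c
  rw [s2c] at e2c
  rw [sTb] at tb
  rw [sTc] at tc
  rw [← hbc2] at e1c e2c tc
  have hE1o : E₁ o ≠ 0 := by rw [h1o]; norm_num
  have hb1 : b y₁ * b y₁ = 1 := sq_eq_one_of _ (by
    rcases vb y₁ with h | h | h
    · exact absurd h hby1
    · exact Or.inl h
    · exact Or.inr h)
  have hb2 : b y₂ * b y₂ = 1 := sq_eq_one_of _ (by
    rcases vb y₂ with h | h | h
    · exact absurd h hby2'
    · exact Or.inl h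
    · exact Or.inr h)
  have hcz2 : c z * c z = 1 := sq_eq_one_of _ (by
    rcases vc z with h | h | h
    · exact absurd h hcz
    · exact Or.inl h
    · exact Or.inr h)
  -- the four cases for (E₁ y₂ b y₂, E₂ y₂ b y₂)
  have hf : ∀ E : X → ℤ, (∀ x, E x = 0 ∨ E x = 1 ∨ E x = -1) → 0 = E y₁ * b y₁ + E y₂ * b y₂ →
      1 = E y₂ * b y₂ + E z * c z →
      (E y₂ = b y₂ ∧ E y₁ = - b y₁ ∧ E z = 0) ∨ (E y₂ = 0 ∧ E y₁ = 0 ∧ E z = c z) := by
    intro E vE h1 h2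
    by_cases h0 : E y₂ = 0
    · right
      rw [h0] at h1 h2
      have h3 : E y₁ * b y₁ = 0 := by linarith
      refine ⟨h0, ?_, eq_of_mul_one' _ _ (by linarith)⟩
      rcases mul_eq_zero.1 h3 with h | h
      · exact h
      · exact absurd h hby1
    · have h3 : E y₂ * b y₂ = 0 ∨ E y₂ * b y₂ = 1 ∨ E y₂ * b y₂ = -1 := val_mul' _ _ (vE _) (vb _)
      have h4 : E z * c z = 0 ∨ E z * c z = 1 ∨ E z * c z = -1 := val_mul' _ _ (vE _) (vc _)
      have h5 : E y₂ * b y₂ = 1 := by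
        rcases h3 with h | h | h
        · rcases mul_eq_zero.1 h with h | h
          · exact absurd h h0
          · exact absurd h hby2'
        · exact h
        · omega
      left
      refine ⟨eq_of_mul_one' _ _ h5, eq_neg_of_mul_neg_one' _ _ (by linarith), ?_⟩
      have h6 : E z * c z = 0 := by linarith
      rcases mul_eq_zero.1 h6 with h | h
      · exact h
      · exact absurd h hcz
  have hcz' : ∀ E : X → ℤ, E z = c z → E z ≠ 0 := fun E h => by rw [h]; exact hcz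
  rcases hf E₁ v1 e1b e1c with ⟨a1, a2, a3⟩ | ⟨a1, a2, a3⟩
  · -- E₁ lives on o y₁ y₂
    exfalso
    have hy1ne : E₁ y₁ ≠ 0 := by rw [a2]; simpa using hby1
    have hy2ne : E₁ y₂ ≠ 0 := by rw [a1]; exact hby2'
    obtain ⟨w, hw1, hw2, hsE⟩ := supp_three_of_mem2 E₁ n11 o y₁ hE1o hy1ne hoy1
    have hw : y₂ = w := by
      rcases (hsE y₂).1 hy2ne with h | h | h
      · exact absurd h.symm hoy2
      · exact absurd h.symm hy12
      · exact h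
    subst hw
    have h1 := sum_three E₁ E₂ o y₁ y₂ hoy1 hoy2 hy12 hsE
    have h2 : ∑ x, E₂ x * E₁ x = 1 := by
      rw [← s12]
      exact Finset.sum_congr rfl fun x _ => mul_comm _ _
    rw [h2, h2o, zero_mul, zero_add, a1, a2] at h1
    rcases hf E₂ v2 e2b e2c with ⟨b1, b2, b3⟩ | ⟨b1, b2, b3⟩
    · rw [b1, b2] at h1
      nlinarith
    · rw [b1, b2] at h1
      norm_num at h1
  have hE1z : E₁ z ≠ 0 := hcz' E₁ a3
  obtain ⟨s₁, hs1o, hs1z, hsE1⟩ := supp_three_of_mem2 E₁ n11 o z hE1o hE1z hoz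
  have hE1s : E₁ s₁ ≠ 0 := (hsE1 s₁).2 (Or.inr (Or.inr rfl))
  have hs1y1 : s₁ ≠ y₁ := by
    intro h
    rw [h] at hE1s
    exact hE1s a2
  have hs1y2 : s₁ ≠ y₂ := by
    intro h
    rw [h] at hE1s
    exact hE1s a1
  have hsum1 := sum_three E₁ T o z s₁ hoz hs1o.symm hs1z.symm hsE1
  rw [sT1, hTo, zero_mul, zero_add, a3] at hsum1
  have hsum12 := sum_three E₁ E₂ o z s₁ hoz hs1o.symm hs1z.symm hsE1
  have h21 : ∑ x, E₂ x * E₁ x = 1 := by
    rw [← s12]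
    exact Finset.sum_congr rfl fun x _ => mul_comm _ _
  rw [h21, h2o, zero_mul, zero_add, a3] at hsum12
  have h1E1s : E₁ s₁ * E₁ s₁ = 1 := sq_eq_one_of _ (by
    rcases v1 s₁ with h | h | h
    · exact absurd h hE1s
    · exact Or.inl h
    · exact Or.inr h)
  rcases hf E₂ v2 e2b e2c with ⟨b1, b2, b3⟩ | ⟨b1, b2, b3⟩
  · -- contradiction by the T column
    exfalso
    rw [b3, zero_mul, zero_add] at hsum12
    have h3 : E₂ s₁ = E₁ s₁ := eq_of_mul_one' _ _ hsum12.symm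
    have hE2s : E₂ s₁ ≠ 0 := by rw [h3]; exact hE1s
    have hE2y1 : E₂ y₁ ≠ 0 := by rw [b2]; simpa using hby1
    have hE2y2 : E₂ y₂ ≠ 0 := by rw [b1]; exact hby2'
    obtain ⟨w, hw1, hw2, hsE⟩ := supp_three_of_mem2 E₂ n22 y₁ y₂ hE2y1 hE2y2 hy12
    have hw : s₁ = w := by
      rcases (hsE s₁).1 hE2s with h | h | h
      · exact absurd h hs1y1
      · exact absurd h hs1y2
      · exact h
    subst hw
    have hsum2 := sum_three E₂ T y₁ y₂ s₁ hy12 hs1y1.symm hs1y2.symm hsE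
    rw [sT2, b1, b2, h3] at hsum2
    have : T y₁ * -b y₁ = -(T y₁ * b y₁) := by ring
    rw [this] at hsum2
    omega
  -- main case
  rw [b3] at hsum12
  have hprod : E₁ s₁ * E₂ s₁ = 0 := by
    have h0 : c z * c z + E₁ s₁ * E₂ s₁ = 1 := by
      rw [mul_comm (E₁ s₁)]
      exact hsum12.symm
    rw [hcz2] at h0
    linarith
  have hE2s1 : E₂ s₁ = 0 := by
    rcases mul_eq_zero.1 hprod with h | h
    · exact absurd h hE1s
    · exact h
  have hE2z : E₂ z ≠ 0 := hcz' E₂ b3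
  obtain ⟨w₁, w₂, hw1z, hw2z, hw12, hsE2⟩ := supp_three_of_mem1 E₂ n22 z hE2z
  have hE2w1 : E₂ w₁ ≠ 0 := (hsE2 w₁).2 (Or.inr (Or.inl rfl))
  have hE2w2 : E₂ w₂ ≠ 0 := (hsE2 w₂).2 (Or.inr (Or.inr rfl))
  have hsum2 := sum_three E₂ T z w₁ w₂ hw1z.symm hw2z.symm hw12 hsE2
  rw [sT2, b3] at hsum2
  have hc1 : E₂ w₁ * E₂ w₁ = 1 := sq_eq_one_of _ (by
    rcases v2 w₁ with h | h | h
    · exact absurd h hE2w1
    · exact Or.inl h
    · exact Or.inr h)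
  have hc2 : E₂ w₂ * E₂ w₂ = 1 := sq_eq_one_of _ (by
    rcases v2 w₂ with h | h | h
    · exact absurd h hE2w2
    · exact Or.inl h
    · exact Or.inr h)
  have hw1ne : ∀ v : X, E₂ v = 0 → w₁ ≠ v := fun v hv h => hE2w1 (by rw [h]; exact hv)
  have hw2ne : ∀ v : X, E₂ v = 0 → w₂ ≠ v := fun v hv h => hE2w2 (by rw [h]; exact hv)
  -- squares
  set h := T z * c z with hh
  have hT1 : T y₁ * b y₁ = -1 + h := by linarith
  have hT2 : T y₂ * b y₂ = -h := by linarith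
  have hT3 : T s₁ * E₁ s₁ = -1 - h := by linarith
  have hT4 : T w₁ * E₂ w₁ + T w₂ * E₂ w₂ = -1 - h := by linarith
  have q1 : T z ^ 2 = h ^ 2 := (sq_mul_unit _ _ hcz2).symm
  have q2 : T y₁ ^ 2 = (-1 + h) ^ 2 := by rw [← hT1]; exact (sq_mul_unit _ _ hb1).symm
  have q3 : T y₂ ^ 2 = h ^ 2 := by
    have := sq_mul_unit (T y₂) _ hb2
    rw [hT2] at this
    rw [← this]
    ring
  have q4 : T s₁ ^ 2 = (-1 - h) ^ 2 := by rw [← hT3]; exact (sq_mul_unit _ _ h1E1s).symm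
  set t₁ := T w₁ * E₂ w₁ with ht1
  set t₂ := T w₂ * E₂ w₂ with ht2
  have q5 : T w₁ ^ 2 = t₁ ^ 2 := (sq_mul_unit _ _ hc1).symm
  have q6 : T w₂ ^ 2 = t₂ ^ 2 := (sq_mul_unit _ _ hc2).symm
  -- distinctness
  have hz_y1 : z ≠ y₁ := hzy1
  have hs1w1 : s₁ ≠ w₁ := (hw1ne s₁ hE2s1).symm
  have hs1w2 : s₁ ≠ w₂ := (hw2ne s₁ hE2s1).symm
  have hy1w1 : y₁ ≠ w₁ := (hw1ne y₁ b2).symm
  have hy1w2 : y₁ ≠ w₂ := (hw2ne y₁ b2).symm
  have hy2w1 : y₂ ≠ w₁ := (hw1ne y₂ b1).symm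
  have hy2w2 : y₂ ≠ w₂ := (hw2ne y₂ b1).symm
  set F : Finset X := {z, y₁, y₂, s₁, w₁, w₂} with hF
  have hFsum : ∀ f : X → ℤ, ∑ x ∈ F, f x = f z + (f y₁ + (f y₂ + (f s₁ + (f w₁ + f w₂)))) := by
    intro f
    rw [hF, Finset.sum_insert (by simp [hzy1, hzy2, hs1z.symm, hw1z.symm, hw2z.symm]),
      Finset.sum_insert (by simp [hy12, hs1y1.symm, hy1w1, hy1w2]),
      Finset.sum_insert (by simp [hs1y2.symm, hy2w1, hy2w2]),
      Finset.sum_insert (by simp [hs1w1, hs1w2]), Finset.sum_pair hw12]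
  have hle : ∑ x ∈ F, T x ^ 2 ≤ 4 := by
    rw [← nTT]
    exact Finset.sum_le_sum_of_subset_of_nonneg (Finset.subset_univ _) fun x _ _ => sq_nonneg _
  rw [hFsum, q1, q2, q3, q4, q5, q6] at hle
  have hle2 : 4 * h ^ 2 + 2 + (t₁ ^ 2 + t₂ ^ 2) ≤ 4 := by
    have e : h ^ 2 + ((-1 + h) ^ 2 + (h ^ 2 + ((-1 - h) ^ 2 + (t₁ ^ 2 + t₂ ^ 2)))) =
        4 * h ^ 2 + 2 + (t₁ ^ 2 + t₂ ^ 2) := by ring
    rw [← e]
    exact hle
  have hh0 : h = 0 := by
    have h1 : h ^ 2 ≤ 0 := by linarith [sq_nonneg t₁, sq_nonneg t₂]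
    have h2 : h ^ 2 = 0 := le_antisymm h1 (sq_nonneg h)
    exact pow_eq_zero_iff (two_ne_zero) |>.1 h2
  rw [hh0] at hT1 hT2 hT3 hT4 hle2
  have ht12 : t₁ + t₂ = -1 := by linarith
  have hsq : t₁ ^ 2 + t₂ ^ 2 ≤ 2 := by linarith
  have hcase : (t₁ = -1 ∧ t₂ = 0) ∨ (t₁ = 0 ∧ t₂ = -1) := two_sq_case _ _ ht12 hsq
  -- choose s₃, s₂
  obtain ⟨s₃, s₂, hs32, hsE2', hts3, hts2, h3z, h2z, h3s1, h2s1, h3y1, h2y1, h3y2, h2y2, hE3, hE2,
      hc3, hc2'⟩ : ∃ s₃ s₂ : X, s₃ ≠ s₂ ∧ (∀ x, E₂ x ≠ 0 ↔ x = z ∨ x = s₃ ∨ x = s₂) ∧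
      T s₃ * E₂ s₃ = -1 ∧ T s₂ * E₂ s₂ = 0 ∧ s₃ ≠ z ∧ s₂ ≠ z ∧ s₃ ≠ s₁ ∧ s₂ ≠ s₁ ∧ s₃ ≠ y₁ ∧ s₂ ≠ y₁ ∧
      s₃ ≠ y₂ ∧ s₂ ≠ y₂ ∧ E₂ s₃ ≠ 0 ∧ E₂ s₂ ≠ 0 ∧ E₂ s₃ * E₂ s₃ = 1 ∧ E₂ s₂ * E₂ s₂ = 1 := by
    rcases hcase with ⟨h1, h2⟩ | ⟨h1, h2⟩
    · exact ⟨w₁, w₂, hw12, hsE2, h1, h2, hw1z, hw2z, hs1w1.symm, hs1w2.symm, hy1w1.symm, hy1w2.symm,
        hy2w1.symm, hy2w2.symm, hE2w1, hE2w2, hc1, hc2⟩
    · exact ⟨w₂, w₁, hw12.symm, fun x => (hsE2 x).trans (by tauto), h2, h1, hw2z, hw1z, hs1w2.symm,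
        hs1w1.symm, hy1w2.symm, hy1w1.symm, hy2w2.symm, hy2w1.symm, hE2w2, hE2w1, hc2, hc1⟩
  have hTz : T z = 0 := by
    rcases mul_eq_zero.1 hh0 with h | h
    · exact h
    · exact absurd h hcz
  have hTy2 : T y₂ = 0 := by
    have h1 : T y₂ * b y₂ = 0 := by rw [hT2]; norm_num
    rcases mul_eq_zero.1 h1 with h | h
    · exact h
    · exact absurd h hby2'
  have hTy1 : T y₁ = - b y₁ := eq_neg_of_mul_neg_one' _ _ (by rw [hT1]; norm_num)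
  have hTs1 : T s₁ = - E₁ s₁ := eq_neg_of_mul_neg_one' _ _ (by rw [hT3]; norm_num)
  have hTs3 : T s₃ = - E₂ s₃ := eq_neg_of_mul_neg_one' _ _ hts3
  have hTs2 : T s₂ = 0 := by
    rcases mul_eq_zero.1 hts2 with h | h
    · exact h
    · exact absurd h hE2
  -- the row r
  set G' : Finset X := {z, y₁, y₂, s₁, s₂, s₃} with hG'
  have hGsum : ∑ x ∈ G', T x ^ 2 = 3 := by
    rw [hG', Finset.sum_insert (by simp [hzy1, hzy2, hs1z.symm, h2z.symm, h3z.symm]),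
      Finset.sum_insert (by simp [hy12, hs1y1.symm, h2y1.symm, h3y1.symm]),
      Finset.sum_insert (by simp [hs1y2.symm, h2y2.symm, h3y2.symm]),
      Finset.sum_insert (by simp [h2s1.symm, h3s1.symm]), Finset.sum_pair hs32.symm]
    rw [hTz, hTy1, hTy2, hTs1, hTs2, hTs3]
    have e1 : (- b y₁) ^ 2 = 1 := by rw [neg_sq, pow_two]; exact hb1
    have e2 : (- E₁ s₁) ^ 2 = 1 := by rw [neg_sq, pow_two]; exact h1E1s
    have e3 : (- E₂ s₃) ^ 2 = 1 := by rw [neg_sq, pow_two]; exact hc3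
    rw [e1, e2, e3]
    norm_num
  let U : X → ℤ := fun x => if x ∈ G' then 0 else T x
  have hUsum : ∑ x, U x ^ 2 = 1 := by
    have h1 := Finset.sum_sdiff (s₁ := G') (s₂ := Finset.univ) (Finset.subset_univ G') (f := fun x => T x ^ 2)
    rw [hGsum, nTT] at h1
    have h2 : ∑ x, U x ^ 2 = ∑ x ∈ Finset.univ \ G', T x ^ 2 := by
      rw [sum_on (Finset.univ \ G') _ (fun x hx => by
        have : x ∈ G' := by simpa using hx
        simp [U, this])]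
      refine Finset.sum_congr rfl fun x hx => ?_
      have : x ∉ G' := (Finset.mem_sdiff.1 hx).2
      simp [U, this]
    rw [h2]
    linarith
  have hUc := card_supp U 1 (by norm_num) (by simpa using hUsum)
  obtain ⟨r, hr⟩ := Finset.card_eq_one.1 hUc
  have hrm : r ∈ Finset.univ.filter (fun x => U x ≠ 0) := by rw [hr]; simp
  have hUr : U r ≠ 0 := (Finset.mem_filter.1 hrm).2
  have hrG : r ∉ G' := by
    intro h
    apply hUr
    simp [U, h]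
  have hUrT : U r = T r := by simp [U, hrG]
  have hTr : T r ≠ 0 := by rw [← hUrT]; exact hUr
  have hTrv : T r = 1 ∨ T r = -1 := by
    rcases vals_of_norm U 1 (by norm_num) (by simpa using hUsum) r with h | h | h
    · exact absurd h hUr
    · rw [← hUrT]; exact Or.inl h
    · rw [← hUrT]; exact Or.inr h
  have hTother : ∀ x, x ∉ G' → x ≠ r → T x = 0 := by
    intro x hx hxr
    by_contra h0
    have : x ∈ Finset.univ.filter (fun x => U x ≠ 0) := by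
      refine Finset.mem_filter.2 ⟨Finset.mem_univ _, ?_⟩
      simpa [U, hx] using h0
    rw [hr] at this
    exact hxr (by simpa using this)
  have hrne : r ≠ z ∧ r ≠ y₁ ∧ r ≠ y₂ ∧ r ≠ s₁ ∧ r ≠ s₂ ∧ r ≠ s₃ := by
    simpa [hG', not_or] using hrG
  obtain ⟨hrz, hry1, hry2, hrs1, hrs2, hrs3⟩ := hrne
  have hro : r ≠ o := by
    intro h
    rw [h] at hTr
    exact hTr hTo
  -- zeros of each column
  have hE1zero : ∀ x, x ≠ o → x ≠ z → x ≠ s₁ → E₁ x = 0 := by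
    intro x h1 h2 h3
    by_contra h0
    rcases (hsE1 x).1 h0 with h | h | h
    · exact h1 h
    · exact h2 h
    · exact h3 h
  have hE2zero : ∀ x, x ≠ z → x ≠ s₃ → x ≠ s₂ → E₂ x = 0 := by
    intro x h1 h2 h3
    by_contra h0
    rcases (hsE2' x).1 h0 with h | h | h
    · exact h1 h
    · exact h2 h
    · exact h3 h
  have ho3 : o ≠ s₃ := (ne_of_zero E₂ o s₃ h2o hE3)
  have ho2 : o ≠ s₂ := (ne_of_zero E₂ o s₂ h2o hE2)
  have hσ1 : b y₁ = 1 ∨ b y₁ = -1 := by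
    rcases vb y₁ with h | h | h
    · exact absurd h hby1
    · exact Or.inl h
    · exact Or.inr h
  have hσ2 : b y₂ = 1 ∨ b y₂ = -1 := by
    rcases vb y₂ with h | h | h
    · exact absurd h hby2'
    · exact Or.inl h
    · exact Or.inr h
  have hσz : c z = 1 ∨ c z = -1 := by
    rcases vc z with h | h | h
    · exact absurd h hcz
    · exact Or.inl h
    · exact Or.inr h
  have hσs1 : E₁ s₁ = 1 ∨ E₁ s₁ = -1 := by
    rcases v1 s₁ with h | h | h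
    · exact absurd h hE1s
    · exact Or.inl h
    · exact Or.inr h
  have hσs2 : E₂ s₂ = 1 ∨ E₂ s₂ = -1 := by
    rcases v2 s₂ with h | h | h
    · exact absurd h hE2
    · exact Or.inl h
    · exact Or.inr h
  have hσs3 : E₂ s₃ = 1 ∨ E₂ s₃ = -1 := by
    rcases v2 s₃ with h | h | h
    · exact absurd h hE3
    · exact Or.inl h
    · exact Or.inr h
  refine ⟨z, y₁, y₂, s₁, s₂, s₃, r, ?_, ?_, c z, b y₁, b y₂, E₁ s₁, E₂ s₂, E₂ s₃, T r, hσz, hσ1, hσ2, hσs1,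
    hσs2, hσs3, hTrv, ⟨a3, b3, hbz, rfl, hTz⟩, ⟨a2, b2, rfl, hcy1, hTy1⟩, ⟨a1, b1, rfl, hbc2.symm, hTy2⟩,
    ⟨rfl, hE2s1, hb0 _ hs1y1 hs1y2, hc0 _ hs1y2 hs1z, hTs1⟩,
    ⟨hE1zero _ ho2.symm h2z h2s1, rfl, hb0 _ h2y1 h2y2, hc0 _ h2y2 h2z, hTs2⟩,
    ⟨hE1zero _ ho3.symm h3z h3s1, rfl, hb0 _ h3y1 h3y2, hc0 _ h3y2 h3z, hTs3⟩,
    ⟨hE1zero _ hro hrz hrs1, hE2zero _ hrz hrs3 hrs2, hb0 _ hry1 hry2, hc0 _ hry2 hrz, rfl⟩⟩
  · simp only [List.nodup_cons, List.mem_cons, List.not_mem_nil, or_false, not_or, List.nodup_nil,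
      not_false_eq_true, and_true]
    exact ⟨⟨hoz, hoy1, hoy2, hs1o.symm, ho2, ho3, hro.symm⟩, ⟨hzy1, hzy2, hs1z.symm, h2z.symm, h3z.symm,
      hrz.symm⟩, ⟨hy12, hs1y1.symm, h2y1.symm, h3y1.symm, hry1.symm⟩, ⟨hs1y2.symm, h2y2.symm, h3y2.symm,
      hry2.symm⟩, ⟨h2s1.symm, h3s1.symm, hrs1.symm⟩, ⟨hs32.symm, hrs2.symm⟩, hrs3.symm⟩
  · intro x hx
    simp only [List.mem_cons, List.not_mem_nil, or_false, not_or] at hx
    obtain ⟨h1, h2, h3, h4, h5, h6, h7, h8⟩ := hx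
    refine ⟨hE1zero x h1 h2 h5, hE2zero x h2 h7 h6, hb0 x h3 h4, hc0 x h4 h2, hTother x ?_ h8⟩
    simp [hG', not_or, h2, h3, h4, h5, h6, h7]

end

end Cfsg.Agent.H15.Col
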