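import Mathlib
import Cfsg.Agent.Lib.H15.GL23Rows
import Cfsg.Agent.Lib.H15.GL23Arith

/-! # The abstract row computation for an involution centralizer `GL(2,3)` -/

set_option autoImplicit false

namespace Cfsg.Agent.H15.Col

section
variable {X : Type*} [Fintype X] [DecidableEq X]

/-- Sum over an explicit list of rows. -/
theorem sum_list8 {R : Type*} [AddCommMonoid R] (o z y₁ y₂ s₁ s₂ s₃ r : X)
    (hnd : [o, z, y₁, y₂, s₁, s₂, s₃, r].Nodup) (f : X → R)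
    (hf : ∀ x, x ∉ [o, z, y₁, y₂, s₁, s₂, s₃, r] → f x = 0) :
    ∑ x, f x = f o + (f z + (f y₁ + (f y₂ + (f s₁ + (f s₂ + (f s₃ + f r)))))) := by
  have h1 := Finset.sum_subset (Finset.subset_univ [o, z, y₁, y₂, s₁, s₂, s₃, r].toFinset)
    (f := f) (fun x _ hx => hf x (by simpa using hx))
  rw [← h1, List.sum_toFinset _ hnd]
  simp

theorem row_term (σ : ℤ) (hσ : σ = 1 ∨ σ = -1) (d : ℕ) (hd : 0 < d) (α β : ℤ) :
    ((α * σ : ℤ) : ℚ) ^ 2 * ((β * σ : ℤ) : ℚ) / d = ((α : ℚ) ^ 2 * β) / ((σ * d : ℤ) : ℚ) := by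
  have hd' : (d : ℚ) ≠ 0 := by positivity
  rcases hσ with rfl | rfl
  · push_cast
    ring_nf
  · push_cast
    field_simp

set_option maxHeartbeats 4000000 in
/-- The abstract computation. -/
theorem abstract_gl23 (A F W a b : X → ℤ) (d : X → ℕ) (o : X) (hAo : A o = 1) (hFo : F o = 1)
    (hWo : W o = 1) (hao : a o = 1) (hbo : b o = 0) (hdo : d o = 1) (hd : ∀ x, 0 < d x)
    (sAA : ∑ x, A x * A x = 48) (sFF : ∑ x, F x * F x = 6) (sWW : ∑ x, W x * W x = 8)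
    (saa : ∑ x, a x * a x = 4) (sbb : ∑ x, b x * b x = 2)
    (sAF : ∑ x, A x * F x = 0) (sAW : ∑ x, A x * W x = 0) (sAa : ∑ x, A x * a x = 0)
    (sAb : ∑ x, A x * b x = 0) (sFW : ∑ x, F x * W x = 0) (sFa : ∑ x, F x * a x = 0)
    (sFb : ∑ x, F x * b x = 0) (sWa : ∑ x, W x * a x = 0) (sWb : ∑ x, W x * b x = 0)
    (sab : ∑ x, a x * b x = 0)
    (dA : ∑ x, A x * d x = 0) (dF : ∑ x, F x * d x = 0) (dW : ∑ x, W x * d x = 0)
    (da : ∑ x, a x * d x = 0) (db : ∑ x, b x * d x = 0)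
    (c3 : ∀ x, (3 : ℤ) ∣ A x - F x) (c4 : ∀ x, (4 : ℤ) ∣ A x - W x - 2 * b x)
    (c2 : ∀ x, (2 : ℤ) ∣ W x + a x) (c8 : ∀ x, (8 : ℤ) ∣ (d x : ℤ) + A x - 2 * W x)
    (n : ℕ) (hn : Odd n) (Ex : ∑ x, (A x : ℚ) ^ 2 * a x / d x = 0)
    (Ef : (n : ℚ) * ∑ x, (A x : ℚ) ^ 2 * F x / d x = 288) : n = 117 ∨ n = 165 := by
  -- the bilinear form
  have bilin : ∀ k₁ k₂ k₃ k₄ k₅ l₁ l₂ l₃ l₄ l₅ : ℤ,
      ∑ x, (k₁ * A x + k₂ * F x + k₃ * W x + k₄ * a x + k₅ * b x) *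
        (l₁ * A x + l₂ * F x + l₃ * W x + l₄ * a x + l₅ * b x) =
      48 * k₁ * l₁ + 6 * k₂ * l₂ + 8 * k₃ * l₃ + 4 * k₄ * l₄ + 2 * k₅ * l₅ := by
    intro k₁ k₂ k₃ k₄ k₅ l₁ l₂ l₃ l₄ l₅
    have h : ∀ x, (k₁ * A x + k₂ * F x + k₃ * W x + k₄ * a x + k₅ * b x) *
        (l₁ * A x + l₂ * F x + l₃ * W x + l₄ * a x + l₅ * b x) =
        k₁ * l₁ * (A x * A x) + k₂ * l₂ * (F x * F x) + k₃ * l₃ * (W x * W x) + k₄ * l₄ * (a x * a x) +
          k₅ * l₅ * (b x * b x) + (k₁ * l₂ + k₂ * l₁) * (A x * F x) + (k₁ * l₃ + k₃ * l₁) * (A x * W x) +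
          (k₁ * l₄ + k₄ * l₁) * (A x * a x) + (k₁ * l₅ + k₅ * l₁) * (A x * b x) +
          (k₂ * l₃ + k₃ * l₂) * (F x * W x) + (k₂ * l₄ + k₄ * l₂) * (F x * a x) +
          (k₂ * l₅ + k₅ * l₂) * (F x * b x) + (k₃ * l₄ + k₄ * l₃) * (W x * a x) +
          (k₃ * l₅ + k₅ * l₃) * (W x * b x) + (k₄ * l₅ + k₅ * l₄) * (a x * b x) := fun x => by ring
    simp only [h, Finset.sum_add_distrib, ← Finset.mul_sum, sAA, sFF, sWW, saa, sbb, sAF, sAW, sAa, sAb,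
      sFW, sFa, sFb, sWa, sWb, sab]
    ring
  have gram : ∀ (u v : X → ℤ) (N M : ℤ) (k₁ k₂ k₃ k₄ k₅ l₁ l₂ l₃ l₄ l₅ val : ℤ), N ≠ 0 → M ≠ 0 →
      (∀ x, N * u x = k₁ * A x + k₂ * F x + k₃ * W x + k₄ * a x + k₅ * b x) →
      (∀ x, M * v x = l₁ * A x + l₂ * F x + l₃ * W x + l₄ * a x + l₅ * b x) →
      48 * k₁ * l₁ + 6 * k₂ * l₂ + 8 * k₃ * l₃ + 4 * k₄ * l₄ + 2 * k₅ * l₅ = N * M * val →
      ∑ x, u x * v x = val := by
    intro u v N M k₁ k₂ k₃ k₄ k₅ l₁ l₂ l₃ l₄ l₅ val hN hM hu hv hval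
    have h1 := bilin k₁ k₂ k₃ k₄ k₅ l₁ l₂ l₃ l₄ l₅
    simp only [← hu, ← hv] at h1
    have h2 : ∑ x, N * u x * (M * v x) = N * M * ∑ x, u x * v x := by
      rw [Finset.mul_sum]
      exact Finset.sum_congr rfl fun x _ => by ring
    rw [h2, hval] at h1
    exact mul_left_cancel₀ (mul_ne_zero hN hM) h1
  have degsum : ∀ (u : X → ℤ) (N : ℤ) (k₁ k₂ k₃ k₄ k₅ : ℤ), N ≠ 0 →
      (∀ x, N * u x = k₁ * A x + k₂ * F x + k₃ * W x + k₄ * a x + k₅ * b x) →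
      ∑ x, u x * (d x : ℤ) = 0 := by
    intro u N k₁ k₂ k₃ k₄ k₅ hN hu
    have h1 : N * ∑ x, u x * (d x : ℤ) = 0 := by
      rw [Finset.mul_sum]
      have h2 : ∀ x, N * (u x * (d x : ℤ)) = k₁ * (A x * d x) + k₂ * (F x * d x) + k₃ * (W x * d x) +
          k₄ * (a x * d x) + k₅ * (b x * d x) := fun x => by
        rw [← mul_assoc, hu x]
        ring
      simp only [h2, Finset.sum_add_distrib, ← Finset.mul_sum, dA, dF, dW, da, db]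
      ring
    rcases mul_eq_zero.1 h1 with h | h
    · exact absurd h hN
    · exact h
  choose E₁ hE₁ using c2
  have hE₂' : ∀ x, (2 : ℤ) ∣ W x - a x := fun x => by
    obtain ⟨e, he⟩ := (show (2 : ℤ) ∣ W x + a x from ⟨E₁ x, hE₁ x⟩)
    exact ⟨e - a x, by linarith⟩
  choose E₂ hE₂ using hE₂'
  choose T hT using c4
  choose V hV using c3
  let c : X → ℤ := fun x => V x - T x
  have hE1l : ∀ x, (2 : ℤ) * E₁ x = 0 * A x + 0 * F x + 1 * W x + 1 * a x + 0 * b x := fun x => by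
    linarith [hE₁ x]
  have hE2l : ∀ x, (2 : ℤ) * E₂ x = 0 * A x + 0 * F x + 1 * W x + (-1) * a x + 0 * b x := fun x => by
    linarith [hE₂ x]
  have hbl : ∀ x, (1 : ℤ) * b x = 0 * A x + 0 * F x + 0 * W x + 0 * a x + 1 * b x := fun x => by ring
  have hTl : ∀ x, (4 : ℤ) * T x = 1 * A x + 0 * F x + (-1) * W x + 0 * a x + (-2) * b x := fun x => by
    linarith [hT x]
  have hcl : ∀ x, (12 : ℤ) * c x = 1 * A x + (-4) * F x + 3 * W x + 0 * a x + 6 * b x := fun x => by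
    simp only [c]
    linarith [hT x, hV x]
  have n11 : ∑ x, E₁ x ^ 2 = 3 := by
    simp only [pow_two]
    exact gram _ _ 2 2 _ _ _ _ _ _ _ _ _ _ 3 (by norm_num) (by norm_num) hE1l hE1l (by norm_num)
  have n22 : ∑ x, E₂ x ^ 2 = 3 := by
    simp only [pow_two]
    exact gram _ _ 2 2 _ _ _ _ _ _ _ _ _ _ 3 (by norm_num) (by norm_num) hE2l hE2l (by norm_num)
  have nbb : ∑ x, b x ^ 2 = 2 := by
    simp only [pow_two]
    exact sbb
  have ncc : ∑ x, c x ^ 2 = 2 := by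
    simp only [pow_two]
    exact gram _ _ 12 12 _ _ _ _ _ _ _ _ _ _ 2 (by norm_num) (by norm_num) hcl hcl (by norm_num)
  have nTT : ∑ x, T x ^ 2 = 4 := by
    simp only [pow_two]
    exact gram _ _ 4 4 _ _ _ _ _ _ _ _ _ _ 4 (by norm_num) (by norm_num) hTl hTl (by norm_num)
  have s12 : ∑ x, E₁ x * E₂ x = 1 :=
    gram _ _ 2 2 _ _ _ _ _ _ _ _ _ _ 1 (by norm_num) (by norm_num) hE1l hE2l (by norm_num)
  have s1b : ∑ x, E₁ x * b x = 0 :=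
    gram _ _ 2 1 _ _ _ _ _ _ _ _ _ _ 0 (by norm_num) (by norm_num) hE1l hbl (by norm_num)
  have s2b : ∑ x, E₂ x * b x = 0 :=
    gram _ _ 2 1 _ _ _ _ _ _ _ _ _ _ 0 (by norm_num) (by norm_num) hE2l hbl (by norm_num)
  have sbc : ∑ x, b x * c x = 1 :=
    gram _ _ 1 12 _ _ _ _ _ _ _ _ _ _ 1 (by norm_num) (by norm_num) hbl hcl (by norm_num)
  have s1c : ∑ x, E₁ x * c x = 1 :=
    gram _ _ 2 12 _ _ _ _ _ _ _ _ _ _ 1 (by norm_num) (by norm_num) hE1l hcl (by norm_num)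
  have s2c : ∑ x, E₂ x * c x = 1 :=
    gram _ _ 2 12 _ _ _ _ _ _ _ _ _ _ 1 (by norm_num) (by norm_num) hE2l hcl (by norm_num)
  have sT1 : ∑ x, T x * E₁ x = -1 :=
    gram _ _ 4 2 _ _ _ _ _ _ _ _ _ _ (-1) (by norm_num) (by norm_num) hTl hE1l (by norm_num)
  have sT2 : ∑ x, T x * E₂ x = -1 :=
    gram _ _ 4 2 _ _ _ _ _ _ _ _ _ _ (-1) (by norm_num) (by norm_num) hTl hE2l (by norm_num)
  have sTb : ∑ x, T x * b x = -1 :=
    gram _ _ 4 1 _ _ _ _ _ _ _ _ _ _ (-1) (by norm_num) (by norm_num) hTl hbl (by norm_num)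
  have sTc : ∑ x, T x * c x = 0 :=
    gram _ _ 4 12 _ _ _ _ _ _ _ _ _ _ 0 (by norm_num) (by norm_num) hTl hcl (by norm_num)
  have h1o : E₁ o = 1 := by
    have := hE₁ o
    rw [hWo, hao] at this
    linarith
  have h2o : E₂ o = 0 := by
    have := hE₂ o
    rw [hWo, hao] at this
    linarith
  have hTo : T o = 0 := by
    have := hT o
    rw [hAo, hWo, hbo] at this
    linarith
  have hVo : V o = 0 := by
    have := hV o
    rw [hAo, hFo] at this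
    linarith
  have hco : c o = 0 := by simp [c, hVo, hTo]
  obtain ⟨z, y₁, y₂, s₁, s₂, s₃, r, hnd, hoff, σz, σ1, σ2, σs1, σs2, σs3, σr, hσz, hσ1, hσ2, hσs1, hσs2, hσs3,
    hσr, ⟨z1, z2, z3, z4, z5⟩, ⟨y1, y2, y3, y4, y5⟩, ⟨t1, t2, t3, t4, t5⟩, ⟨u1, u2, u3, u4, u5⟩,
    ⟨v1, v2, v3, v4, v5⟩, ⟨w1, w2, w3, w4, w5⟩, ⟨r1, r2, r3, r4, r5⟩⟩ :=
    rows_gl23 E₁ E₂ b c T o h1o h2o hbo hco hTo n11 n22 nbb ncc nTT s12 s1b s2b sbc s1c s2c sT1 sT2 sTb sTc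
  have hWf : ∀ x, W x = E₁ x + E₂ x := fun x => by linarith [hE₁ x, hE₂ x]
  have haf : ∀ x, a x = E₁ x - E₂ x := fun x => by linarith [hE₁ x, hE₂ x]
  have hAf : ∀ x, A x = 4 * T x + E₁ x + E₂ x + 2 * b x := fun x => by
    linarith [hT x, hWf x]
  have hFf : ∀ x, F x = T x + E₁ x + E₂ x + 2 * b x - 3 * c x := fun x => by
    simp only [c]
    linarith [hT x, hV x, hWf x]
  -- row values
  have Az : A z = 2 * σz := by rw [hAf, z1, z2, z3, z5]; ring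
  have Fz : F z = (-1) * σz := by rw [hFf, z1, z2, z3, z4, z5]; ring
  have Wz : W z = 2 * σz := by rw [hWf, z1, z2]; ring
  have az : a z = 0 := by rw [haf, z1, z2]; ring
  have Ay1 : A y₁ = (-2) * σ1 := by rw [hAf, y1, y2, y3, y5]; ring
  have Fy1 : F y₁ = 1 * σ1 := by rw [hFf, y1, y2, y3, y4, y5]; ring
  have ay1 : a y₁ = 0 := by rw [haf, y1, y2]; ring
  have Ay2 : A y₂ = 2 * σ2 := by rw [hAf, t1, t2, t3, t5]; ring
  have Fy2 : F y₂ = (-1) * σ2 := by rw [hFf, t1, t2, t3, t4, t5]; ring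
  have ay2 : a y₂ = 0 := by rw [haf, t1, t2]; ring
  have As1 : A s₁ = (-3) * σs1 := by rw [hAf, u1, u2, u3, u5]; ring
  have Fs1 : F s₁ = 0 * σs1 := by rw [hFf, u1, u2, u3, u4, u5]; ring
  have as1 : a s₁ = 1 * σs1 := by rw [haf, u1, u2]; ring
  have As2 : A s₂ = 1 * σs2 := by rw [hAf, v1, v2, v3, v5]; ring
  have Fs2 : F s₂ = 1 * σs2 := by rw [hFf, v1, v2, v3, v4, v5]; ring
  have as2 : a s₂ = (-1) * σs2 := by rw [haf, v1, v2]; ring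
  have As3 : A s₃ = (-3) * σs3 := by rw [hAf, w1, w2, w3, w5]; ring
  have Fs3 : F s₃ = 0 * σs3 := by rw [hFf, w1, w2, w3, w4, w5]; ring
  have as3 : a s₃ = (-1) * σs3 := by rw [haf, w1, w2]; ring
  have Ar : A r = 4 * σr := by rw [hAf, r1, r2, r3, r5]; ring
  have Fr : F r = 1 * σr := by rw [hFf, r1, r2, r3, r4, r5]; ring
  have Wr : W r = 0 := by rw [hWf, r1, r2]; ring
  have ar : a r = 0 := by rw [haf, r1, r2]; ring
  -- degree relations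
  have hoffA : ∀ x, x ∉ [o, z, y₁, y₂, s₁, s₂, s₃, r] → A x = 0 ∧ F x = 0 ∧ a x = 0 := by
    intro x hx
    obtain ⟨h1, h2, h3, h4, h5⟩ := hoff x hx
    refine ⟨?_, ?_, ?_⟩
    · rw [hAf, h1, h2, h3, h5]; ring
    · rw [hFf, h1, h2, h3, h4, h5]; ring
    · rw [haf, h1, h2]; ring
  have d1 := degsum E₁ 2 _ _ _ _ _ (by norm_num) hE1l
  have d2 := degsum E₂ 2 _ _ _ _ _ (by norm_num) hE2l
  have d3 := degsum c 12 _ _ _ _ _ (by norm_num) hcl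
  have d4 := degsum T 4 _ _ _ _ _ (by norm_num) hTl
  rw [sum_list8 o z y₁ y₂ s₁ s₂ s₃ r hnd _ (fun x hx => by simp [(hoff x hx).1])] at d1
  rw [sum_list8 o z y₁ y₂ s₁ s₂ s₃ r hnd _ (fun x hx => by simp [(hoff x hx).2.1])] at d2
  rw [sum_list8 o z y₁ y₂ s₁ s₂ s₃ r hnd _ (fun x hx => by simp [(hoff x hx).2.2.2.1])] at d3
  rw [sum_list8 o z y₁ y₂ s₁ s₂ s₃ r hnd _ (fun x hx => by simp [(hoff x hx).2.2.2.2])] at d4
  rw [sum_list8 o z y₁ y₂ s₁ s₂ s₃ r hnd _ (fun x hx => by simp [(hoff x hx).2.2.1])] at db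
  simp only [h1o, h2o, hco, hTo, hdo, z1, z2, z3, z4, z5, y1, y2, y3, y4, y5, t1, t2, t3, t4, t5, u1, u2, u3,
    u4, u5, v1, v2, v3, v4, v5, w1, w2, w3, w4, w5, r1, r2, r3, r4, r5, hbo, Nat.cast_one, mul_one, zero_mul,
    add_zero, zero_add] at d1 d2 d3 d4 db
  set p : ℤ := σz * d z with hp
  set s : ℤ := σr * d r with hs
  have hDs2 : σs2 * (d s₂ : ℤ) = -(p + s + 1) := by
    have hs3 : σs3 * (d s₃ : ℤ) = s + 1 := by linarith
    linarith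
  have hDs1 : σs1 * (d s₁ : ℤ) = -(p + 1) := by linarith
  have hDs3 : σs3 * (d s₃ : ℤ) = s + 1 := by linarith
  have hD1 : σ1 * (d y₁ : ℤ) = p := by linarith
  have hD2 : σ2 * (d y₂ : ℤ) = -p := by linarith
  -- rational equations
  rw [sum_list8 o z y₁ y₂ s₁ s₂ s₃ r hnd _ (fun x hx => by simp [(hoffA x hx).2.2])] at Ex
  rw [sum_list8 o z y₁ y₂ s₁ s₂ s₃ r hnd _ (fun x hx => by simp [(hoffA x hx).1])] at Ef
  rw [As1, as1, row_term σs1 hσs1 _ (hd s₁), As2, as2, row_term σs2 hσs2 _ (hd s₂), As3, as3,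
    row_term σs3 hσs3 _ (hd s₃), hDs1, hDs2, hDs3, az, ay1, ay2, ar, hAo, hao, hdo] at Ex
  rw [Az, Fz, row_term σz hσz _ (hd z), Ay1, Fy1, row_term σ1 hσ1 _ (hd y₁), Ay2, Fy2,
    row_term σ2 hσ2 _ (hd y₂), As2, Fs2, row_term σs2 hσs2 _ (hd s₂), Ar, Fr, row_term σr hσr _ (hd r),
    As1, Fs1, row_term σs1 hσs1 _ (hd s₁), As3, Fs3, row_term σs3 hσs3 _ (hd s₃), hDs2, hD1, hD2, hDs1, hDs3,
    hAo, hFo, hdo] at Ef
  have hy : p + s + 1 ≠ 0 := by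
    intro h
    rw [h] at hDs2
    have h0 := hd s₂
    rcases hσs2 with h' | h' <;> rw [h'] at hDs2 <;> omega
  have hp8 : p % 8 = 2 := by
    have h1 := c8 z
    rw [Az, Wz] at h1
    rcases hσz with h' | h' <;> rw [h'] at h1 <;> rw [hp, h'] <;> omega
  have hs8 : s % 8 = 4 := by
    have h1 := c8 r
    rw [Ar, Wr] at h1
    rcases hσr with h' | h' <;> rw [h'] at h1 <;> rw [hs, h'] <;> omega
  have hp0 : (p : ℚ) ≠ 0 := by
    have : p ≠ 0 := by omega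
    exact_mod_cast this
  have hs0 : (s : ℚ) ≠ 0 := by
    have : s ≠ 0 := by omega
    exact_mod_cast this
  have hp1 : (p : ℚ) + 1 ≠ 0 := by
    have : p + 1 ≠ 0 := by omega
    exact_mod_cast this
  have hs1 : (s : ℚ) + 1 ≠ 0 := by
    have : s + 1 ≠ 0 := by omega
    exact_mod_cast this
  have hy' : (p : ℚ) + s + 1 ≠ 0 := by exact_mod_cast hy
  rw [← hp, ← hs] at Ef
  refine final_gl23 n hn p s hp8 hs8 hy ?_ ?_
  · rw [← Ex]
    push_cast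
    simp only [div_neg]
    ring
  · rw [← Ef]
    congr 1
    push_cast
    simp only [div_neg]
    ring

end

end Cfsg.Agent.H15.Col
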