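import Mathlib
import Cfsg.Agent.Lib.H15.ColBasic

/-! # Eigenvalue data for elements of order eight conjugate to their cubes -/

set_option autoImplicit false

namespace Cfsg.Agent.H15.Col

open Cfsg Cfsg.Agent.H21 Cfsg.Agent.H22
open scoped ComplexConjugate

universe u

/-- A primitive eighth root of unity. -/
noncomputable def zeta8 : ℂ := Complex.exp (2 * Real.pi * Complex.I / (8 : ℕ))

theorem zeta8_prim : IsPrimitiveRoot zeta8 8 := Complex.isPrimitiveRoot_exp 8 (by norm_num)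

theorem zeta8_four : zeta8 ^ 4 = -1 := by
  have h1 : (zeta8 ^ 4) ^ 2 = 1 := by
    rw [← pow_mul]
    exact zeta8_prim.pow_eq_one
  have h2 : zeta8 ^ 4 ≠ 1 := zeta8_prim.pow_ne_one_of_pos_of_lt (by norm_num) (by norm_num)
  have h3 : (zeta8 ^ 4 - 1) * (zeta8 ^ 4 + 1) = 0 := by linear_combination h1
  rcases mul_eq_zero.1 h3 with h | h
  · exact absurd (sub_eq_zero.1 h) h2
  · linear_combination h

/-- A square root of `-2` in the cyclotomic field of order eight. -/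
noncomputable def omega8 : ℂ := zeta8 + zeta8 ^ 3

theorem omega8_sq : omega8 ^ 2 = -2 := by
  have h := zeta8_four
  simp only [omega8]
  linear_combination (zeta8 ^ 2 + 2) * h

theorem conj_zeta8 : conj zeta8 = - zeta8 ^ 3 := by
  have h1 : ‖zeta8‖ = 1 := Complex.norm_eq_one_of_pow_eq_one zeta8_prim.pow_eq_one (by norm_num)
  have h2 : conj zeta8 * zeta8 = 1 := by
    rw [mul_comm, Complex.mul_conj, Complex.normSq_eq_norm_sq, h1]
    simp
  have h3 : (- zeta8 ^ 3) * zeta8 = 1 := by linear_combination - zeta8_four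
  have h0 : zeta8 ≠ 0 := zeta8_prim.ne_zero (by norm_num)
  exact mul_right_cancel₀ h0 (h2.trans h3.symm)

theorem conj_omega8 : conj omega8 = - omega8 := by
  simp only [omega8, map_add, map_pow, conj_zeta8]
  linear_combination (-zeta8 * (zeta8 ^ 4 - 1)) * zeta8_four

/-- Integer separation. -/
theorem int_sep (u v : ℤ) (c : ℂ) (n : ℕ) (hn : 0 < n) (hc : c ^ 2 = -(n : ℂ))
    (h : (u : ℂ) + v * c = 0) : u = 0 ∧ v = 0 := by
  have h1 : (u : ℂ) ^ 2 + n * v ^ 2 = 0 := by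
    have h2 : (u : ℂ) = - (v * c) := by linear_combination h
    rw [h2]
    linear_combination (v : ℂ) ^ 2 * hc
  have h3 : u ^ 2 + n * v ^ 2 = 0 := by exact_mod_cast h1
  have h4 : (0 : ℤ) < n := by exact_mod_cast hn
  have h5 : v ^ 2 = 0 := by
    nlinarith [sq_nonneg u, sq_nonneg v]
  have h6 : u ^ 2 = 0 := by
    rw [h5] at h3
    simpa using h3
  exact ⟨pow_eq_zero_iff (two_ne_zero) |>.1 h6, pow_eq_zero_iff (two_ne_zero) |>.1 h5⟩

variable {G : Type u} [Group G] [Finite G]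

/-- The eigenvalue data. -/
theorem eig8 (χ : IrrCharacter G) (x : G) (hx : x ^ 8 = 1) (h3 : χ.1 (x ^ 3) = χ.1 x) (W : ℤ)
    (hW : χ.1 (x ^ 2) = W) :
    ∃ k₀ k₄ k₂ k₁ k₅ : ℕ, χ.1 1 = ((k₀ + k₄ + 2 * k₂ + 2 * k₁ + 2 * k₅ : ℕ) : ℂ) ∧
      χ.1 (x ^ 4) = (((k₀ : ℤ) + k₄ + 2 * k₂ - 2 * k₁ - 2 * k₅ : ℤ) : ℂ) ∧
      W = (k₀ : ℤ) + k₄ - 2 * k₂ ∧
      χ.1 x = (((k₀ : ℤ) - k₄ : ℤ) : ℂ) + (((k₁ : ℤ) - k₅ : ℤ) : ℂ) * omega8 := by
  classical
  obtain ⟨d, ρ, hρ⟩ := isCharacter_of_irr χ.2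
  obtain ⟨ι, _, b, μ, h1, h2, _, _⟩ := exists_eigenbasis ρ x
  have hμ8 : ∀ i, μ i ^ 8 = 1 := by
    intro i
    obtain ⟨c, hc⟩ := orderOf_dvd_of_pow_eq_one hx
    rw [hc, pow_mul, h2, one_pow]
  choose e he1 he2 using fun i => zeta8_prim.eq_pow_of_pow_eq_one (hμ8 i)
  have hk : ∀ k : ℕ, ∀ i, ρ (x ^ k) (b i) = (μ i ^ k) • b i := by
    intro k i
    induction k with
    | zero => simp
    | succ k ih =>
      rw [pow_succ, map_mul, Module.End.mul_apply, h1, map_smul, ih, smul_smul, pow_succ, mul_comm]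
  let m : ℕ → ℕ := fun j => (Finset.univ.filter (fun i => e i = j)).card
  have hchar : ∀ k : ℕ, χ.1 (x ^ k) = ∑ j ∈ Finset.range 8, (m j : ℂ) * zeta8 ^ (j * k) := by
    intro k
    rw [← hρ, Representation.character, trace_of_eigenbasis _ b _ (hk k)]
    have h4 : ∀ i, μ i ^ k = zeta8 ^ (e i * k) := fun i => by rw [← he2 i, pow_mul]
    simp only [h4]
    rw [← Finset.sum_fiberwise_of_maps_to (s := Finset.univ) (t := Finset.range 8) (g := e)
      (fun i _ => Finset.mem_range.2 (he1 i))]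
    refine Finset.sum_congr rfl fun j _ => ?_
    rw [Finset.sum_congr rfl (g := fun _ => zeta8 ^ (j * k)) (fun i hi => by
      rw [(Finset.mem_filter.1 hi).2])]
    simp only [Finset.sum_const, nsmul_eq_mul, m]
  have p4 := zeta8_four
  set z := zeta8 with hz
  have p5 : z ^ 5 = - z := by linear_combination z * p4
  have p6 : z ^ 6 = - z ^ 2 := by linear_combination z ^ 2 * p4
  have p7 : z ^ 7 = - z ^ 3 := by linear_combination z ^ 3 * p4
  have p8 : z ^ 8 = 1 := by linear_combination (z ^ 4 - 1) * p4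
  have p9 : z ^ 9 = z := by linear_combination z * (z ^ 4 - 1) * p4
  have p10 : z ^ 10 = z ^ 2 := by linear_combination z ^ 2 * (z ^ 4 - 1) * p4
  have p12 : z ^ 12 = -1 := by linear_combination (z ^ 8 - z ^ 4 + 1) * p4
  have p14 : z ^ 14 = - z ^ 2 := by linear_combination z ^ 2 * (z ^ 8 - z ^ 4 + 1) * p4
  have p15 : z ^ 15 = - z ^ 3 := by linear_combination z ^ 3 * (z ^ 8 - z ^ 4 + 1) * p4
  have p16 : z ^ 16 = 1 := by linear_combination (z ^ 4 - 1) * (z ^ 8 + 1) * p4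
  have p18 : z ^ 18 = z ^ 2 := by linear_combination z ^ 2 * (z ^ 4 - 1) * (z ^ 8 + 1) * p4
  have p20 : z ^ 20 = -1 := by linear_combination (z ^ 16 - z ^ 12 + z ^ 8 - z ^ 4 + 1) * p4
  have p21 : z ^ 21 = - z := by linear_combination z * (z ^ 16 - z ^ 12 + z ^ 8 - z ^ 4 + 1) * p4
  have p24 : z ^ 24 = 1 := by
    calc z ^ 24 = (z ^ 8) ^ 3 := by ring
      _ = 1 := by rw [p8]; norm_num
  have p28 : z ^ 28 = -1 := by
    calc z ^ 28 = z ^ 24 * z ^ 4 := by ring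
      _ = -1 := by rw [p24, p4, one_mul]
  have hsum : ∀ f : ℕ → ℂ, ∑ j ∈ Finset.range 8, f j = f 0 + f 1 + f 2 + f 3 + f 4 + f 5 + f 6 + f 7 := by
    intro f
    simp only [Finset.sum_range_succ, Finset.sum_range_zero, zero_add]
  have c0 := hchar 0
  have c1 := hchar 1
  have c2 := hchar 2
  have c3 := hchar 3
  have c4 := hchar 4
  rw [hsum] at c0 c1 c2 c3 c4
  simp only [pow_zero, pow_one, mul_zero, mul_one, zero_mul, one_mul] at c0 c1 c2 c3 c4
  norm_num only [p4, p5, p6, p7, p8, p9, p10, p12, p14, p15, p16, p18, p20, p21, p24, p28] at c0 c1 c2 c3 c4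
  have hω : omega8 = z + z ^ 3 := rfl
  have hy : (z ^ 2) ^ 2 = -((1 : ℕ) : ℂ) := by
    push_cast
    linear_combination p4
  rw [hW] at c2
  rw [h3, c1] at c3
  obtain ⟨hW1, hW2⟩ := int_sep ((m 0 : ℤ) + m 4 - m 2 - m 6 - W) ((m 1 : ℤ) + m 5 - m 3 - m 7) (z ^ 2) 1 one_pos hy (by
    push_cast
    linear_combination -c2)
  have he : (((m 1 : ℂ) - m 5 - (m 3 - m 7)) * (z - z ^ 3) + (2 * ((m 2 : ℂ) - m 6)) * z ^ 2) = 0 := by
    linear_combination c3
  obtain ⟨hX1, hX2⟩ := int_sep (2 * ((m 1 : ℤ) - m 5 - (m 3 - m 7))) (2 * ((m 2 : ℤ) - m 6)) omega8 2 two_pos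
    (by rw [omega8_sq]; norm_num) (by
      rw [hω]
      push_cast
      linear_combination (z - z ^ 3) * he +
        ((((m 1 : ℂ) - m 5 - (m 3 - m 7)) * (2 - z ^ 2) + (2 * ((m 2 : ℂ) - m 6)) * z) * p4))
  have hm26 : m 6 = m 2 := by omega
  have hm13 : m 3 = m 1 := by omega
  have hm57 : m 7 = m 5 := by omega
  rw [hm26, hm13, hm57] at c0 c1 c4
  rw [hm26] at hW1
  refine ⟨m 0, m 4, m 2, m 1, m 5, ?_, ?_, ?_, ?_⟩
  · rw [c0]
    push_cast
    ring
  · rw [c4]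
    push_cast
    ring
  · linarith
  · rw [c1, hω]
    push_cast
    ring

end Cfsg.Agent.H15.Col
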