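import Mathlib

/-! # An explicit model of `GL(2,3)` on which `decide` runs -/

set_option autoImplicit false

namespace Cfsg.Agent.H15.Col

/-- Explicit 2×2 matrices over `ZMod 3`. -/
abbrev M4 := ZMod 3 × ZMod 3 × ZMod 3 × ZMod 3

/-- Determinant. -/
def det4 (m : M4) : ZMod 3 := m.1 * m.2.2.2 - m.2.1 * m.2.2.1

/-- Product. -/
def mul4 (m n : M4) : M4 :=
  (m.1 * n.1 + m.2.1 * n.2.2.1, m.1 * n.2.1 + m.2.1 * n.2.2.2,
    m.2.2.1 * n.1 + m.2.2.2 * n.2.2.1, m.2.2.1 * n.2.1 + m.2.2.2 * n.2.2.2)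

theorem det4_mul (m n : M4) : det4 (mul4 m n) = det4 m * det4 n := by
  simp only [det4, mul4]
  ring

/-- The explicit group. -/
abbrev GL23e := {m : M4 // det4 m ≠ 0}

theorem zmod3_inv : ∀ δ : ZMod 3, δ ≠ 0 → δ * δ = 1 := by decide

/-- Inverse of an explicit matrix. -/
def inv4 (m : M4) : M4 :=
  (m.2.2.2 * det4 m, - m.2.1 * det4 m, - m.2.2.1 * det4 m, m.1 * det4 m)

theorem det4_inv (m : M4) (h : det4 m ≠ 0) : det4 (inv4 m) = det4 m := by
  have h1 := zmod3_inv _ h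
  have : det4 (inv4 m) = det4 m * (det4 m * det4 m) := by
    obtain ⟨p, q, r, s⟩ := m
    simp only [inv4, det4]
    ring
  rw [this, h1, mul_one]

instance : Group GL23e where
  mul a b := ⟨mul4 a.1 b.1, by rw [det4_mul]; exact mul_ne_zero a.2 b.2⟩
  one := ⟨(1, 0, 0, 1), by decide⟩
  inv a := ⟨inv4 a.1, by rw [det4_inv _ a.2]; exact a.2⟩
  mul_assoc a b c := by
    apply Subtype.ext
    change mul4 (mul4 a.1 b.1) c.1 = mul4 a.1 (mul4 b.1 c.1)
    simp only [mul4, Prod.mk.injEq]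
    refine ⟨?_, ?_, ?_, ?_⟩ <;> ring
  one_mul a := by
    apply Subtype.ext
    change mul4 (1, 0, 0, 1) a.1 = a.1
    simp [mul4]
  mul_one a := by
    apply Subtype.ext
    change mul4 a.1 (1, 0, 0, 1) = a.1
    simp [mul4]
  inv_mul_cancel a := by
    apply Subtype.ext
    change mul4 (inv4 a.1) a.1 = (1, 0, 0, 1)
    have h1 := zmod3_inv _ a.2
    obtain ⟨⟨p, q, r, s⟩, ha⟩ := a
    simp only [inv4, mul4] at h1 ⊢
    simp only [det4] at h1 ⊢
    set δ := p * s - q * r with hδ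
    simp only [Prod.mk.injEq]
    refine ⟨?_, ?_, ?_, ?_⟩
    · calc s * δ * p + -q * δ * r = δ * δ := by rw [hδ]; ring
        _ = 1 := h1
    · ring
    · ring
    · calc -r * δ * q + p * δ * s = δ * δ := by rw [hδ]; ring
        _ = 1 := h1

/-- The isomorphism with the linear group. -/
noncomputable def glEquiv : Matrix.GeneralLinearGroup (Fin 2) (ZMod 3) ≃* GL23e where
  toFun g := ⟨(g.1 0 0, g.1 0 1, g.1 1 0, g.1 1 1), by
    have h := g.det
    have h2 : (g.1).det ≠ 0 := by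
      have := g.det.isUnit
      exact this.ne_zero
    rw [Matrix.det_fin_two] at h2
    exact h2⟩
  invFun m := Matrix.GeneralLinearGroup.mkOfDetNeZero !![m.1.1, m.1.2.1; m.1.2.2.1, m.1.2.2.2] (by
    rw [Matrix.det_fin_two_of]
    exact m.2)
  left_inv g := by
    ext i j
    fin_cases i <;> fin_cases j <;> simp [Matrix.GeneralLinearGroup.mkOfDetNeZero]
  right_inv m := by
    obtain ⟨⟨p, q, r, s⟩, hm⟩ := m
    apply Subtype.ext
    simp [Matrix.GeneralLinearGroup.mkOfDetNeZero]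
  map_mul' g h := by
    apply Subtype.ext
    change _ = mul4 _ _
    simp only [mul4, Units.val_mul, Matrix.mul_apply, Fin.sum_univ_two]

/-- The central involution. -/
def glT : GL23e := ⟨(2, 0, 0, 2), by decide⟩
/-- An element of order six. -/
def glF : GL23e := ⟨(2, 2, 0, 2), by decide⟩
/-- An element of order eight. -/
def glX : GL23e := ⟨(1, 2, 1, 1), by decide⟩
/-- A reflection. -/
def glR : GL23e := ⟨(1, 0, 0, 2), by decide⟩

set_option maxRecDepth 100000

theorem gl_card : Fintype.card GL23e = 48 := by decide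
theorem gl_card' : Nat.card GL23e = 48 := by rw [Nat.card_eq_fintype_card, gl_card]
theorem card_units_int' : Nat.card ℤˣ = 2 := by rw [Nat.card_eq_fintype_card, Fintype.card_units_int]
theorem gl_center : ∀ m : GL23e, (∀ y : GL23e, m * y = y * m) → m = 1 ∨ m = glT := by decide
theorem gl_X4 : glX ^ 4 = glT := by decide
theorem gl_T2 : glT * glT = 1 := by decide
theorem gl_T1 : glT ≠ 1 := by decide
theorem gl_F3 : glF ^ 3 = glT := by decide
theorem gl_F2 : glF ^ 2 ≠ 1 := by decide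
theorem gl_cX : ∀ m : GL23e, m * glX = glX * m → ∃ k : Fin 8, m = glX ^ k.val := by decide
theorem gl_cW : ∀ m : GL23e, m * (glX * glX) = (glX * glX) * m → ∃ k : Fin 8, m = glX ^ k.val := by decide
theorem gl_cF : ∀ m : GL23e, m * glF = glF * m → ∃ k : Fin 6, m = glF ^ k.val := by decide
theorem gl_RX : glR * glX * glR⁻¹ = glX ^ 3 := by decide
theorem gl_RF : glR * glF * glR⁻¹ = glF⁻¹ := by decide
theorem gl_RW : glR * (glX * glX) * glR⁻¹ = (glX * glX)⁻¹ := by decide
theorem gl_noInv : ∀ m : GL23e, m * glX ≠ glX⁻¹ * m := by decide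
set_option synthInstance.maxHeartbeats 400000 in
set_option synthInstance.maxSize 4000 in
theorem gl_Tf : ∀ m : GL23e, (m * m = 1 ∧ m ≠ 1 ∧ (m⁻¹ * glF) * (m⁻¹ * glF) = 1) →
    ∃ k : Fin 6, m = glF ^ k.val * glR := by decide
theorem gl_Tf' : ∀ k : Fin 6, (glF ^ k.val * glR) * (glF ^ k.val * glR) = 1 ∧ glF ^ k.val * glR ≠ 1 ∧
    ((glF ^ k.val * glR)⁻¹ * glF) * ((glF ^ k.val * glR)⁻¹ * glF) = 1 ∧ (glF ^ k.val * glR)⁻¹ * glF ≠ 1 := by
  decide
theorem gl_uniq : ∀ k : Fin 8, glX ^ k.val * glX ^ k.val = 1 → glX ^ k.val ≠ 1 → glX ^ k.val = glT := by decide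

end Cfsg.Agent.H15.Col
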