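import Mathlib
import Cfsg.Agent.Lib.H15.ColBasic
import Cfsg.Agent.Lib.H15.GL23Abs
import Cfsg.Agent.Lib.H15.GL23Model
import Cfsg.Agent.Lib.H15.GL23Eig

/-! # Simple groups with an involution centralizer `GL(2,3)` -/

set_option autoImplicit false
set_option maxRecDepth 100000

namespace Cfsg.Agent.H15.Col

open Cfsg Cfsg.Agent.H21 Cfsg.Agent.H22
open scoped ComplexConjugate

universe u

variable {G : Type u} [Group G] [Finite G]

theorem conj_orderOf {a b : G} (h : IsConj a b) : orderOf a = orderOf b := by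
  obtain ⟨c, rfl⟩ := isConj_iff.1 h
  have := MulAut.conj c |>.toMonoidHom
  exact (orderOf_injective (MulAut.conj c).toMonoidHom (MulAut.conj c).injective a).symm

theorem three_dvd_cube_sub (F : ℤ) : (3 : ℤ) ∣ F ^ 3 - F := by
  have h : F % 3 = 0 ∨ F % 3 = 1 ∨ F % 3 = 2 := by omega
  obtain ⟨q, hq⟩ : ∃ q, F = 3 * q + F % 3 := ⟨F / 3, by omega⟩
  rcases h with h | h | h <;> rw [h] at hq <;> rw [hq]
  · exact ⟨9 * q ^ 3 - q, by ring⟩
  · exact ⟨9 * q ^ 3 + 9 * q ^ 2 + 2 * q, by ring⟩
  · exact ⟨9 * q ^ 3 + 18 * q ^ 2 + 11 * q + 2, by ring⟩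

theorem rat_sep (u v : ℚ) (c : ℂ) (n : ℕ) (hn : 0 < n) (hc : c ^ 2 = -(n : ℂ))
    (h : (u : ℂ) + v * c = 0) : u = 0 ∧ v = 0 := by
  have h1 : (u : ℂ) ^ 2 + n * v ^ 2 = 0 := by
    have h2 : (u : ℂ) = - (v * c) := by linear_combination h
    rw [h2]
    linear_combination (v : ℂ) ^ 2 * hc
  have h3 : u ^ 2 + n * v ^ 2 = 0 := by exact_mod_cast h1
  have h4 : (0 : ℚ) < n := by exact_mod_cast hn
  have h5 : v ^ 2 = 0 := by
    nlinarith [sq_nonneg u, sq_nonneg v]
  have h6 : u ^ 2 = 0 := by
    rw [h5] at h3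
    simpa using h3
  exact ⟨pow_eq_zero_iff (two_ne_zero) |>.1 h6, pow_eq_zero_iff (two_ne_zero) |>.1 h5⟩

theorem sign_trivial_of_simple [IsSimpleGroup G] (hG : 2 < Nat.card G) (φ : G →* ℤˣ) (y : G) :
    φ y = 1 := by
  rcases (φ.normal_ker).eq_bot_or_eq_top with h | h
  · exfalso
    have hinj : Function.Injective φ := (MonoidHom.ker_eq_bot_iff φ).1 h
    have h1 := Nat.card_le_card_of_injective φ hinj
    rw [card_units_int'] at h1
    omega
  · have : y ∈ φ.ker := by rw [h]; exact Subgroup.mem_top y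
    exact this

theorem gl_Fk : ∀ i j : Fin 6, glF ^ i.val = glF ^ j.val → i = j := by decide

set_option maxHeartbeats 4000000 in
/-- The main theorem for `GL(2,3)`. -/
theorem main_gl23 [IsSimpleGroup G] (t : G) (ht : orderOf t = 2)
    (e₀ : Subgroup.centralizer ({t} : Set G) ≃* Matrix.GeneralLinearGroup (Fin 2) (ZMod 3)) :
    Nat.card G = 5616 ∨ Nat.card G = 7920 := by
  classical
  have ht2 : t * t = 1 := by
    have := pow_orderOf_eq_one t
    rwa [ht, pow_two] at this
  have ht1 : t ≠ 1 := by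
    intro h
    rw [h, orderOf_one] at ht
    omega
  set D := Subgroup.centralizer ({t} : Set G) with hD
  let e : D ≃* GL23e := e₀.trans glEquiv
  have hmemD : ∀ g, g ∈ D ↔ g * t = t * g := fun g => Subgroup.mem_centralizer_singleton_iff
  let el : GL23e →* G := D.subtype.comp e.symm.toMonoidHom
  have el_inj : Function.Injective el := by
    intro a b h
    have h1 : (e.symm a : D) = e.symm b := Subtype.ext h
    exact e.symm.injective h1
  have el_mem : ∀ x, el x ∈ D := fun x => (e.symm x).2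
  have el_surj : ∀ g ∈ D, ∃ x, el x = g := fun g hg => ⟨e ⟨g, hg⟩, by simp [el]⟩
  have el_ne : ∀ x, x ≠ 1 → el x ≠ 1 := fun x hx h => hx (el_inj (by rw [h, map_one]))
  have htD : t ∈ D := (hmemD t).2 rfl
  have hel2 : el glT = t := by
    have h1 : ∀ y, e ⟨t, htD⟩ * y = y * e ⟨t, htD⟩ := by
      intro y
      obtain ⟨y', rfl⟩ := e.surjective y
      rw [← map_mul, ← map_mul]
      congr 1
      apply Subtype.ext
      exact ((hmemD y').1 y'.2).symm
    have h2 : e ⟨t, htD⟩ = glT := by
      rcases gl_center _ h1 with h | h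
      · exfalso
        apply ht1
        have := e.injective (h.trans (map_one e).symm)
        exact congrArg Subtype.val this
      · exact h
    have h3 : e.symm glT = ⟨t, htD⟩ := by rw [← h2]; simp
    simp [el, h3]
  have hcardD : Nat.card D = 48 := by
    rw [Nat.card_congr e.toEquiv, gl_card']
  set x : G := el glX with hx
  set f : G := el glF with hf
  set R' : G := el glR with hR'
  have hx4 : x ^ 4 = t := by rw [hx, ← map_pow, gl_X4, hel2]
  have hf3 : f ^ 3 = t := by rw [hf, ← map_pow, gl_F3, hel2]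
  have hxord : orderOf x = 8 := by
    haveI : Fact (Nat.Prime 2) := ⟨Nat.prime_two⟩
    have h1 : ¬ x ^ 2 ^ 2 = 1 := by
      rw [show 2 ^ 2 = 4 by norm_num, hx4]
      exact ht1
    have h2 : x ^ 2 ^ (2 + 1) = 1 := by
      rw [show 2 ^ (2 + 1) = 4 * 2 by norm_num, pow_mul, hx4, pow_two, ht2]
    have := orderOf_eq_prime_pow h1 h2
    rw [this]
    norm_num
  have hw2 : (x ^ 2) ^ 2 = t := by rw [← pow_mul, hx4]
  have hword : orderOf (x ^ 2) = 4 := by
    haveI : Fact (Nat.Prime 2) := ⟨Nat.prime_two⟩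
    have h1 : ¬ (x ^ 2) ^ 2 ^ 1 = 1 := by
      rw [pow_one, hw2]
      exact ht1
    have h2 : (x ^ 2) ^ 2 ^ (1 + 1) = 1 := by
      rw [show 2 ^ (1 + 1) = 2 * 2 by norm_num, pow_mul, hw2, pow_two, ht2]
    have := orderOf_eq_prime_pow h1 h2
    rw [this]
    norm_num
  have hf2 : f ^ 2 ≠ 1 := by
    intro h
    apply gl_F2
    apply el_inj
    rw [map_pow, map_one]
    exact h
  have hf6 : f ^ 6 = 1 := by
    rw [show 6 = 3 * 2 by norm_num, pow_mul, hf3, pow_two, ht2]
  have hford : orderOf f = 6 := by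
    refine orderOf_eq_of_pow_and_pow_div_prime (by norm_num) hf6 ?_
    intro p hp hpd
    have h1 : p ∣ 2 * 3 := hpd
    rcases (Nat.Prime.dvd_mul hp).1 h1 with h | h
    · have := (Nat.prime_dvd_prime_iff_eq hp Nat.prime_two).1 h
      subst this
      rw [show 6 / 2 = 3 by norm_num, hf3]
      exact ht1
    · have := (Nat.prime_dvd_prime_iff_eq hp Nat.prime_three).1 h
      subst this
      rw [show 6 / 3 = 2 by norm_num]
      exact hf2
  -- conjugation by the reflection
  have hRx : R' * x * R'⁻¹ = x ^ 3 := by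
    rw [hR', hx, ← map_inv, ← map_mul, ← map_mul, ← map_pow, gl_RX]
  have hRf : R' * f * R'⁻¹ = f⁻¹ := by
    rw [hR', hf, ← map_inv, ← map_inv, ← map_mul, ← map_mul, gl_RF]
  have hRw : R' * (x ^ 2) * R'⁻¹ = (x ^ 2)⁻¹ := by
    rw [hR', hx, pow_two, ← map_inv, ← map_mul, ← map_inv, ← map_mul, ← map_mul, gl_RW]
  -- centralizers
  have hpowx : ∀ k : Fin 8, el (glX ^ k.val) ∈ Subgroup.zpowers x := by
    intro k
    rw [map_pow]
    exact Subgroup.npow_mem_zpowers x _
  have hCx : Subgroup.centralizer ({x} : Set G) = Subgroup.zpowers x := by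
    apply le_antisymm
    · intro g hg
      have hg' := Subgroup.mem_centralizer_singleton_iff.1 hg
      have hgt : g ∈ D := by
        rw [hmemD, ← hx4]
        exact ((Commute.pow_right (show Commute g x from hg') 4))
      obtain ⟨m, rfl⟩ := el_surj g hgt
      have h1 : m * glX = glX * m := by
        apply el_inj
        rw [map_mul, map_mul]
        exact hg'
      obtain ⟨k, rfl⟩ := gl_cX m h1
      exact hpowx k
    · rw [Subgroup.zpowers_le]
      exact Subgroup.mem_centralizer_singleton_iff.2 rfl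
  have hCw : Subgroup.centralizer ({x ^ 2} : Set G) = Subgroup.zpowers x := by
    apply le_antisymm
    · intro g hg
      have hg' := Subgroup.mem_centralizer_singleton_iff.1 hg
      have hgt : g ∈ D := by
        rw [hmemD, ← hw2]
        exact ((Commute.pow_right (show Commute g (x ^ 2) from hg') 2))
      obtain ⟨m, rfl⟩ := el_surj g hgt
      have h1 : m * (glX * glX) = (glX * glX) * m := by
        apply el_inj
        simp only [map_mul]
        rw [pow_two] at hg'
        exact hg'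
      obtain ⟨k, rfl⟩ := gl_cW m h1
      exact hpowx k
    · rw [Subgroup.zpowers_le]
      rw [Subgroup.mem_centralizer_singleton_iff, pow_two]
      group
  have hCf : Subgroup.centralizer ({f} : Set G) = Subgroup.zpowers f := by
    apply le_antisymm
    · intro g hg
      have hg' := Subgroup.mem_centralizer_singleton_iff.1 hg
      have hgt : g ∈ D := by
        rw [hmemD, ← hf3]
        exact ((Commute.pow_right (show Commute g f from hg') 3))
      obtain ⟨m, rfl⟩ := el_surj g hgt
      have h1 : m * glF = glF * m := by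
        apply el_inj
        rw [map_mul, map_mul]
        exact hg'
      obtain ⟨k, rfl⟩ := gl_cF m h1
      rw [map_pow]
      exact Subgroup.npow_mem_zpowers f _
    · rw [Subgroup.zpowers_le]
      exact Subgroup.mem_centralizer_singleton_iff.2 rfl
  have hcardCx : Nat.card (Subgroup.centralizer ({x} : Set G)) = 8 := by
    rw [hCx, Nat.card_zpowers, hxord]
  have hcardCw : Nat.card (Subgroup.centralizer ({x ^ 2} : Set G)) = 8 := by
    rw [hCw, Nat.card_zpowers, hxord]
  have hcardCf : Nat.card (Subgroup.centralizer ({f} : Set G)) = 6 := by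
    rw [hCf, Nat.card_zpowers, hford]
  -- unique involution in ⟨x⟩
  have huniq : ∀ z ∈ Subgroup.zpowers x, z * z = 1 → z ≠ 1 → z = t := by
    intro z hz hz2 hz1
    rw [← mem_powers_iff_mem_zpowers] at hz
    obtain ⟨k, hk⟩ := hz
    change x ^ k = z at hk
    subst hk
    have h0 : x ^ (k % 8) = x ^ k := by
      rw [← hxord]
      exact pow_mod_orderOf x k
    have h1 : x ^ k = el (glX ^ (⟨k % 8, Nat.mod_lt _ (by norm_num)⟩ : Fin 8).val) := by
      rw [map_pow]
      exact h0.symm
    rw [h1] at hz2 hz1 ⊢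
    rw [gl_uniq _ (el_inj (by rw [map_mul, hz2, map_one])) (fun h => hz1 (by rw [h, map_one])), hel2]
  -- order of G
  set n := D.index with hn
  have hcardG : Nat.card G = 48 * n := by
    rw [← Subgroup.card_mul_index D, hcardD]
  have hnpos : 0 < n := by
    have : Nat.card G ≠ 0 := Nat.card_pos.ne'
    rw [hcardG] at this
    omega
  have hnodd : Odd n := by
    haveI : Fact (Nat.Prime 2) := ⟨Nat.prime_two⟩
    have hxp : IsPGroup 2 (Subgroup.zpowers x) :=
      IsPGroup.of_card (n := 3) (by rw [Nat.card_zpowers, hxord]; norm_num)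
    obtain ⟨S, hS⟩ := hxp.exists_le_sylow
    have hxS : x ∈ (S : Subgroup G) := hS (Subgroup.mem_zpowers x)
    haveI : Nontrivial (S : Subgroup G) := ⟨⟨⟨x, hxS⟩, 1, fun h => by
      have h1 : x = 1 := congrArg Subtype.val h
      rw [h1, one_pow] at hx4
      exact ht1 hx4.symm⟩⟩
    have hcent := S.isPGroup'.center_nontrivial
    have h2center : 2 ∣ Nat.card (Subgroup.center (S : Subgroup G)) := by
      have hp : IsPGroup 2 (Subgroup.center (S : Subgroup G)) := S.isPGroup'.to_subgroup _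
      obtain ⟨k, hk⟩ := IsPGroup.iff_card.1 hp
      have hne : k ≠ 0 := by
        rintro rfl
        have := Finite.one_lt_card (α := Subgroup.center (S : Subgroup G))
        rw [hk] at this
        simp at this
      rw [hk]
      exact dvd_pow_self 2 hne
    obtain ⟨z, hz⟩ := exists_prime_orderOf_dvd_card' 2 h2center
    have hzS : ((z : (S : Subgroup G)) : G) ∈ (S : Subgroup G) := (z : (S : Subgroup G)).2
    set z' : G := ((z : (S : Subgroup G)) : G) with hz'
    have hz2 : z' * z' = 1 := by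
      have h1 := pow_orderOf_eq_one z
      rw [hz, pow_two] at h1
      have := congrArg (fun a => (((a : Subgroup.center (S : Subgroup G)) : (S : Subgroup G)) : G)) h1
      simpa using this
    have hz1 : z' ≠ 1 := by
      intro h
      have h1 : z = 1 := Subtype.ext (Subtype.ext h)
      rw [h1, orderOf_one] at hz
      omega
    have hzc : ∀ y ∈ (S : Subgroup G), z' * y = y * z' := by
      intro y hy
      have := (Subgroup.mem_center_iff.1 z.2) ⟨y, hy⟩
      have h2 := congrArg Subtype.val this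
      exact h2.symm
    have hzt : z' = t := by
      apply huniq z' _ hz2 hz1
      rw [← hCx]
      exact Subgroup.mem_centralizer_singleton_iff.2 (hzc x hxS)
    have hSD : (S : Subgroup G) ≤ D := by
      intro y hy
      rw [hmemD, ← hzt]
      exact (hzc y hy).symm
    have hindex := S.not_dvd_index
    have h1 := Subgroup.card_mul_index (S : Subgroup G)
    have hdvd : Nat.card (S : Subgroup G) ∣ 48 := by
      rw [← hcardD]
      exact Subgroup.card_dvd_of_le hSD
    obtain ⟨a, ha⟩ := IsPGroup.iff_card.1 S.isPGroup'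
    have hiodd : Nat.Coprime 2 (S : Subgroup G).index := (Nat.Prime.coprime_iff_not_dvd Nat.prime_two).2 hindex
    have h16 : 16 ∣ Nat.card (S : Subgroup G) := by
      have h3 : 16 ∣ Nat.card (S : Subgroup G) * (S : Subgroup G).index := by
        rw [h1, hcardG]
        exact Dvd.intro (3 * n) (by ring)
      exact (Nat.Coprime.pow_left 4 hiodd).dvd_of_dvd_mul_right (by simpa using h3)
    have hcard16 : Nat.card (S : Subgroup G) = 16 := by
      apply Nat.dvd_antisymm _ h16
      have h3 : Nat.Coprime (Nat.card (S : Subgroup G)) 3 := by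
        rw [ha]
        exact Nat.Coprime.pow_left a (by norm_num)
      exact h3.dvd_of_dvd_mul_right (by simpa using hdvd)
    rw [hcard16, hcardG] at h1
    have h4 : (S : Subgroup G).index = 3 * n := by omega
    rcases Nat.even_or_odd n with h | h
    · exfalso
      apply hindex
      rw [h4]
      exact Dvd.dvd.mul_left h.two_dvd 3
    · exact h
  -- one class of involutions
  have hGbig : 2 < Nat.card G := by
    rw [hcardG]
    omega
  have hno : ∀ (φ : G →* ℤˣ) (y : G), φ y = 1 := sign_trivial_of_simple hGbig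
  have hinvconj : ∀ y : G, y * y = 1 → y ≠ 1 → IsConj y t := by
    intro y hy hy1
    refine invol_conj_of_no_sign hno t (Subgroup.zpowers x) (3 * n) ?_ ?_ huniq y hy hy1
    · exact Odd.mul (by decide) hnodd
    · have h1 := Subgroup.card_mul_index (Subgroup.zpowers x)
      rw [Nat.card_zpowers, hxord, hcardG] at h1
      omega
  -- integer values
  have h48 : 48 ∣ Nat.card G := by
    rw [hcardG]
    exact Dvd.intro _ rfl
  have hk2 : ∀ k : ℕ, k.Coprime (Nat.card G) → k % 2 = 1 := by
    intro k hk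
    have h1 : k.Coprime 2 := hk.coprime_dvd_right (dvd_trans (by norm_num) h48)
    rcases Nat.even_or_odd k with h | h
    · have := Nat.Coprime.eq_one_of_dvd h1.symm h.two_dvd
      omega
    · exact Nat.odd_iff.1 h
  have hk3 : ∀ k : ℕ, k.Coprime (Nat.card G) → k % 3 ≠ 0 := by
    intro k hk h0
    have h1 : k.Coprime 3 := hk.coprime_dvd_right (dvd_trans (by norm_num) h48)
    have := Nat.Coprime.eq_one_of_dvd h1.symm (Nat.dvd_of_mod_eq_zero h0)
    omega
  have hAex : ∀ χ : IrrCharacter G, ∃ z : ℤ, χ.1 t = z := by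
    intro χ
    refine int_val χ t fun k hk => ?_
    have h1 : t ^ k = t := by
      rw [← pow_mod_orderOf, ht, hk2 k hk, pow_one]
    rw [h1]
  have hFex : ∀ χ : IrrCharacter G, ∃ z : ℤ, χ.1 f = z := by
    intro χ
    refine int_val χ f fun k hk => ?_
    have h0 := hk2 k hk
    have h0' := hk3 k hk
    rw [← pow_mod_orderOf, hford]
    have h1 : k % 6 = 1 ∨ k % 6 = 5 := by omega
    rcases h1 with h | h
    · rw [h, pow_one]
    · rw [h]
      have h3 : f ^ 5 = f⁻¹ := by
        apply eq_inv_of_mul_eq_one_left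
        rw [← pow_succ, show 5 + 1 = 6 by norm_num, hf6]
      rw [h3]
      exact (isConj_iff.2 ⟨R', hRf⟩).symm
  have hWex : ∀ χ : IrrCharacter G, ∃ z : ℤ, χ.1 (x ^ 2) = z := by
    intro χ
    refine int_val χ (x ^ 2) fun k hk => ?_
    have h0 := hk2 k hk
    rw [← pow_mod_orderOf, hword]
    have h1 : k % 4 = 1 ∨ k % 4 = 3 := by omega
    rcases h1 with h | h
    · rw [h, pow_one]
    · rw [h]
      have h3 : (x ^ 2) ^ 3 = (x ^ 2)⁻¹ := by
        apply eq_inv_of_mul_eq_one_left
        rw [← pow_succ, show 3 + 1 = 4 by norm_num, ← hword, pow_orderOf_eq_one]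
      rw [h3]
      exact (isConj_iff.2 ⟨R', hRw⟩).symm
  choose A hA using hAex
  choose F hF using hFex
  choose W hW using hWex
  have hx8 : x ^ 8 = 1 := by
    rw [← hxord, pow_orderOf_eq_one]
  have heig := fun χ : IrrCharacter G => eig8 χ x hx8 (by
    have h1 := isClassFunction_of_isCharacter (isCharacter_of_irr χ.2) x R'
    rw [hRx] at h1
    exact h1) (W χ) (hW χ)
  choose k₀ k₄ k₂ k₁ k₅ e1 e2 e3 e4 using heig
  let a : IrrCharacter G → ℤ := fun χ => (k₀ χ : ℤ) - k₄ χ
  let b : IrrCharacter G → ℤ := fun χ => (k₁ χ : ℤ) - k₅ χ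
  let d : IrrCharacter G → ℕ := fun χ => charDegree χ.1
  have hdeg : ∀ χ : IrrCharacter G, χ.1 1 = (d χ : ℂ) := fun χ => one_eq_charDegree (isCharacter_of_irr χ.2)
  have hdeg' : ∀ χ : IrrCharacter G, χ.1 1 = ((d χ : ℤ) : ℂ) := fun χ => by
    rw [hdeg χ]
    norm_cast
  have hdpos : ∀ χ : IrrCharacter G, 0 < d χ := fun χ => irr_charDegree_pos χ.2
  have hdval : ∀ χ, d χ = k₀ χ + k₄ χ + 2 * k₂ χ + 2 * k₁ χ + 2 * k₅ χ := by
    intro χ
    have h1 := e1 χ
    rw [hdeg χ] at h1
    exact_mod_cast h1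
  have hAval : ∀ χ, A χ = (k₀ χ : ℤ) + k₄ χ + 2 * k₂ χ - 2 * k₁ χ - 2 * k₅ χ := by
    intro χ
    have h1 := e2 χ
    rw [hx4, hA χ] at h1
    exact_mod_cast h1
  have hX : ∀ χ : IrrCharacter G, χ.1 x = (a χ : ℂ) + (b χ : ℂ) * omega8 := e4
  have hXc : ∀ χ : IrrCharacter G, conj (χ.1 x) = (a χ : ℂ) + (-(b χ) : ℤ) * omega8 := by
    intro χ
    rw [hX χ, map_add, map_mul, map_intCast, map_intCast, conj_omega8]
    push_cast
    ring
  -- conjugacy
  have hne : ∀ u v : G, orderOf u ≠ orderOf v → ¬ IsConj u v := fun u v h c => h (conj_orderOf c)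
  have hone : orderOf (1 : G) = 1 := orderOf_one
  have hnoinv : ∀ h : G, h * x * h⁻¹ ≠ x⁻¹ := by
    intro h hh
    have h1 : h * t = t * h := by
      have h2 : h * t * h⁻¹ = t := by
        rw [← hx4, ← conj_pow, hh, inv_pow, hx4]
        exact inv_eq_of_mul_eq_one_left ht2
      calc h * t = (h * t * h⁻¹) * h := by group
        _ = t * h := by rw [h2]
    obtain ⟨m, rfl⟩ := el_surj h ((hmemD h).2 h1)
    apply gl_noInv m
    apply el_inj
    rw [map_mul, map_mul, map_inv]
    calc el m * x = (el m * x * (el m)⁻¹) * el m := by group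
      _ = x⁻¹ * el m := by rw [hh]
  have hxnot : ¬ IsConj x x⁻¹ := by
    intro h
    obtain ⟨c, hc⟩ := isConj_iff.1 h
    exact hnoinv c hc
  -- columns with x
  have hcolx : ∀ (g : G) (c : IrrCharacter G → ℤ), (∀ χ : IrrCharacter G, χ.1 g = c χ) → ¬ IsConj g x →
      ∑ χ, c χ * a χ = 0 ∧ ∑ χ, c χ * b χ = 0 := by
    intro g c hc hn'
    have h1 := column_orthogonality_of_not_isConj hn'
    simp only [hc, hXc] at h1
    have h2 : (((∑ χ, c χ * a χ : ℤ)) : ℂ) + ((-(∑ χ, c χ * b χ) : ℤ) : ℂ) * omega8 = 0 := by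
      rw [← h1]
      push_cast
      rw [neg_mul, Finset.sum_mul, ← sub_eq_add_neg, ← Finset.sum_sub_distrib]
      refine Finset.sum_congr rfl fun χ _ => ?_
      ring
    obtain ⟨h3, h4⟩ := int_sep _ _ omega8 2 two_pos (by rw [omega8_sq]; norm_num) h2
    exact ⟨h3, by simpa using h4⟩
  have hself : ∑ χ, (a χ * a χ + 2 * (b χ * b χ)) = 8 := by
    have h1 := column_orthogonality_of_isConj (IsConj.refl x)
    rw [hcardCx] at h1
    simp only [hXc] at h1
    simp only [hX] at h1
    have h2 : ((∑ χ, (a χ * a χ + 2 * (b χ * b χ)) : ℤ) : ℂ) = ((8 : ℤ) : ℂ) := by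
      push_cast
      push_cast at h1
      rw [← h1]
      refine Finset.sum_congr rfl fun χ _ => ?_
      linear_combination ((b χ : ℂ) ^ 2) * omega8_sq
    exact_mod_cast h2
  have hinv : ∑ χ, (a χ * a χ - 2 * (b χ * b χ)) = 0 ∧ ∑ χ, 2 * (a χ * b χ) = 0 := by
    have h1 := column_orthogonality_of_not_isConj hxnot
    have h3 : ∀ χ : IrrCharacter G, χ.1 x * conj (χ.1 x⁻¹) = χ.1 x * χ.1 x := by
      intro χ
      rw [isCharacter_inv (isCharacter_of_irr χ.2), Complex.conj_conj]
    simp only [h3] at h1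
    simp only [hX] at h1
    refine int_sep _ _ omega8 2 two_pos (by rw [omega8_sq]; norm_num) ?_
    rw [← h1]
    push_cast
    rw [Finset.sum_mul, ← Finset.sum_add_distrib]
    refine Finset.sum_congr rfl fun χ _ => ?_
    linear_combination (- (b χ : ℂ) ^ 2) * omega8_sq
  have saa : ∑ χ, a χ * a χ = 4 := by
    have h1 := hself
    have h2 := hinv.1
    rw [Finset.sum_add_distrib] at h1
    rw [Finset.sum_sub_distrib] at h2
    linarith
  have sbb : ∑ χ, b χ * b χ = 2 := by
    have h1 := hself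
    have h2 := hinv.1
    rw [Finset.sum_add_distrib, ← Finset.mul_sum] at h1
    rw [Finset.sum_sub_distrib, ← Finset.mul_sum] at h2
    linarith
  have sab : ∑ χ, a χ * b χ = 0 := by
    have h1 := hinv.2
    rw [← Finset.mul_sum] at h1
    linarith
  -- structure constants
  have hconj_inv : ∀ h, IsConj h t → h * h = 1 ∧ h ≠ 1 := by
    intro h hh
    obtain ⟨g, rfl⟩ := isConj_iff.1 hh.symm
    constructor
    · have : g * t * g⁻¹ * (g * t * g⁻¹) = g * (t * t) * g⁻¹ := by group
      rw [this, ht2]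
      group
    · intro h
      apply ht1
      have : t = g⁻¹ * (g * t * g⁻¹) * g := by group
      rw [this, h]
      group
  have hTx : (Finset.univ.filter (fun h : G => IsConj h t ∧ IsConj (h⁻¹ * x) t)).card = 0 := by
    rw [Finset.card_eq_zero, Finset.filter_eq_empty_iff]
    rintro h - ⟨h1, h2⟩
    obtain ⟨h3, _⟩ := hconj_inv h h1
    obtain ⟨h5, _⟩ := hconj_inv _ h2
    have hhi : h⁻¹ = h := inv_eq_of_mul_eq_one_left h3
    rw [hhi] at h5
    apply hnoinv h
    rw [hhi]
    apply eq_inv_of_mul_eq_one_left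
    calc h * x * h * x = h * x * (h * x) := by group
      _ = 1 := h5
  have hel_conj : ∀ m : GL23e, m * m = 1 → m ≠ 1 → IsConj (el m) t := by
    intro m h1 h2
    refine hinvconj _ ?_ (el_ne m h2)
    rw [← map_mul, h1, map_one]
  have hTf : (Finset.univ.filter (fun h : G => IsConj h t ∧ IsConj (h⁻¹ * f) t)).card = 6 := by
    have h1 : Finset.univ.filter (fun h : G => IsConj h t ∧ IsConj (h⁻¹ * f) t) =
        (Finset.univ : Finset (Fin 6)).image (fun k => el (glF ^ k.val * glR)) := by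
      ext h
      simp only [Finset.mem_filter, Finset.mem_univ, true_and, Finset.mem_image]
      constructor
      · rintro ⟨h1, h2⟩
        obtain ⟨h3, h4⟩ := hconj_inv h h1
        obtain ⟨h5, h6⟩ := hconj_inv _ h2
        have hhi : h⁻¹ = h := inv_eq_of_mul_eq_one_left h3
        have h5' := h5
        rw [hhi] at h5'
        have hinvf : h * f * h⁻¹ = f⁻¹ := by
          rw [hhi]
          apply eq_inv_of_mul_eq_one_left
          calc h * f * h * f = h * f * (h * f) := by group
            _ = 1 := h5'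
        have hcomm : h * t = t * h := by
          have h2 : h * t * h⁻¹ = t := by
            rw [← hf3, ← conj_pow, hinvf, inv_pow, hf3]
            exact inv_eq_of_mul_eq_one_left ht2
          calc h * t = (h * t * h⁻¹) * h := by group
            _ = t * h := by rw [h2]
        obtain ⟨m, rfl⟩ := el_surj h ((hmemD h).2 hcomm)
        have hm1 : m * m = 1 := el_inj (by rw [map_mul, h3, map_one])
        have hm2 : m ≠ 1 := fun h => h4 (by rw [h, map_one])
        have hm3 : (m⁻¹ * glF) * (m⁻¹ * glF) = 1 := by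
          apply el_inj
          rw [map_mul, map_mul, map_inv, map_one]
          exact h5
        obtain ⟨k, hk⟩ := gl_Tf m ⟨hm1, hm2, hm3⟩
        exact ⟨k, by rw [hk]⟩
      · rintro ⟨k, rfl⟩
        obtain ⟨h1, h2, h3, h4⟩ := gl_Tf' k
        refine ⟨hel_conj _ h1 h2, ?_⟩
        have h7 : (el (glF ^ k.val * glR))⁻¹ * f = el ((glF ^ k.val * glR)⁻¹ * glF) := by
          rw [map_mul el ((glF ^ k.val * glR)⁻¹) glF, map_inv]
        rw [h7]
        exact hel_conj _ h3 h4
    rw [h1, Finset.card_image_of_injective, Finset.card_univ, Fintype.card_fin]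
    intro i j hij
    have h2 := el_inj hij
    exact gl_Fk i j (mul_right_cancel h2)
  have hstr : ∀ g, ((Finset.univ.filter (fun h : G => IsConj h t ∧ IsConj (h⁻¹ * g) t)).card : ℂ) * 48 =
      n * ∑ χ : IrrCharacter G, (χ.1 t) ^ 2 * conj (χ.1 g) / χ.1 1 := by
    intro g
    have := struct_t t g n 48 rfl hcardD
    exact_mod_cast this
  have hn0 : (n : ℂ) ≠ 0 := by exact_mod_cast hnpos.ne'
  have Ex : ∑ χ, (A χ : ℚ) ^ 2 * a χ / d χ = 0 := by
    have h1 := hstr x
    rw [hTx] at h1
    have h2 : ∑ χ : IrrCharacter G, (χ.1 t) ^ 2 * conj (χ.1 x) / χ.1 1 = 0 := by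
      have h3 : (n : ℂ) * ∑ χ : IrrCharacter G, (χ.1 t) ^ 2 * conj (χ.1 x) / χ.1 1 = 0 := by
        rw [← h1]
        simp
      rcases mul_eq_zero.1 h3 with h | h
      · exact absurd h hn0
      · exact h
    have h4 := rat_sep (∑ χ, (A χ : ℚ) ^ 2 * a χ / d χ) (∑ χ, (A χ : ℚ) ^ 2 * (-(b χ) : ℤ) / d χ) omega8 2 two_pos
      (by rw [omega8_sq]; norm_num) (by
        rw [← h2]
        push_cast
        rw [Finset.sum_mul, ← Finset.sum_add_distrib]
        refine Finset.sum_congr rfl fun χ _ => ?_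
        rw [hA χ, hXc χ, hdeg χ]
        push_cast
        ring)
    exact h4.1
  have Ef : (n : ℚ) * ∑ χ, (A χ : ℚ) ^ 2 * F χ / d χ = 288 := by
    have h1 := hstr f
    rw [hTf] at h1
    have h2 : ((((n : ℚ) * ∑ χ, (A χ : ℚ) ^ 2 * F χ / d χ : ℚ)) : ℂ) = ((288 : ℚ) : ℂ) := by
      push_cast
      have h3 : ∀ χ : IrrCharacter G, (χ.1 t) ^ 2 * conj (χ.1 f) / χ.1 1 = (A χ : ℂ) ^ 2 * F χ / d χ := by
        intro χ
        rw [hA χ, hF χ, hdeg χ, map_intCast]
      simp only [h3] at h1
      rw [← h1]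
      norm_num
    exact_mod_cast h2
  -- orthogonality in integer form
  have sAA := col_int_conj A A hA hA (IsConj.refl t)
  rw [← hD, hcardD] at sAA
  have sFF := col_int_conj F F hF hF (IsConj.refl f)
  rw [hcardCf] at sFF
  have sWW := col_int_conj W W hW hW (IsConj.refl (x ^ 2))
  rw [hcardCw] at sWW
  have ht_f : ¬ IsConj t f := hne _ _ (by rw [ht, hford]; norm_num)
  have ht_w : ¬ IsConj t (x ^ 2) := hne _ _ (by rw [ht, hword]; norm_num)
  have ht_x : ¬ IsConj t x := hne _ _ (by rw [ht, hxord]; norm_num)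
  have hf_w : ¬ IsConj f (x ^ 2) := hne _ _ (by rw [hford, hword]; norm_num)
  have hf_x : ¬ IsConj f x := hne _ _ (by rw [hford, hxord]; norm_num)
  have hw_x : ¬ IsConj (x ^ 2) x := hne _ _ (by rw [hword, hxord]; norm_num)
  have h1_t : ¬ IsConj (1 : G) t := hne _ _ (by rw [hone, ht]; norm_num)
  have h1_f : ¬ IsConj (1 : G) f := hne _ _ (by rw [hone, hford]; norm_num)
  have h1_w : ¬ IsConj (1 : G) (x ^ 2) := hne _ _ (by rw [hone, hword]; norm_num)
  have h1_x : ¬ IsConj (1 : G) x := hne _ _ (by rw [hone, hxord]; norm_num)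
  have dA : ∑ χ, A χ * (d χ : ℤ) = 0 := by
    have := col_int_ne (fun χ => (d χ : ℤ)) A hdeg' hA h1_t
    rw [← this]
    exact Finset.sum_congr rfl fun χ _ => mul_comm _ _
  have dF : ∑ χ, F χ * (d χ : ℤ) = 0 := by
    have := col_int_ne (fun χ => (d χ : ℤ)) F hdeg' hF h1_f
    rw [← this]
    exact Finset.sum_congr rfl fun χ _ => mul_comm _ _
  have dW : ∑ χ, W χ * (d χ : ℤ) = 0 := by
    have := col_int_ne (fun χ => (d χ : ℤ)) W hdeg' hW h1_w
    rw [← this]
    exact Finset.sum_congr rfl fun χ _ => mul_comm _ _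
  have dab := hcolx 1 (fun χ => (d χ : ℤ)) hdeg' h1_x
  have da : ∑ χ, a χ * (d χ : ℤ) = 0 := by
    rw [← dab.1]
    exact Finset.sum_congr rfl fun χ _ => mul_comm _ _
  have db : ∑ χ, b χ * (d χ : ℤ) = 0 := by
    rw [← dab.2]
    exact Finset.sum_congr rfl fun χ _ => mul_comm _ _
  have c3 : ∀ χ, (3 : ℤ) ∣ A χ - F χ := by
    intro χ
    have h1 := pow_congr_int χ f 3 Nat.prime_three (F χ) (A χ) (hF χ) (by rw [hf3]; exact hA χ)
    have h2 := three_dvd_cube_sub (F χ)
    have h3 : A χ - F χ = (F χ ^ 3 - F χ) - (F χ ^ 3 - A χ) := by ring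
    rw [h3]
    exact dvd_sub h2 (by simpa using h1)
  have c4 : ∀ χ, (4 : ℤ) ∣ A χ - W χ - 2 * b χ := by
    intro χ
    have h1 := hAval χ
    have h2 := e3 χ
    simp only [b]
    exact ⟨(k₂ χ : ℤ) - k₁ χ, by rw [h1, h2]; ring⟩
  have c2 : ∀ χ, (2 : ℤ) ∣ W χ + a χ := by
    intro χ
    have h2 := e3 χ
    simp only [a]
    exact ⟨(k₀ χ : ℤ) - k₂ χ, by rw [h2]; ring⟩
  have c8 : ∀ χ, (8 : ℤ) ∣ (d χ : ℤ) + A χ - 2 * W χ := by
    intro χ
    have h1 := hAval χ
    have h2 := e3 χ
    have h3 := hdval χ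
    exact ⟨(k₂ χ : ℤ), by rw [h1, h2, h3]; push_cast; ring⟩
  -- the trivial row
  have hAo : A (oneIrr G) = 1 := by
    have h1 := hA (oneIrr G)
    have h2 : (oneIrr G).1 t = 1 := rfl
    rw [h2] at h1
    exact_mod_cast h1.symm
  have hFo : F (oneIrr G) = 1 := by
    have h1 := hF (oneIrr G)
    have h2 : (oneIrr G).1 f = 1 := rfl
    rw [h2] at h1
    exact_mod_cast h1.symm
  have hWo : W (oneIrr G) = 1 := by
    have h1 := hW (oneIrr G)
    have h2 : (oneIrr G).1 (x ^ 2) = 1 := rfl
    rw [h2] at h1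
    exact_mod_cast h1.symm
  have hdo : d (oneIrr G) = 1 := by
    have h1 := hdeg (oneIrr G)
    have h2 : (oneIrr G).1 1 = 1 := rfl
    rw [h2] at h1
    exact_mod_cast h1.symm
  have hab0 : a (oneIrr G) = 1 ∧ b (oneIrr G) = 0 := by
    have h1 := hX (oneIrr G)
    have h2 : (oneIrr G).1 x = 1 := rfl
    rw [h2] at h1
    obtain ⟨h3, h4⟩ := int_sep (a (oneIrr G) - 1) (b (oneIrr G)) omega8 2 two_pos
      (by rw [omega8_sq]; norm_num) (by
        push_cast
        linear_combination -h1)
    exact ⟨by linarith, h4⟩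
  rcases abstract_gl23 A F W a b d (oneIrr G) hAo hFo hWo hab0.1 hab0.2 hdo hdpos (by exact_mod_cast sAA)
    (by exact_mod_cast sFF) (by exact_mod_cast sWW) saa sbb
    (col_int_ne A F hA hF ht_f) (col_int_ne A W hA hW ht_w) (hcolx t A hA ht_x).1 (hcolx t A hA ht_x).2
    (col_int_ne F W hF hW hf_w) (hcolx f F hF hf_x).1 (hcolx f F hF hf_x).2
    (hcolx (x ^ 2) W hW hw_x).1 (hcolx (x ^ 2) W hW hw_x).2 sab dA dF dW da db c3 c4 c2 c8 n hnodd Ex Ef with h | h
  · left
    rw [hcardG, h]
  · right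
    rw [hcardG, h]

end Cfsg.Agent.H15.Col
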