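import Mathlib

/-! # Odd automorphisms of a homocyclic abelian 2-group of rank 2 -/

set_option autoImplicit false
set_option linter.unusedSectionVars false

namespace Cfsg.Agent.H15.Homo

section Add

variable {A : Type*} [AddCommGroup A]

theorem iter_add_nsmul (s : A →+ A) {a w : A} (hw : s w = w) (h : s a = a + w) (j : ℕ) :
    s^[j] a = a + j • w := by
  induction j with
  | zero => simp
  | succ j ih =>
    rw [Function.iterate_succ_apply', ih, map_add, h, map_nsmul, hw, add_assoc, succ_nsmul,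
      add_comm w]

/-- Odd-order automorphisms fixing the elements killed by two are trivial. -/
theorem fix_of_fix_two (s : A →+ A) {r m : ℕ} (hr : Odd r) (hrs : ∀ a, s^[r] a = a)
    (hexp : ∀ a : A, 2 ^ m • a = 0) (hV : ∀ v : A, 2 • v = 0 → s v = v) (a : A) : s a = a := by
  have key : ∀ k : ℕ, ∀ a : A, 2 ^ k • a = 0 → s a = a := by
    intro k
    induction k with
    | zero =>
      intro a ha
      have h0 : a = 0 := by simpa using ha
      rw [h0, map_zero]
    | succ k ih =>
      intro a ha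
      have h1 : 2 ^ k • (2 • a) = 0 := by
        rw [smul_smul, ← pow_succ]
        exact ha
      have h2 := ih _ h1
      rw [map_nsmul] at h2
      set w := s a - a with hw
      have h3 : 2 • w = 0 := by
        rw [hw, nsmul_sub, h2, sub_self]
      have h4 : s w = w := hV w h3
      have h5 : s a = a + w := by rw [hw]; abel
      have h6 := iter_add_nsmul s h4 h5 r
      rw [hrs a] at h6
      have h7 : r • w = 0 := by
        have := h6.symm
        simpa using this
      obtain ⟨l, rfl⟩ := hr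
      have h8 : w = 0 := by
        rw [add_nsmul, one_nsmul, mul_nsmul, h3, nsmul_zero, zero_add] at h7
        exact h7
      rw [h5, h8, add_zero]
  exact key m a (hexp a)

/-- A nonzero element has a multiple which is an involution. -/
theorem exists_two_multiple {m : ℕ} (hexp : ∀ a : A, 2 ^ m • a = 0) {a : A} (ha : a ≠ 0) :
    ∃ k : ℕ, 2 ^ k • a ≠ 0 ∧ 2 • (2 ^ k • a) = 0 := by
  classical
  have hex : ∃ k : ℕ, 2 ^ k • a = 0 := ⟨m, hexp a⟩
  have h1 := Nat.find_spec hex
  have h0 : Nat.find hex ≠ 0 := by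
    intro h
    rw [h] at h1
    exact ha (by simpa using h1)
  obtain ⟨k, hk⟩ := Nat.exists_eq_succ_of_ne_zero h0
  refine ⟨k, ?_, ?_⟩
  · exact Nat.find_min hex (by omega)
  · rw [smul_smul, ← pow_succ']
    rw [hk] at h1
    exact h1

theorem fin3_trichotomy :
    ∀ g : Fin 3 → Fin 3, Function.Injective g →
      g = id ∨ (g ∘ g ∘ g = id ∧ ∀ i, g i ≠ i) ∨ g ∘ g = id := by
  decide

variable [Fintype A] [DecidableEq A]

/-- The involutions of `A`. -/
def invs (A : Type*) [AddCommGroup A] [Fintype A] [DecidableEq A] : Finset A :=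
  Finset.univ.filter fun a => a ≠ 0 ∧ 2 • a = 0

theorem mem_invs {a : A} : a ∈ invs A ↔ a ≠ 0 ∧ 2 • a = 0 := by
  simp [invs]

/-- The trichotomy for the automorphism `t` of odd order. -/
theorem vstep (t : A →+ A) (hinj : Function.Injective t) {r m : ℕ} (hr : Odd r)
    (hrt : ∀ a, t^[r] a = a) (hexp : ∀ a : A, 2 ^ m • a = 0) (hV3 : (invs A).card = 3) :
    (∀ a, t a = a) ∨ ((∀ a, t (t (t a)) = a) ∧ ∀ a, t a = a → a = 0) := by
  classical
  let v : Fin 3 ≃ invs A := (Finset.equivFinOfCardEq hV3).symm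
  have hinv : ∀ i, (v i : A) ≠ 0 ∧ 2 • (v i : A) = 0 := fun i => mem_invs.mp (v i).2
  have htmem : ∀ i, t (v i : A) ∈ invs A := by
    intro i
    refine mem_invs.mpr ⟨?_, ?_⟩
    · intro h0
      exact (hinv i).1 (hinj (by rw [h0, map_zero]))
    · rw [← map_nsmul, (hinv i).2, map_zero]
  let g : Fin 3 → Fin 3 := fun i => v.symm ⟨t (v i : A), htmem i⟩
  have hg : ∀ i, (v (g i) : A) = t (v i : A) := by
    intro i
    simp [g]
  have hginj : Function.Injective g := by
    intro i j hij
    have h1 : t (v i : A) = t (v j : A) := by rw [← hg, ← hg, hij]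
    exact v.injective (Subtype.ext (hinj h1))
  have hiter : ∀ (n : ℕ) (i : Fin 3), (v (g^[n] i) : A) = t^[n] (v i : A) := by
    intro n i
    induction n with
    | zero => rfl
    | succ n ih =>
      rw [Function.iterate_succ_apply', Function.iterate_succ_apply', hg, ih]
  have hgr : ∀ i, g^[r] i = i := by
    intro i
    apply v.injective
    apply Subtype.ext
    rw [hiter, hrt]
  have hfixV : g = id → ∀ a, t a = a := by
    intro hgid
    apply fix_of_fix_two t hr hrt hexp
    intro w hw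
    by_cases h0 : w = 0
    · rw [h0, map_zero]
    · have hw' : w ∈ invs A := mem_invs.mpr ⟨h0, hw⟩
      obtain ⟨i, hi⟩ := v.surjective ⟨w, hw'⟩
      have h1 : w = (v i : A) := by rw [hi]
      rw [h1, ← hg]
      rw [hgid]
      rfl
  rcases fin3_trichotomy g hginj with h | ⟨h3, hfp⟩ | h2
  · exact Or.inl (hfixV h)
  · right
    have hcomm : ∀ a, (fun a => t (t (t a)))^[r] a = a := by
      intro a
      have h1 : (fun a => t (t (t a))) = (⇑t)^[3] := rfl
      rw [h1, ← Function.iterate_mul, mul_comm, Function.iterate_mul]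
      have h2 : ((⇑t)^[r])^[3] a = a := by
        have h3 : (⇑t)^[r] = id := funext hrt
        rw [h3]
        simp
      exact h2
    have ht3 : ∀ a, t (t (t a)) = a := by
      let s : A →+ A := (t.comp t).comp t
      have hs : ∀ a, s a = t (t (t a)) := fun a => rfl
      intro a
      rw [← hs]
      apply fix_of_fix_two s hr (fun a => ?_) hexp
      · intro w hw
        rw [hs]
        by_cases h0 : w = 0
        · rw [h0, map_zero, map_zero, map_zero]
        · have hw' : w ∈ invs A := mem_invs.mpr ⟨h0, hw⟩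
          obtain ⟨i, hi⟩ := v.surjective ⟨w, hw'⟩
          have h1 : w = (v i : A) := by rw [hi]
          rw [h1, ← hg, ← hg, ← hg]
          have h4 := congrFun h3 i
          simp only [Function.comp_apply, id] at h4
          rw [h4]
      · exact hcomm a
    refine ⟨ht3, fun a hta => ?_⟩
    by_contra ha
    obtain ⟨k, hk1, hk2⟩ := exists_two_multiple hexp ha
    have hw' : 2 ^ k • a ∈ invs A := mem_invs.mpr ⟨hk1, hk2⟩
    obtain ⟨i, hi⟩ := v.surjective ⟨_, hw'⟩
    have h1 : 2 ^ k • a = (v i : A) := by rw [hi]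
    apply hfp i
    apply v.injective
    apply Subtype.ext
    rw [hg, ← h1, map_nsmul, hta]
  · have hgid : g = id := by
      funext i
      obtain ⟨l, hl⟩ := hr
      have h4 : ∀ n : ℕ, g^[2 * n] i = i := by
        intro n
        rw [Function.iterate_mul]
        have : g^[2] = id := h2
        rw [this]
        simp
      have h5 := hgr i
      rw [hl] at h5
      have h6 : g^[2 * l + 1] i = g (g^[2 * l] i) := Function.iterate_succ_apply' g (2 * l) i
      rw [h6, h4] at h5
      exact h5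
    exact Or.inl (hfixV hgid)

/-- A character of `A` trivial on the involutions and different from one, as the double of a
suitable character. -/
theorem exists_char_trivial_two {a₀ : A} (ha₀ : 2 • a₀ ≠ 0) :
    ∃ ψ : AddChar A ℂ, ψ ≠ 1 ∧ ∀ v : A, 2 • v = 0 → ψ v = 1 := by
  obtain ⟨φ, hφ⟩ := (AddChar.exists_apply_ne_zero (α := A) (a := 2 • a₀)).2 ha₀
  let d : A →+ A := nsmulAddMonoidHom 2
  refine ⟨φ.compAddMonoidHom d, ?_, ?_⟩
  · intro h
    apply hφ
    have h1 := congrArg (fun ψ : AddChar A ℂ => ψ a₀) h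
    simpa [d] using h1
  · intro v hv
    have : (φ.compAddMonoidHom d) v = φ (2 • v) := rfl
    rw [this, hv]
    simp

end Add

section Model

variable {m : ℕ}

theorem zmod_two_mul_eq_zero (hm : 1 ≤ m) {x : ZMod (2 ^ m)} (hx : 2 • x = 0) :
    x = 0 ∨ x = ((2 ^ (m - 1) : ℕ) : ZMod (2 ^ m)) := by
  obtain ⟨k, rfl⟩ : ∃ k, m = k + 1 := ⟨m - 1, by omega⟩
  simp only [Nat.add_sub_cancel]
  have : NeZero (2 ^ (k + 1)) := ⟨by positivity⟩
  have h1 : ((2 * x.val : ℕ) : ZMod (2 ^ (k + 1))) = 0 := by
    push_cast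
    rw [ZMod.natCast_zmod_val]
    simpa [two_mul, two_nsmul] using hx
  rw [ZMod.natCast_eq_zero_iff] at h1
  obtain ⟨c, hc⟩ := h1
  have h2 : x.val < 2 ^ (k + 1) := ZMod.val_lt x
  have h3 : x.val = 2 ^ k * c := by
    have h31 : 2 * x.val = 2 * (2 ^ k * c) := by
      calc 2 * x.val = 2 ^ (k + 1) * c := hc
        _ = 2 * (2 ^ k * c) := by ring
    exact Nat.eq_of_mul_eq_mul_left (by norm_num) h31
  have h4 : c < 2 := by
    by_contra hcon
    push Not at hcon
    have : 2 ^ (k + 1) ≤ 2 ^ k * c := by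
      rw [pow_succ]
      exact Nat.mul_le_mul_left _ hcon
    omega
  interval_cases c
  · left
    have : x.val = 0 := by simpa using h3
    exact (ZMod.val_eq_zero x).mp this
  · right
    have : x.val = 2 ^ k := by simpa using h3
    rw [← this, ZMod.natCast_zmod_val]

theorem zmod_half_ne_zero (hm : 1 ≤ m) : ((2 ^ (m - 1) : ℕ) : ZMod (2 ^ m)) ≠ 0 := by
  rw [Ne, ZMod.natCast_eq_zero_iff]
  intro h
  have := Nat.le_of_dvd (by positivity) h
  have h2 : 2 ^ m = 2 * 2 ^ (m - 1) := by
    obtain ⟨k, rfl⟩ : ∃ k, m = k + 1 := ⟨m - 1, by omega⟩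
    simp [pow_succ, mul_comm]
  have h3 : 0 < 2 ^ (m - 1) := by positivity
  omega

theorem zmod_two_half (hm : 1 ≤ m) : 2 • ((2 ^ (m - 1) : ℕ) : ZMod (2 ^ m)) = 0 := by
  rw [nsmul_eq_mul]
  have : ((2 : ℕ) : ZMod (2 ^ m)) * ((2 ^ (m - 1) : ℕ) : ZMod (2 ^ m)) = ((2 ^ m : ℕ) : ZMod (2 ^ m)) := by
    rw [← Nat.cast_mul]
    congr 1
    obtain ⟨k, rfl⟩ : ∃ k, m = k + 1 := ⟨m - 1, by omega⟩
    simp [pow_succ, mul_comm]
  rw [this, ZMod.natCast_self]

theorem zmod_exp (a : ZMod (2 ^ m)) : 2 ^ m • a = 0 := by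
  rw [nsmul_eq_mul]
  have : ((2 ^ m : ℕ) : ZMod (2 ^ m)) = 0 := ZMod.natCast_self _
  rw [this, zero_mul]

instance neZeroTwoPow : NeZero (2 ^ m) := ⟨by positivity⟩

theorem model_exp (a : ZMod (2 ^ m) × ZMod (2 ^ m)) : 2 ^ m • a = 0 := by
  ext
  · exact zmod_exp a.1
  · exact zmod_exp a.2

theorem model_invs (hm : 1 ≤ m) : (invs (ZMod (2 ^ m) × ZMod (2 ^ m))).card = 3 := by
  classical
  set h : ZMod (2 ^ m) := ((2 ^ (m - 1) : ℕ) : ZMod (2 ^ m)) with hh
  have h0 : h ≠ 0 := zmod_half_ne_zero hm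
  have h2 : 2 • h = 0 := zmod_two_half hm
  have : invs (ZMod (2 ^ m) × ZMod (2 ^ m)) = {(h, 0), (0, h), (h, h)} := by
    ext ⟨x, y⟩
    rw [mem_invs]
    simp only [Finset.mem_insert, Finset.mem_singleton, Prod.mk.injEq, ne_eq]
    constructor
    · rintro ⟨h1, h3⟩
      have hx : 2 • x = 0 := by
        have := congrArg Prod.fst h3
        simpa using this
      have hy : 2 • y = 0 := by
        have := congrArg Prod.snd h3
        simpa using this
      rcases zmod_two_mul_eq_zero hm hx with rfl | hx' <;>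
        rcases zmod_two_mul_eq_zero hm hy with rfl | hy'
      · exact absurd rfl h1
      · right; left
        exact ⟨rfl, hy'⟩
      · left
        exact ⟨hx', rfl⟩
      · right; right
        exact ⟨hx', hy'⟩
    · rintro (⟨rfl, rfl⟩ | ⟨rfl, rfl⟩ | ⟨rfl, rfl⟩)
      · refine ⟨fun h' => h0 (congrArg Prod.fst h'), ?_⟩
        ext <;> simp [h2]
      · refine ⟨fun h' => h0 (congrArg Prod.snd h'), ?_⟩
        ext <;> simp [h2]
      · refine ⟨fun h' => h0 (congrArg Prod.fst h'), ?_⟩
        ext <;> simp [h2]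
  rw [this]
  rw [Finset.card_insert_of_notMem, Finset.card_insert_of_notMem, Finset.card_singleton]
  · simp only [Finset.mem_singleton, Prod.mk.injEq, not_and]
    intro h3
    exact absurd h3.symm h0
  · simp only [Finset.mem_insert, Finset.mem_singleton, Prod.mk.injEq, not_or, not_and]
    exact ⟨fun h3 => absurd h3 h0, fun _ h3 => absurd h3.symm h0⟩

end Model

end Cfsg.Agent.H15.Homo
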