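import Cfsg.Agent.Lib.H15.HomoG
import Cfsg.Agent.Lib.H21.Subsec3
import Cfsg.Agent.Lib.H21.KleinOrder

/-! # Fourier analysis of the principal 2-block on a homocyclic Sylow subgroup -/

set_option autoImplicit false
set_option linter.unusedSectionVars false
set_option linter.style.haveILetI false
set_option linter.unusedSimpArgs false

namespace Cfsg.Agent.H15.Homo

open Cfsg Cfsg.Agent.H21 Cfsg.Agent.H22
open scoped ComplexConjugate

universe u

variable {G : Type u} [Group G] [Finite G] {M : Ideal AlgInt} [hMp : M.IsPrime]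

/-- Orthogonality of the principal block across sections. -/
theorem section_orth (hM : IsPModular 2 M) {x g : G} {k : ℕ} (hx : orderOf x = 2 ^ k)
    (hnc : ∀ c : Subgroup.centralizer ({x} : Set G), ¬ 2 ∣ orderOf c → ¬ IsConj (x * (c : G)) g) :
    ∑ ζ : IrrCharacter G, eB (principalBlock M G) ζ * (ζ.1 x * conj (ζ.1 g)) = 0 := by
  classical
  have h1r : ¬ 2 ∣ orderOf (1 : Subgroup.centralizer ({x} : Set G)) := by
    rw [orderOf_one]
    norm_num
  have hb : IsPBlock M (principalBlock M (Subgroup.centralizer ({x} : Set G))) :=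
    principalBlock_isBlock
  have key : ∀ ζ : IrrCharacter G, eB (principalBlock M G) ζ * (ζ.1 x * conj (ζ.1 g)) =
      (Nat.card (Subgroup.centralizer ({x} : Set G)) : ℂ)⁻¹ *
        ∑ c : Subgroup.centralizer ({x} : Set G),
          kerK (principalBlock M (Subgroup.centralizer ({x} : Set G))) 1 c *
            (ζ.1 (x * (c : G)) * conj (ζ.1 g)) := by
    intro ζ
    have h2 := eB_mul_section_eq hM hx ζ 1 h1r
    simp only [Subgroup.coe_one, mul_one] at h2
    rw [← mul_assoc, h2, blockPart_eq_kernel, mul_assoc, Finset.sum_mul]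
    congr 1
    refine Finset.sum_congr rfl fun c _ => ?_
    ring
  simp only [key]
  rw [← Finset.mul_sum, Finset.sum_comm, Finset.sum_eq_zero, mul_zero]
  intro c _
  rw [← Finset.mul_sum]
  by_cases hc : 2 ∣ orderOf c
  · rw [kerK_singular hM hb h1r hc, zero_mul]
  · rw [column_orthogonality_of_not_isConj (hnc c hc), mul_zero]

/-- The fusion data. -/
structure FD (G : Type u) [Group G] (A : Type) [AddCommGroup A] where
  ι : A → G
  ι_add : ∀ a b, ι (a + b) = ι a * ι b
  ι_inj : Function.Injective ι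
  ord : ∀ a, ∃ k : ℕ, orderOf (ι a) = 2 ^ k
  τ : A →+ A
  τ3 : ∀ a, τ (τ (τ a)) = a
  τfix : ∀ a, τ a = a → a = 0
  conj_iff : ∀ a b, a ≠ 0 → (IsConj (ι a) (ι b) ↔ b = a ∨ b = τ a ∨ b = τ (τ a))

variable {A : Type} [AddCommGroup A] (D : FD G A)

namespace FD

theorem ι_zero : D.ι 0 = 1 := by
  have h := D.ι_add 0 0
  rw [add_zero] at h
  exact (left_eq_mul.mp h)

theorem ι_eq_one {a : A} : D.ι a = 1 ↔ a = 0 := by
  constructor
  · intro h
    apply D.ι_inj
    rw [h, ι_zero]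
  · rintro rfl
    exact D.ι_zero

theorem ι_neg (a : A) : D.ι (-a) = (D.ι a)⁻¹ := by
  rw [eq_inv_iff_mul_eq_one, ← D.ι_add, neg_add_cancel, ι_zero]

theorem ι_nsmul (n : ℕ) (a : A) : D.ι (n • a) = D.ι a ^ n := by
  induction n with
  | zero => simp [ι_zero]
  | succ n ih => rw [succ_nsmul, D.ι_add, ih, pow_succ]

theorem τ_inj : Function.Injective D.τ := by
  intro a b h
  have h1 := D.τ3 a
  rw [h, D.τ3] at h1
  exact h1.symm

theorem τ_ne {a : A} (ha : a ≠ 0) : D.τ a ≠ a := fun h => ha (D.τfix a h)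

theorem ττ_ne {a : A} (ha : a ≠ 0) : D.τ (D.τ a) ≠ a := by
  intro h
  apply ha
  apply D.τfix
  have := D.τ3 a
  rw [h] at this
  exact this

theorem τττ_ne {a : A} (ha : a ≠ 0) : D.τ (D.τ a) ≠ D.τ a :=
  D.τ_ne (fun h0 => ha (D.τ_inj (by rw [h0, map_zero])))

/-- The bijection of `A` given by `τ`. -/
def τe : Equiv.Perm A where
  toFun := D.τ
  invFun := fun a => D.τ (D.τ a)
  left_inv := D.τ3
  right_inv := D.τ3

@[simp] theorem τe_apply (a : A) : D.τe a = D.τ a := rfl

theorem conj_τ (a : A) : IsConj (D.ι a) (D.ι (D.τ a)) := by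
  by_cases ha : a = 0
  · rw [ha, map_zero]
  · exact (D.conj_iff a (D.τ a) ha).mpr (Or.inr (Or.inl rfl))

end FD

variable [Fintype A] [DecidableEq A]

/-- The multiplicity differences. -/
noncomputable def nC (χ : G → ℂ) (ψ : AddChar A ℂ) : ℂ :=
  (Fintype.card A : ℂ)⁻¹ * ∑ a : A, χ (D.ι a) * (ψ (-a) - 1)

theorem card_ne : (Fintype.card A : ℂ) ≠ 0 := by
  exact_mod_cast Fintype.card_ne_zero

@[simp] theorem nC_one_right (χ : G → ℂ) : nC D χ (1 : AddChar A ℂ) = 0 := by
  unfold nC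
  simp

theorem sum_neg_char {ψ : AddChar A ℂ} (hψ : ψ ≠ 1) : ∑ a : A, ψ (-a) = 0 := by
  have h := Equiv.sum_comp (Equiv.neg A) (fun a => ψ a)
  simp only [Equiv.neg_apply] at h
  rw [h]
  exact AddChar.sum_eq_zero_of_ne_one hψ

theorem nC_trivial {ψ : AddChar A ℂ} (hψ : ψ ≠ 1) : nC D (fun _ => (1 : ℂ)) ψ = -1 := by
  unfold nC
  simp only [one_mul]
  rw [Finset.sum_sub_distrib, sum_neg_char hψ]
  simp only [Finset.sum_const, Finset.card_univ, nsmul_eq_mul, mul_one, zero_sub]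
  rw [mul_neg, inv_mul_cancel₀ card_ne]

/-- The twist of a character by `τ`. -/
def twist (ψ : AddChar A ℂ) : AddChar A ℂ := ψ.compAddMonoidHom D.τ

@[simp] theorem twist_apply (ψ : AddChar A ℂ) (a : A) : twist D ψ a = ψ (D.τ a) := rfl

theorem twist_three (ψ : AddChar A ℂ) : twist D (twist D (twist D ψ)) = ψ := by
  ext a
  simp [D.τ3]

theorem twist_ne_one {ψ : AddChar A ℂ} (hψ : ψ ≠ 1) : twist D ψ ≠ 1 := by
  intro h
  apply hψ
  ext a
  have h1 := congrArg (fun φ : AddChar A ℂ => φ (D.τ (D.τ a))) h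
  simpa [D.τ3] using h1

theorem nC_twist {χ : G → ℂ} (hχ : ∀ g h : G, χ (h * g * h⁻¹) = χ g) (ψ : AddChar A ℂ) :
    nC D χ (twist D ψ) = nC D χ ψ := by
  unfold nC
  congr 1
  rw [← Equiv.sum_comp D.τe (fun a => χ (D.ι a) * (ψ (-a) - 1))]
  refine Finset.sum_congr rfl fun a _ => ?_
  simp only [FD.τe_apply, twist_apply, map_neg]
  obtain ⟨c, hc⟩ := isConj_iff.mp (D.conj_τ a)
  rw [← hc, hχ]

/-- Fixed points of the twist are trivial. -/
theorem twist_fix {ψ : AddChar A ℂ} (h : twist D ψ = ψ) : ψ = 1 := by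
  classical
  -- `τ - 1` is surjective
  let s : A →+ A := D.τ - AddMonoidHom.id A
  have hinj : Function.Injective s := by
    rw [injective_iff_map_eq_zero]
    intro a ha
    apply D.τfix
    have : D.τ a - a = 0 := ha
    exact sub_eq_zero.mp this
  have hsurj : Function.Surjective s := Finite.surjective_of_injective hinj
  ext a
  obtain ⟨b, rfl⟩ := hsurj a
  have h1 : s b = D.τ b - b := rfl
  rw [h1, sub_eq_add_neg, AddChar.map_add_eq_mul]
  have h2 := congrArg (fun φ : AddChar A ℂ => φ b) h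
  simp only [twist_apply] at h2
  rw [h2, AddChar.one_apply, ← AddChar.map_add_eq_mul, add_neg_cancel, AddChar.map_zero_eq_one]

/-- The three twists of a nontrivial character are distinct. -/
theorem twist_ne {ψ : AddChar A ℂ} (hψ : ψ ≠ 1) : twist D ψ ≠ ψ :=
  fun h => hψ (twist_fix D h)

theorem twist_twist_ne {ψ : AddChar A ℂ} (hψ : ψ ≠ 1) : twist D (twist D ψ) ≠ ψ := by
  intro h
  apply hψ
  apply twist_fix D
  have h1 := twist_three D ψ
  rw [h] at h1
  exact h1

/-- Inversion formula. -/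
theorem nC_inversion (χ : G → ℂ) {a : A} (ha : a ≠ 0) :
    ∑ φ : AddChar A ℂ, nC D χ φ * φ a = χ (D.ι a) := by
  classical
  unfold nC
  have h1 : ∀ φ : AddChar A ℂ, ((Fintype.card A : ℂ)⁻¹ * ∑ b : A, χ (D.ι b) * (φ (-b) - 1)) * φ a =
      (Fintype.card A : ℂ)⁻¹ * ∑ b : A, χ (D.ι b) * (φ (a - b) - φ a) := by
    intro φ
    rw [mul_assoc, Finset.sum_mul]
    congr 1
    refine Finset.sum_congr rfl fun b _ => ?_
    rw [sub_eq_add_neg a b, AddChar.map_add_eq_mul]
    ring
  simp only [h1]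
  rw [← Finset.mul_sum, Finset.sum_comm]
  have h2 : ∀ b : A, ∑ φ : AddChar A ℂ, χ (D.ι b) * (φ (a - b) - φ a) =
      χ (D.ι b) * (if b = a then (Fintype.card A : ℂ) else 0) := by
    intro b
    rw [← Finset.mul_sum, Finset.sum_sub_distrib, AddChar.sum_apply_eq_ite, AddChar.sum_apply_eq_ite,
      if_neg ha, sub_zero]
    congr 1
    by_cases hb : b = a
    · rw [if_pos (sub_eq_zero.mpr hb.symm), if_pos hb]
    · rw [if_neg (fun h => hb (sub_eq_zero.mp h).symm), if_neg hb]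
  simp only [h2]
  rw [Finset.sum_eq_single a]
  · rw [if_pos rfl, ← mul_assoc, mul_comm, ← mul_assoc, mul_inv_cancel₀ card_ne, one_mul]
  · intro b _ hb
    rw [if_neg hb, mul_zero]
  · intro h
    exact absurd (Finset.mem_univ _) h

/-- The inner product of two characters. -/
theorem char_inner {ψ φ : AddChar A ℂ} (hψ : ψ ≠ 1) (hφ : φ ≠ 1) :
    (Fintype.card A : ℂ)⁻¹ * ∑ a : A, (ψ (-a) - 1) * (φ a - 1) =
      (if ψ = φ then 1 else 0) + 1 := by
  classical
  have h1 : ∀ a : A, (ψ (-a) - 1) * (φ a - 1) = (ψ⁻¹ * φ) a - ψ (-a) - φ a + 1 := by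
    intro a
    rw [AddChar.mul_apply, AddChar.inv_apply]
    ring
  simp only [h1]
  rw [Finset.sum_add_distrib, Finset.sum_sub_distrib, Finset.sum_sub_distrib, sum_neg_char hψ,
    AddChar.sum_eq_zero_of_ne_one hφ]
  simp only [Finset.sum_const, Finset.card_univ, nsmul_eq_mul, mul_one, sub_zero]
  rw [mul_add, inv_mul_cancel₀ card_ne]
  congr 1
  by_cases h : ψ = φ
  · subst h
    rw [if_pos rfl, inv_mul_cancel]
    simp [inv_mul_cancel₀ card_ne]
  · rw [if_neg h, AddChar.sum_eq_zero_of_ne_one, mul_zero]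
    intro h2
    apply h
    rw [inv_mul_eq_one] at h2
    exact h2

section Block

variable (hM : IsPModular 2 M)

/-- Values on the orbit. -/
theorem irr_τ (ζ : IrrCharacter G) (a : A) : ζ.1 (D.ι (D.τ a)) = ζ.1 (D.ι a) := by
  obtain ⟨c, hc⟩ := isConj_iff.mp (D.conj_τ a)
  rw [← hc, irr_conj']

include hM in
/-- Orthogonality on the Sylow subgroup: different orbits. -/
theorem W_not_conj {a b : A} (hab : ¬ IsConj (D.ι a) (D.ι b)) :
    ∑ ζ : IrrCharacter G, eB (principalBlock M G) ζ * (ζ.1 (D.ι a) * conj (ζ.1 (D.ι b))) = 0 := by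
  obtain ⟨k, hk⟩ := D.ord a
  apply section_orth hM hk
  intro c hc hconj
  obtain ⟨u, hu⟩ := isConj_iff.mp hconj
  have hp1 : IsPPart 2 (D.ι a * (c : G)) (D.ι a) := isPPart_mul_centralizer c hk hc
  have hp2 := isPPart_conj hp1 u
  rw [hu] at hp2
  have hp3 : IsPPart 2 (D.ι b) (D.ι b) :=
    ⟨1, mul_one _, Commute.one_right _, D.ord b, by rw [orderOf_one]; norm_num⟩
  have h1 := pPart_unique hp2 hp3
  exact hab (isConj_iff.mpr ⟨u, h1⟩)

include hM in
/-- The sum of a function over a row of the block column matrix. -/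
theorem col_sum (hnorm : ∀ a : A, a ≠ 0 → ∑ ζ : IrrCharacter G, eB (principalBlock M G) ζ *
      (ζ.1 (D.ι a) * conj (ζ.1 (D.ι a))) = (Fintype.card A : ℂ)) {a : A} (ha : a ≠ 0)
    (f : A → ℂ) (hf : f 0 = 0) :
    ∑ b : A, f b * ∑ ζ : IrrCharacter G, eB (principalBlock M G) ζ *
      (ζ.1 (D.ι a) * conj (ζ.1 (D.ι b))) =
      (Fintype.card A : ℂ) * (f a + f (D.τ a) + f (D.τ (D.τ a))) := by
  classical
  have hself : ∑ ζ : IrrCharacter G, eB (principalBlock M G) ζ *
      (ζ.1 (D.ι a) * conj (ζ.1 (D.ι a))) = (Fintype.card A : ℂ) := hnorm a ha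
  have h1 : ∀ ζ : IrrCharacter G, ζ.1 (D.ι (D.τ (D.τ a))) = ζ.1 (D.ι a) := fun ζ => by
    rw [irr_τ, irr_τ]
  rw [← Finset.sum_subset (Finset.subset_univ ({a, D.τ a, D.τ (D.τ a)} : Finset A))]
  · rw [Finset.sum_insert, Finset.sum_insert, Finset.sum_singleton]
    · simp only [irr_τ D, h1, hself]
      ring
    · rw [Finset.mem_singleton]
      exact (D.τττ_ne ha).symm
    · rw [Finset.mem_insert, Finset.mem_singleton, not_or]
      exact ⟨(D.τ_ne ha).symm, (D.ττ_ne ha).symm⟩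
  · intro b _ hb
    simp only [Finset.mem_insert, Finset.mem_singleton, not_or] at hb
    by_cases hb0 : b = 0
    · rw [hb0, hf, zero_mul]
    · rw [W_not_conj D hM, mul_zero]
      rw [D.conj_iff a b ha]
      tauto

end Block

end Cfsg.Agent.H15.Homo
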