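import Cfsg.Agent.Lib.H15.HomoC1
import Cfsg.Agent.Lib.H10.CharGen
import Cfsg.Agent.Lib.H21.CharInd

/-! # Gram matrix and relations for the principal 2-block -/

set_option autoImplicit false
set_option linter.unusedSectionVars false
set_option linter.style.haveILetI false
set_option linter.unusedSimpArgs false

namespace Cfsg.Agent.H15.Homo

open Cfsg Cfsg.Agent.H21 Cfsg.Agent.H22
open scoped ComplexConjugate

universe u

variable {G : Type u} [Group G] [Finite G] {M : Ideal AlgInt} [hMp : M.IsPrime]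
variable {A : Type} [AddCommGroup A] (D : FD G A) [Fintype A] [DecidableEq A]

theorem char_neg_conj (φ : AddChar A ℂ) (b : A) : conj (φ (-b)) = φ b := by
  rw [AddChar.map_neg_eq_conj, Complex.conj_conj]

theorem conj_nC (χ : G → ℂ) (φ : AddChar A ℂ) :
    conj (nC D χ φ) = (Fintype.card A : ℂ)⁻¹ * ∑ b : A, conj (χ (D.ι b)) * (φ b - 1) := by
  unfold nC
  rw [map_mul, map_inv₀, Complex.conj_natCast, map_sum]
  congr 1
  refine Finset.sum_congr rfl fun b _ => ?_
  rw [map_mul, map_sub, map_one, char_neg_conj]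

section Block

variable (hM : IsPModular 2 M)

include hM in
/-- The Gram matrix of the multiplicity differences over the principal block. -/
theorem gram (hnorm : ∀ a : A, a ≠ 0 → ∑ ζ : IrrCharacter G, eB (principalBlock M G) ζ *
      (ζ.1 (D.ι a) * conj (ζ.1 (D.ι a))) = (Fintype.card A : ℂ))
    {ψ φ : AddChar A ℂ} (hψ : ψ ≠ 1) (hφ : φ ≠ 1) :
    ∑ ζ : IrrCharacter G, eB (principalBlock M G) ζ * (nC D ζ.1 ψ * conj (nC D ζ.1 φ)) =
      3 + (if ψ = φ then 1 else 0) + (if ψ = twist D φ then 1 else 0) +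
        (if ψ = twist D (twist D φ) then 1 else 0) := by
  classical
  set q : ℂ := (Fintype.card A : ℂ) with hq
  have hq0 : q ≠ 0 := card_ne
  have h1 : ∀ ζ : IrrCharacter G, eB (principalBlock M G) ζ * (nC D ζ.1 ψ * conj (nC D ζ.1 φ)) =
      q⁻¹ * (q⁻¹ * ∑ a : A, (ψ (-a) - 1) * ∑ b : A, (φ b - 1) *
        (eB (principalBlock M G) ζ * (ζ.1 (D.ι a) * conj (ζ.1 (D.ι b))))) := by
    intro ζ
    rw [conj_nC]
    unfold nC
    have h2 : (∑ a : A, ζ.1 (D.ι a) * (ψ (-a) - 1)) * (∑ b : A, conj (ζ.1 (D.ι b)) * (φ b - 1)) *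
        eB (principalBlock M G) ζ = ∑ a : A, (ψ (-a) - 1) * ∑ b : A, (φ b - 1) *
        (eB (principalBlock M G) ζ * (ζ.1 (D.ι a) * conj (ζ.1 (D.ι b)))) := by
      rw [Finset.sum_mul, Finset.sum_mul]
      refine Finset.sum_congr rfl fun a _ => ?_
      rw [Finset.mul_sum, Finset.mul_sum, Finset.sum_mul]
      refine Finset.sum_congr rfl fun b _ => ?_
      ring
    rw [← h2]
    ring
  simp only [h1]
  rw [← Finset.mul_sum, ← Finset.mul_sum, Finset.sum_comm]
  have h2 : ∀ a : A, ∑ ζ : IrrCharacter G, (ψ (-a) - 1) * ∑ b : A, (φ b - 1) *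
        (eB (principalBlock M G) ζ * (ζ.1 (D.ι a) * conj (ζ.1 (D.ι b)))) =
      q * ((ψ (-a) - 1) * (φ a - 1) + (ψ (-a) - 1) * (twist D φ a - 1) +
        (ψ (-a) - 1) * (twist D (twist D φ) a - 1)) := by
    intro a
    by_cases ha : a = 0
    · subst ha
      simp
    · rw [← Finset.mul_sum]
      have h3 : ∑ ζ : IrrCharacter G, ∑ b : A, (φ b - 1) *
          (eB (principalBlock M G) ζ * (ζ.1 (D.ι a) * conj (ζ.1 (D.ι b)))) =
          ∑ b : A, (φ b - 1) * ∑ ζ : IrrCharacter G, eB (principalBlock M G) ζ *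
            (ζ.1 (D.ι a) * conj (ζ.1 (D.ι b))) := by
        rw [Finset.sum_comm]
        refine Finset.sum_congr rfl fun b _ => ?_
        rw [Finset.mul_sum]
      rw [h3, col_sum D hM hnorm ha (fun b => φ b - 1) (by simp)]
      simp only [twist_apply]
      ring
  simp only [h2]
  rw [← Finset.mul_sum, ← mul_assoc q⁻¹ q, inv_mul_cancel₀ hq0, one_mul,
    Finset.sum_add_distrib, Finset.sum_add_distrib, mul_add, mul_add, char_inner hψ hφ,
    char_inner hψ (twist_ne_one D hφ), char_inner hψ (twist_ne_one D (twist_ne_one D hφ))]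
  ring

include hM in
/-- The regular relation. -/
theorem reg_rel {y : G} (hy : ¬ 2 ∣ orderOf y) (ψ : AddChar A ℂ) :
    ∑ ζ : IrrCharacter G, eB (principalBlock M G) ζ * (ζ.1 y * nC D ζ.1 ψ) = 0 := by
  classical
  have h1 : ∀ ζ : IrrCharacter G, eB (principalBlock M G) ζ * (ζ.1 y * nC D ζ.1 ψ) =
      (Fintype.card A : ℂ)⁻¹ * ∑ a : A, (ψ (-a) - 1) *
        (eB (principalBlock M G) ζ * (ζ.1 y * ζ.1 (D.ι a))) := by
    intro ζ
    unfold nC
    rw [mul_left_comm (ζ.1 y), mul_left_comm (eB _ ζ), Finset.mul_sum, Finset.mul_sum]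
    congr 1
    refine Finset.sum_congr rfl fun a _ => ?_
    ring
  simp only [h1]
  rw [← Finset.mul_sum, Finset.sum_comm, Finset.sum_eq_zero, mul_zero]
  intro a _
  by_cases ha : a = 0
  · subst ha
    simp
  · rw [← Finset.mul_sum]
    have h2 : ∀ ζ : IrrCharacter G, ζ.1 (D.ι a) = conj (ζ.1 (D.ι (-a))) := by
      intro ζ
      rw [D.ι_neg, irr_inv', Complex.conj_conj]
    simp only [h2]
    obtain ⟨k, hk⟩ := D.ord (-a)
    have hk0 : k ≠ 0 := by
      rintro rfl
      have h3 : D.ι (-a) = 1 := by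
        rw [← orderOf_eq_one_iff, hk, pow_zero]
      rw [D.ι_eq_one] at h3
      exact ha (neg_eq_zero.mp h3)
    have hd : 2 ∣ orderOf (D.ι (-a)) := by
      rw [hk]
      exact dvd_pow_self 2 hk0
    rw [block_orth_regular_singular hM principalBlock_isBlock hy hd, mul_zero]

include hM in
/-- The involution-product vanishing. -/
theorem inv_prod_vanish {J : G} {m : ℕ} (hexp : ∀ a : A, 2 ^ m • a = 0)
    (hJ : ∀ x : G, IsConj x J → ∃ n : ℕ, Odd n ∧ ((x * J) ^ 2) ^ n = 1) {b : A} (hb : 2 • b ≠ 0) :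
    ∑ ζ : IrrCharacter G, eB (principalBlock M G) ζ *
      ((ζ.1 J * ζ.1 J / ζ.1 1) * conj (ζ.1 (D.ι b))) = 0 := by
  classical
  have hpoint : ∀ x : G, IsConj x J → ∑ ζ : IrrCharacter G, eB (principalBlock M G) ζ *
      (ζ.1 (x * J) * conj (ζ.1 (D.ι b))) = 0 := by
    intro x hx
    obtain ⟨n, hn, hn1⟩ := hJ x hx
    obtain ⟨k, hk⟩ := D.ord b
    have h0 := section_orth hM (g := x * J) hk (by
      intro c hc hconj
      obtain ⟨u, hu⟩ := isConj_iff.mp hconj
      have h1 : ((D.ι b * (c : G)) ^ 2) ^ n = 1 := by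
        have h2 : u * (((D.ι b * (c : G)) ^ 2) ^ n) * u⁻¹ = ((x * J) ^ 2) ^ n := by
          rw [← hu, ← conj_pow, ← conj_pow]
        rw [hn1] at h2
        have h3 := conj_eq_one_iff.mp h2
        exact h3
      have hcomm : Commute (D.ι b) (c : G) :=
        (Subgroup.mem_centralizer_singleton_iff.mp c.2).symm
      have h4 : D.ι b ^ (2 * n) * (c : G) ^ (2 * n) = 1 := by
        rw [← hcomm.mul_pow, pow_mul]
        exact h1
      have h5 : D.ι b ^ (2 * n * orderOf (c : G)) = 1 := by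
        have h6 : (D.ι b ^ (2 * n) * (c : G) ^ (2 * n)) ^ orderOf (c : G) = 1 := by
          rw [h4, one_pow]
        rw [(hcomm.pow_pow _ _).mul_pow, ← pow_mul, ← pow_mul, mul_comm (2 * n) (orderOf (c : G)),
          pow_mul (c : G), pow_orderOf_eq_one, one_pow, mul_one, mul_comm] at h6
        exact h6
      have hcodd : Odd (orderOf (c : G)) := by
        rw [← Nat.not_even_iff_odd, even_iff_two_dvd, Subgroup.orderOf_coe]
        exact hc
      have hodd : Odd (n * orderOf (c : G)) := hn.mul hcodd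
      have h7 : (n * orderOf (c : G)) • (2 • b) = 0 := by
        apply D.ι_inj
        rw [D.ι_nsmul, D.ι_nsmul, D.ι_zero, ← pow_mul]
        rw [show 2 * (n * orderOf (c : G)) = 2 * n * orderOf (c : G) by ring]
        exact h5
      have h8 : 2 ^ m • (2 • b) = 0 := by
        rw [smul_comm, hexp, smul_zero]
      have hcop : Nat.Coprime (n * orderOf (c : G)) (2 ^ m) := by
        apply Nat.Coprime.pow_right
        exact Nat.coprime_two_right.mpr hodd
      have h9 := addOrderOf_dvd_of_nsmul_eq_zero h7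
      have h10 := addOrderOf_dvd_of_nsmul_eq_zero h8
      have h11 := Nat.eq_one_of_dvd_coprimes hcop h9 h10
      exact hb (AddMonoid.addOrderOf_eq_one_iff.mp h11))
    have h1 := congrArg (starRingEnd ℂ) h0
    rw [map_sum, map_zero] at h1
    rw [← h1]
    refine Finset.sum_congr rfl fun ζ _ => ?_
    rw [map_mul, map_mul, Complex.conj_conj, eB_conj]
    ring
  have h1 : ∑ x : G, classIndicator J x * ∑ χ : IrrCharacter G,
      eB (principalBlock M G) χ * (χ.1 (x * J) * conj (χ.1 (D.ι b))) = 0 := by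
    apply Finset.sum_eq_zero
    intro x _
    by_cases hx : IsConj x J
    · rw [hpoint x hx, mul_zero]
    · unfold classIndicator
      rw [if_neg hx, zero_mul]
  have h3 : ∑ x : G, classIndicator J x * ∑ χ : IrrCharacter G,
        eB (principalBlock M G) χ * (χ.1 (x * J) * conj (χ.1 (D.ι b))) =
      ((Subgroup.centralizer ({J} : Set G)).index : ℂ) *
        ∑ χ : IrrCharacter G, eB (principalBlock M G) χ *
          ((χ.1 J * χ.1 J / χ.1 1) * conj (χ.1 (D.ι b))) := by
    simp only [Finset.mul_sum]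
    rw [Finset.sum_comm]
    refine Finset.sum_congr rfl fun χ _ => ?_
    have h4 := sum_class_mul_char (classIndicator J) (classIndicator_isClass J) χ J
    rw [om_classIndicator] at h4
    unfold cc centralChar at h4
    have h5 : ∑ x : G, classIndicator J x * (eB (principalBlock M G) χ *
        (χ.1 (x * J) * conj (χ.1 (D.ι b)))) =
        eB (principalBlock M G) χ * conj (χ.1 (D.ι b)) * ∑ x : G, classIndicator J x * χ.1 (x * J) := by
      rw [Finset.mul_sum]
      refine Finset.sum_congr rfl fun x _ => ?_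
      ring
    rw [h5, h4]
    ring
  rw [h1] at h3
  have hind : ((Subgroup.centralizer ({J} : Set G)).index : ℂ) ≠ 0 := by
    exact_mod_cast Subgroup.index_ne_zero_of_finite
  exact (mul_eq_zero.mp h3.symm).resolve_left hind

include hM in
/-- The relation with squares of values at an involution. -/
theorem e1_rel {J : G} {m : ℕ} (hexp : ∀ a : A, 2 ^ m • a = 0)
    (hJ : ∀ x : G, IsConj x J → ∃ n : ℕ, Odd n ∧ ((x * J) ^ 2) ^ n = 1) {ψ : AddChar A ℂ}
    (hψ : ∀ v : A, 2 • v = 0 → ψ v = 1) :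
    ∑ ζ : IrrCharacter G, eB (principalBlock M G) ζ * ((ζ.1 J * ζ.1 J / ζ.1 1) * nC D ζ.1 ψ) = 0 := by
  classical
  have h1 : ∀ ζ : IrrCharacter G, eB (principalBlock M G) ζ *
      ((ζ.1 J * ζ.1 J / ζ.1 1) * nC D ζ.1 ψ) =
      (Fintype.card A : ℂ)⁻¹ * ∑ a : A, (ψ (-a) - 1) *
        (eB (principalBlock M G) ζ * ((ζ.1 J * ζ.1 J / ζ.1 1) * ζ.1 (D.ι a))) := by
    intro ζ
    unfold nC
    rw [mul_left_comm (ζ.1 J * ζ.1 J / ζ.1 1), mul_left_comm (eB _ ζ), Finset.mul_sum, Finset.mul_sum]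
    congr 1
    refine Finset.sum_congr rfl fun a _ => ?_
    ring
  simp only [h1]
  rw [← Finset.mul_sum, Finset.sum_comm, Finset.sum_eq_zero, mul_zero]
  intro a _
  by_cases ha : 2 • a = 0
  · have h2 : ψ (-a) = 1 := hψ _ (by rw [smul_neg, ha, neg_zero])
    rw [h2]
    simp
  · rw [← Finset.mul_sum]
    have h2 : ∀ ζ : IrrCharacter G, ζ.1 (D.ι a) = conj (ζ.1 (D.ι (-a))) := by
      intro ζ
      rw [D.ι_neg, irr_inv', Complex.conj_conj]
    simp only [h2]
    rw [inv_prod_vanish D hM hexp hJ (b := -a) (by rwa [smul_neg, neg_ne_zero]), mul_zero]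

end Block

section Integrality

/-- The embedding as a homomorphism. -/
def ιHom : Multiplicative A →* G where
  toFun x := D.ι (Multiplicative.toAdd x)
  map_one' := D.ι_zero
  map_mul' x y := D.ι_add _ _

theorem cN_exists (ζ : IrrCharacter G) (ψ : AddChar A ℂ) :
    ∃ n : ℕ, (Fintype.card A : ℂ)⁻¹ * ∑ a : A, ζ.1 (D.ι a) * ψ (-a) = n := by
  classical
  let θ : Multiplicative A → ℂ := fun x => ψ (Multiplicative.toAdd x)
  have hθmul : ∀ x y, θ (x * y) = θ x * θ y := fun _ _ => AddChar.map_add_eq_mul ψ _ _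
  have hθ1 : θ 1 = 1 := AddChar.map_zero_eq_one ψ
  have hirr : IsIrrCharacter (Multiplicative A) θ := Cfsg.Agent.H10.isIrrCharacter_of_mul θ hθmul hθ1
  have hchar := isCharacter_comp (ιHom D) (isCharacter_of_irr ζ.2)
  obtain ⟨n, hn⟩ := classInner_isNat hchar ⟨θ, hirr⟩
  refine ⟨n, ?_⟩
  rw [← hn]
  unfold classInner
  have h1 : Nat.card (Multiplicative A) = Fintype.card A := by
    rw [Nat.card_congr Multiplicative.toAdd, Nat.card_eq_fintype_card]
  rw [h1]
  congr 1
  refine (Fintype.sum_equiv Multiplicative.toAdd _ _ fun x => ?_).symm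
  show ζ.1 (D.ι (Multiplicative.toAdd x)) * conj (ψ (Multiplicative.toAdd x)) = _
  rw [AddChar.map_neg_eq_conj]

theorem nC_int (ζ : IrrCharacter G) (ψ : AddChar A ℂ) : ∃ z : ℤ, nC D ζ.1 ψ = z := by
  obtain ⟨n, hn⟩ := cN_exists D ζ ψ
  obtain ⟨n', hn'⟩ := cN_exists D ζ (1 : AddChar A ℂ)
  refine ⟨(n : ℤ) - n', ?_⟩
  push_cast
  rw [← hn, ← hn']
  unfold nC
  rw [← mul_sub, ← Finset.sum_sub_distrib]
  congr 1
  refine Finset.sum_congr rfl fun a _ => ?_
  simp only [AddChar.one_apply]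
  ring

/-- The integer multiplicity differences. -/
noncomputable def nZ (ψ : AddChar A ℂ) (ζ : IrrCharacter G) : ℤ := (nC_int D ζ ψ).choose

theorem nZ_spec (ψ : AddChar A ℂ) (ζ : IrrCharacter G) : ((nZ D ψ ζ : ℤ) : ℂ) = nC D ζ.1 ψ :=
  (nC_int D ζ ψ).choose_spec.symm

/-- The natural number attached to the trivial character of the Sylow subgroup. -/
theorem cN_one (ζ : IrrCharacter G) :
    ∃ n : ℕ, ∑ a : A, ζ.1 (D.ι a) = (Fintype.card A : ℂ) * n := by
  obtain ⟨n, hn⟩ := cN_exists D ζ (1 : AddChar A ℂ)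
  refine ⟨n, ?_⟩
  rw [← hn, ← mul_assoc, mul_inv_cancel₀ card_ne, one_mul]
  simp

end Integrality

end Cfsg.Agent.H15.Homo
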