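import Mathlib

/-! # A sunflower lemma for integer vectors -/

set_option autoImplicit false
set_option linter.unusedSectionVars false

namespace Cfsg.Agent.H15.Homo

section Sets

variable {α : Type*} [DecidableEq α]

theorem sets_aux (𝒯 : Finset (Finset α)) (h3 : ∀ T ∈ 𝒯, T.card = 3)
    (h2 : ∀ T ∈ 𝒯, ∀ T' ∈ 𝒯, T ≠ T' → (T ∩ T').card = 2) (h5 : 5 ≤ 𝒯.card)
    {T₁ T₂ T₃ : Finset α} (h₁ : T₁ ∈ 𝒯) (h₂ : T₂ ∈ 𝒯) (h₃ : T₃ ∈ 𝒯) {a b : α}
    (hab : a ≠ b) (hint : T₁ ∩ T₂ = {a, b}) (ha : a ∉ T₃) : False := by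
  have ha1 : a ∈ T₁ := (Finset.mem_inter.mp (by rw [hint]; simp)).1
  have ha2 : a ∈ T₂ := (Finset.mem_inter.mp (by rw [hint]; simp)).2
  have hb1 : b ∈ T₁ := (Finset.mem_inter.mp (by rw [hint]; simp)).1
  have hb2 : b ∈ T₂ := (Finset.mem_inter.mp (by rw [hint]; simp)).2
  have hne13 : T₁ ≠ T₃ := fun h => ha (h ▸ ha1)
  have hne23 : T₂ ≠ T₃ := fun h => ha (h ▸ ha2)
  -- the union has four elements
  have hcardU : (T₁ ∪ T₂).card = 4 := by
    have h := Finset.card_union_add_card_inter T₁ T₂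
    rw [hint, Finset.card_pair hab, h3 _ h₁, h3 _ h₂] at h
    omega
  -- `T₃` is a subset of the union: the elements of T₁, T₂ other than `a` lie in `T₃`
  have hsub : ∀ {T : Finset α}, T ∈ 𝒯 → a ∈ T → T ≠ T₃ → T.erase a ⊆ T₃ := by
    intro T hT haT hne'
    have hc : (T ∩ T₃).card = 2 := h2 _ hT _ h₃ hne'
    have hs : T ∩ T₃ ⊆ T.erase a := by
      intro x hx
      rw [Finset.mem_inter] at hx
      rw [Finset.mem_erase]
      exact ⟨fun h => ha (h ▸ hx.2), hx.1⟩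
    have hce : (T.erase a).card = 2 := by
      rw [Finset.card_erase_of_mem haT, h3 _ hT]
    have heq := Finset.eq_of_subset_of_card_le hs (by rw [hc, hce])
    rw [← heq]
    exact Finset.inter_subset_right
  have hT3 : T₃ = (T₁ ∪ T₂).erase a := by
    symm
    apply Finset.eq_of_subset_of_card_le
    · intro x hx
      rw [Finset.mem_erase, Finset.mem_union] at hx
      rcases hx.2 with h | h
      · exact hsub h₁ ha1 hne13 (Finset.mem_erase.mpr ⟨hx.1, h⟩)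
      · exact hsub h₂ ha2 hne23 (Finset.mem_erase.mpr ⟨hx.1, h⟩)
    · rw [h3 _ h₃, Finset.card_erase_of_mem (Finset.mem_union_left _ ha1), hcardU]
  have hall : 𝒯 ⊆ Finset.powersetCard 3 (T₁ ∪ T₂) := by
    intro T hT
    rw [Finset.mem_powersetCard]
    refine ⟨?_, h3 _ hT⟩
    by_contra hcon
    obtain ⟨x, hxT, hxU⟩ := Finset.not_subset.mp hcon
    have hx1 : x ∉ T₁ := fun h => hxU (Finset.mem_union_left _ h)
    have hx2 : x ∉ T₂ := fun h => hxU (Finset.mem_union_right _ h)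
    have hx3 : x ∉ T₃ := by
      rw [hT3, Finset.mem_erase, not_and]
      intro _
      exact hxU
    have hce : (T.erase x).card = 2 := by
      rw [Finset.card_erase_of_mem hxT, h3 _ hT]
    have hsubx : ∀ {T' : Finset α}, T' ∈ 𝒯 → x ∉ T' → T.erase x ⊆ T' := by
      intro T' hT' hxT'
      have hne' : T ≠ T' := fun h => hxT' (h ▸ hxT)
      have hc := h2 _ hT _ hT' hne'
      have hs : T ∩ T' ⊆ T.erase x := by
        intro y hy
        rw [Finset.mem_inter] at hy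
        rw [Finset.mem_erase]
        exact ⟨fun h => hxT' (h ▸ hy.2), hy.1⟩
      have heq := Finset.eq_of_subset_of_card_le hs (by rw [hc, hce])
      rw [← heq]
      exact Finset.inter_subset_right
    have hs1 := hsubx h₁ hx1
    have hs2 := hsubx h₂ hx2
    have hs3 := hsubx h₃ hx3
    have hsb : T.erase x ⊆ {b} := by
      intro y hy
      have hy12 : y ∈ T₁ ∩ T₂ := Finset.mem_inter.mpr ⟨hs1 hy, hs2 hy⟩
      rw [hint, Finset.mem_insert, Finset.mem_singleton] at hy12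
      rcases hy12 with rfl | rfl
      · exact absurd (hs3 hy) ha
      · simp
    have := Finset.card_le_card hsb
    rw [hce, Finset.card_singleton] at this
    omega
  have := Finset.card_le_card hall
  rw [Finset.card_powersetCard, hcardU] at this
  have h4 : Nat.choose 4 3 = 4 := by decide
  omega

theorem sets_main (𝒯 : Finset (Finset α)) (h3 : ∀ T ∈ 𝒯, T.card = 3)
    (h2 : ∀ T ∈ 𝒯, ∀ T' ∈ 𝒯, T ≠ T' → (T ∩ T').card = 2) (h5 : 5 ≤ 𝒯.card) :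
    ∃ a b : α, a ≠ b ∧ ∀ T ∈ 𝒯, a ∈ T ∧ b ∈ T := by
  obtain ⟨T₁, h₁, T₂, h₂, hne⟩ := Finset.one_lt_card.mp (by omega : 1 < 𝒯.card)
  obtain ⟨a, b, hab, hint⟩ := Finset.card_eq_two.mp (h2 _ h₁ _ h₂ hne)
  refine ⟨a, b, hab, fun T hT => ⟨?_, ?_⟩⟩
  · by_contra ha
    exact sets_aux 𝒯 h3 h2 h5 h₁ h₂ hT hab hint ha
  · by_contra hb
    refine sets_aux 𝒯 h3 h2 h5 h₁ h₂ hT hab.symm ?_ hb
    rw [hint, Finset.pair_comm]

end Sets

section Vectors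

variable {α : Type*}

theorem sq_sum_three (S : Finset α) (x : α → ℤ) (h : ∑ χ ∈ S, x χ * x χ = 3) :
    ∀ χ ∈ S, x χ = 0 ∨ x χ = 1 ∨ x χ = -1 := by
  intro χ hχ
  have h1 : x χ * x χ ≤ ∑ χ ∈ S, x χ * x χ :=
    Finset.single_le_sum (f := fun χ => x χ * x χ) (fun i _ => mul_self_nonneg _) hχ
  rw [h] at h1
  have h2 : x χ ≤ 1 := by nlinarith
  have h3 : -1 ≤ x χ := by nlinarith
  omega

open Classical in
theorem sq_sum_card (S : Finset α) (x : α → ℤ) (h : ∑ χ ∈ S, x χ * x χ = 3) :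
    (S.filter fun χ => x χ ≠ 0).card = 3 := by
  have h1 := sq_sum_three S x h
  have h2 : ∑ χ ∈ S, x χ * x χ = ∑ χ ∈ S, if x χ ≠ 0 then 1 else 0 := by
    refine Finset.sum_congr rfl fun χ hχ => ?_
    rcases h1 χ hχ with h3 | h3 | h3 <;> simp [h3]
  rw [h2, ← Finset.sum_filter, Finset.sum_const, nsmul_eq_mul, mul_one] at h
  exact_mod_cast h

theorem sum_sub_sq (S : Finset α) (x y : α → ℤ) :
    ∑ χ ∈ S, (x χ - y χ) * (x χ - y χ) =
      ∑ χ ∈ S, x χ * x χ + ∑ χ ∈ S, y χ * y χ - 2 * ∑ χ ∈ S, x χ * y χ := by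
  rw [Finset.mul_sum, ← Finset.sum_add_distrib, ← Finset.sum_sub_distrib]
  exact Finset.sum_congr rfl fun χ _ => by ring

theorem eq_of_sum_three (S : Finset α) (x y : α → ℤ) (hx : ∑ χ ∈ S, x χ * x χ = 3)
    (hy : ∑ χ ∈ S, y χ * y χ = 3) (hxy : ∑ χ ∈ S, x χ * y χ = 3) : ∀ χ ∈ S, x χ = y χ := by
  have h := sum_sub_sq S x y
  rw [hx, hy, hxy] at h
  have h0 : ∑ χ ∈ S, (x χ - y χ) * (x χ - y χ) = 0 := by omega
  intro χ hχ
  have h1 := (Finset.sum_eq_zero_iff_of_nonneg (fun i _ => mul_self_nonneg (x i - y i))).mp h0 χ hχ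
  have h2 : x χ - y χ = 0 := by simpa using h1
  omega

theorem agree_of_sum_two (S : Finset α) (x y : α → ℤ) (hx : ∑ χ ∈ S, x χ * x χ = 3)
    (hy : ∑ χ ∈ S, y χ * y χ = 3) (hxy : ∑ χ ∈ S, x χ * y χ = 2) {χ : α} (hχ : χ ∈ S)
    (hx0 : x χ ≠ 0) (hy0 : y χ ≠ 0) : x χ = y χ := by
  have h := sum_sub_sq S x y
  rw [hx, hy, hxy] at h
  have h1 : (x χ - y χ) * (x χ - y χ) ≤ ∑ χ ∈ S, (x χ - y χ) * (x χ - y χ) :=
    Finset.single_le_sum (f := fun χ => (x χ - y χ) * (x χ - y χ))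
      (fun i _ => mul_self_nonneg _) hχ
  rw [h] at h1
  rcases sq_sum_three S x hx χ hχ with h2 | h2 | h2
  · exact absurd h2 hx0
  · rcases sq_sum_three S y hy χ hχ with h3 | h3 | h3
    · exact absurd h3 hy0
    · rw [h2, h3]
    · rw [h2, h3] at h1
      norm_num at h1
  · rcases sq_sum_three S y hy χ hχ with h3 | h3 | h3
    · exact absurd h3 hy0
    · rw [h2, h3] at h1
      norm_num at h1
    · rw [h2, h3]

open Classical in
theorem inter_card_two (S : Finset α) (x y : α → ℤ) (hx : ∑ χ ∈ S, x χ * x χ = 3)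
    (hy : ∑ χ ∈ S, y χ * y χ = 3) (hxy : ∑ χ ∈ S, x χ * y χ = 2) :
    ((S.filter fun χ => x χ ≠ 0) ∩ (S.filter fun χ => y χ ≠ 0)).card = 2 := by
  have h1 : ∑ χ ∈ S, x χ * y χ = ∑ χ ∈ S, if (x χ ≠ 0 ∧ y χ ≠ 0) then 1 else 0 := by
    refine Finset.sum_congr rfl fun χ hχ => ?_
    by_cases hx0 : x χ = 0
    · simp [hx0]
    by_cases hy0 : y χ = 0
    · simp [hy0]
    have h2 := agree_of_sum_two S x y hx hy hxy hχ hx0 hy0
    rw [if_pos ⟨hx0, hy0⟩, ← h2]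
    rcases sq_sum_three S x hx χ hχ with h3 | h3 | h3
    · exact absurd h3 hx0
    · rw [h3]; norm_num
    · rw [h3]; norm_num
  rw [h1, ← Finset.sum_filter, Finset.sum_const, nsmul_eq_mul, mul_one] at hxy
  have h2 : ((S.filter fun χ => x χ ≠ 0) ∩ (S.filter fun χ => y χ ≠ 0)) =
      S.filter fun χ => x χ ≠ 0 ∧ y χ ≠ 0 := by
    ext χ
    simp only [Finset.mem_inter, Finset.mem_filter]
    tauto
  rw [h2]
  exact_mod_cast hxy

/-- The main combinatorial statement: a family of integer vectors of norm `3` and pairwise inner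
products `2` or `3`. -/
theorem sunflower_main {Ψ : Type*} [Fintype Ψ] (S : Finset α) (u : Ψ → α → ℤ) (R : Ψ → Ψ → Prop)
    (hR : ∀ ψ φ, R ψ φ → ∑ χ ∈ S, u ψ χ * u φ χ = 3)
    (hnR : ∀ ψ φ, ¬ R ψ φ → ∑ χ ∈ S, u ψ χ * u φ χ = 2) (hrefl : ∀ ψ, R ψ ψ)
    (hfib : ∀ ψ, ∀ s : Finset Ψ, (∀ φ ∈ s, R ψ φ) → s.card ≤ 3) (hcard : 13 ≤ Fintype.card Ψ) :
    ∃ a ∈ S, ∃ b ∈ S, a ≠ b ∧ ∃ σ₁ σ₂ : ℤ, (σ₁ = 1 ∨ σ₁ = -1) ∧ (σ₂ = 1 ∨ σ₂ = -1) ∧
      ∃ (f : Ψ → α) (ε : Ψ → ℤ), ∀ ψ, f ψ ∈ S ∧ f ψ ≠ a ∧ f ψ ≠ b ∧ (ε ψ = 1 ∨ ε ψ = -1) ∧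
        u ψ a = σ₁ ∧ u ψ b = σ₂ ∧ u ψ (f ψ) = ε ψ ∧
        (∀ χ ∈ S, χ ≠ a → χ ≠ b → χ ≠ f ψ → u ψ χ = 0) ∧
        (∀ φ, R ψ φ → f φ = f ψ ∧ ε φ = ε ψ) ∧ (∀ φ, ¬ R ψ φ → f φ ≠ f ψ) := by
  classical
  have hnorm : ∀ ψ, ∑ χ ∈ S, u ψ χ * u ψ χ = 3 := fun ψ => hR ψ ψ (hrefl ψ)
  let T : Ψ → Finset α := fun ψ => S.filter fun χ => u ψ χ ≠ 0
  have hT3 : ∀ ψ, (T ψ).card = 3 := fun ψ => sq_sum_card S (u ψ) (hnorm ψ)
  have hmemT : ∀ {ψ χ}, χ ∈ T ψ ↔ χ ∈ S ∧ u ψ χ ≠ 0 := by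
    intro ψ χ
    simp [T]
  have hTR : ∀ ψ φ, R ψ φ → T ψ = T φ := by
    intro ψ φ h
    have h1 := eq_of_sum_three S (u ψ) (u φ) (hnorm ψ) (hnorm φ) (hR ψ φ h)
    ext χ
    rw [hmemT, hmemT]
    constructor
    · rintro ⟨h2, h3⟩
      exact ⟨h2, by rwa [← h1 χ h2]⟩
    · rintro ⟨h2, h3⟩
      exact ⟨h2, by rwa [h1 χ h2]⟩
  have hT2 : ∀ ψ φ, ¬ R ψ φ → (T ψ ∩ T φ).card = 2 := fun ψ φ h =>
    inter_card_two S (u ψ) (u φ) (hnorm ψ) (hnorm φ) (hnR ψ φ h)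
  have hTne : ∀ ψ φ, ¬ R ψ φ → T ψ ≠ T φ := by
    intro ψ φ h heq
    have := hT2 ψ φ h
    rw [heq, Finset.inter_self, hT3] at this
    omega
  let 𝒯 : Finset (Finset α) := Finset.univ.image T
  have h5 : 5 ≤ 𝒯.card := by
    have h1 := Finset.card_le_mul_card_image (f := T) (Finset.univ : Finset Ψ) 3 (by
      intro F hF
      obtain ⟨ψ, -, rfl⟩ := Finset.mem_image.mp hF
      apply hfib ψ
      intro φ hφ
      rw [Finset.mem_filter] at hφ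
      by_contra hnR'
      exact hTne ψ φ hnR' hφ.2.symm)
    rw [Finset.card_univ] at h1
    have h2 : 13 ≤ 3 * 𝒯.card := hcard.trans h1
    omega
  have h3' : ∀ F ∈ 𝒯, F.card = 3 := by
    intro F hF
    obtain ⟨ψ, -, rfl⟩ := Finset.mem_image.mp hF
    exact hT3 ψ
  have h2' : ∀ F ∈ 𝒯, ∀ F' ∈ 𝒯, F ≠ F' → (F ∩ F').card = 2 := by
    intro F hF F' hF' hne
    obtain ⟨ψ, -, rfl⟩ := Finset.mem_image.mp hF
    obtain ⟨φ, -, rfl⟩ := Finset.mem_image.mp hF'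
    apply hT2
    intro h
    exact hne (hTR ψ φ h)
  obtain ⟨a, b, hab, hall⟩ := sets_main 𝒯 h3' h2' h5
  have hTa : ∀ ψ, a ∈ T ψ ∧ b ∈ T ψ := fun ψ => hall _ (Finset.mem_image_of_mem _ (Finset.mem_univ ψ))
  have hΨ : Nonempty Ψ := by
    by_contra h
    rw [not_nonempty_iff] at h
    rw [Fintype.card_eq_zero] at hcard
    omega
  obtain ⟨ψ₀⟩ := hΨ
  have hentry : ∀ ψ φ χ, χ ∈ T ψ → χ ∈ T φ → u ψ χ = u φ χ := by
    intro ψ φ χ h1 h2
    have h1' := hmemT.mp h1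
    have h2' := hmemT.mp h2
    by_cases h : R ψ φ
    · exact eq_of_sum_three S (u ψ) (u φ) (hnorm ψ) (hnorm φ) (hR ψ φ h) χ h1'.1
    · exact agree_of_sum_two S (u ψ) (u φ) (hnorm ψ) (hnorm φ) (hnR ψ φ h) h1'.1 h1'.2 h2'.2
  have hsign : ∀ ψ χ, χ ∈ T ψ → u ψ χ = 1 ∨ u ψ χ = -1 := by
    intro ψ χ h
    have h' := hmemT.mp h
    rcases sq_sum_three S (u ψ) (hnorm ψ) χ h'.1 with h2 | h2 | h2
    · exact absurd h2 h'.2
    · exact Or.inl h2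
    · exact Or.inr h2
  -- the third coordinate
  have hthird : ∀ ψ, ∃ c, T ψ = {a, b, c} ∧ c ≠ a ∧ c ≠ b := by
    intro ψ
    have h1 : ({a, b} : Finset α) ⊆ T ψ := by
      intro x hx
      simp only [Finset.mem_insert, Finset.mem_singleton] at hx
      rcases hx with rfl | rfl
      · exact (hTa ψ).1
      · exact (hTa ψ).2
    have h2 : (T ψ \ {a, b}).card = 1 := by
      rw [Finset.card_sdiff_of_subset h1, hT3, Finset.card_pair hab]
    obtain ⟨c, hc⟩ := Finset.card_eq_one.mp h2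
    have hcm : c ∈ T ψ \ {a, b} := by rw [hc]; simp
    rw [Finset.mem_sdiff] at hcm
    simp only [Finset.mem_insert, Finset.mem_singleton, not_or] at hcm
    refine ⟨c, ?_, hcm.2.1, hcm.2.2⟩
    ext x
    simp only [Finset.mem_insert, Finset.mem_singleton]
    constructor
    · intro hx
      by_cases hxa : x = a
      · exact Or.inl hxa
      by_cases hxb : x = b
      · exact Or.inr (Or.inl hxb)
      right; right
      have h3 : x ∈ T ψ \ {a, b} := by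
        rw [Finset.mem_sdiff]
        simp only [Finset.mem_insert, Finset.mem_singleton, not_or]
        exact ⟨hx, hxa, hxb⟩
      rw [hc] at h3
      simpa using h3
    · rintro (rfl | rfl | rfl)
      · exact (hTa ψ).1
      · exact (hTa ψ).2
      · exact hcm.1
  choose f hf hfa hfb using hthird
  have hfm : ∀ ψ, f ψ ∈ T ψ := by
    intro ψ
    rw [hf]
    simp
  refine ⟨a, (hmemT.mp (hTa ψ₀).1).1, b, (hmemT.mp (hTa ψ₀).2).1, hab, u ψ₀ a, u ψ₀ b,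
    hsign _ _ (hTa ψ₀).1, hsign _ _ (hTa ψ₀).2, f, fun ψ => u ψ (f ψ), fun ψ => ?_⟩
  refine ⟨(hmemT.mp (hfm ψ)).1, hfa ψ, hfb ψ, hsign _ _ (hfm ψ),
    hentry _ _ _ (hTa ψ).1 (hTa ψ₀).1, hentry _ _ _ (hTa ψ).2 (hTa ψ₀).2, rfl, ?_, ?_, ?_⟩
  · intro χ hχ h1 h2 h3
    by_contra h0
    have h4 : χ ∈ T ψ := hmemT.mpr ⟨hχ, h0⟩
    rw [hf, Finset.mem_insert, Finset.mem_insert, Finset.mem_singleton] at h4
    tauto
  · intro φ h
    have h1 := hTR ψ φ h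
    have h2 : ∀ c, c ∈ T ψ → c ≠ a → c ≠ b → c = f ψ := by
      intro c hc hca hcb
      rw [hf, Finset.mem_insert, Finset.mem_insert, Finset.mem_singleton] at hc
      tauto
    have h3 : f φ = f ψ := h2 _ (by rw [h1]; exact hfm φ) (hfa φ) (hfb φ)
    refine ⟨h3, ?_⟩
    show u φ (f φ) = u ψ (f ψ)
    rw [h3]
    exact hentry _ _ _ (by rw [← h1]; exact hfm ψ) (hfm ψ)
  · intro φ h heq
    apply hTne ψ φ h
    rw [hf, hf, heq]

end Vectors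

end Cfsg.Agent.H15.Homo
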