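import Cfsg.Agent.Lib.H15.HomoC2
import Cfsg.Agent.Lib.H15.HomoS
import Cfsg.Agent.Lib.H22.DefectZero

/-! # The structure of the principal 2-block -/

set_option autoImplicit false
set_option linter.unusedSectionVars false
set_option linter.style.haveILetI false
set_option linter.unusedSimpArgs false

namespace Cfsg.Agent.H15.Homo

open Cfsg Cfsg.Agent.H21 Cfsg.Agent.H22
open scoped ComplexConjugate

universe u

theorem arith_mixed {b c d : ℤ} (hb : 15 ≤ b) (hc : 1 ≤ c) (hd : 1 ≤ d) {ε : ℤ}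
    (hε : ε = 1 ∨ ε = -1)
    (hR : -1 + b - c + ε * d = 0) (hE : -(b * c * d) + c * d - b * d + 9 * ε * (b * c) = 0) : False := by
  have hpos : 0 < b * c - c + b := by nlinarith
  rcases hε with rfl | rfl
  · -- `d = 1 + c - b`
    set δ := c - b with hδ
    have hd' : d = 1 + δ := by rw [hδ]; linarith
    have hc' : c = b + δ := by rw [hδ]; ring
    have hδ0 : 0 ≤ δ := by linarith
    have hE' : (δ - 8) * (b * c) = δ * (δ + 1) := by
      rw [hd'] at hE
      have : c - b = δ := by rw [hδ]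
      have h2 : -(b * c * (1 + δ)) + (c - b) * (1 + δ) + 9 * 1 * (b * c) = 0 := by linarith
      rw [this] at h2
      linarith
    by_cases h9 : 9 ≤ δ
    · have h1 : b * c ≥ 15 * (15 + δ) := by
        rw [hc']
        nlinarith
      have h3 : (δ - 8) * (b * c) ≥ (δ - 8) * (15 * (15 + δ)) :=
        mul_le_mul_of_nonneg_left h1 (by linarith)
      nlinarith
    · push Not at h9
      have h4 : (δ - 8) * (b * c) ≤ 0 := by
        apply mul_nonpos_of_nonpos_of_nonneg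
        · linarith
        · nlinarith
      have h5 : δ * (δ + 1) ≥ 0 := by nlinarith
      have h6 : δ * (δ + 1) = 0 := by linarith
      have h7 : δ = 0 := by
        rcases mul_eq_zero.mp h6 with h | h
        · exact h
        · linarith
      rw [h7] at hE'
      have h8 : b * c > 0 := by nlinarith
      linarith
  · have h1 : d * (b * c - c + b) = -9 * (b * c) := by
      have : -(b * c * d) + c * d - b * d + 9 * (-1) * (b * c) = 0 := by linarith
      linarith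
    have h2 : 0 < d * (b * c - c + b) := by positivity
    have h3 : 0 < b * c := by nlinarith
    linarith

theorem arith_main {b c d σ₁ σ₂ ε : ℤ} (hb : 1 ≤ b) (hc : 1 ≤ c) (hd : 1 ≤ d)
    (hσ₁ : σ₁ = 1 ∨ σ₁ = -1) (hσ₂ : σ₂ = 1 ∨ σ₂ = -1) (hε : ε = 1 ∨ ε = -1)
    (hb15 : σ₁ = 1 → 15 ≤ b) (hc15 : σ₂ = 1 → 15 ≤ c)
    (hR : -1 + σ₁ * b + σ₂ * c + ε * d = 0)
    (hE : -(b * c * d) + σ₁ * (c * d) + σ₂ * (b * d) + 9 * ε * (b * c) = 0) :
    σ₁ = -1 ∧ σ₂ = -1 ∧ b = 1 ∧ c = 1 ∧ d = 3 ∧ ε = 1 := by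
  rcases hσ₁ with rfl | rfl <;> rcases hσ₂ with rfl | rfl
  · exfalso
    have hb' := hb15 rfl
    have hc' := hc15 rfl
    rcases hε with rfl | rfl
    · nlinarith
    · have hd' : d = b + c - 1 := by linarith
      have h1 : d * (b + c - b * c) = 9 * (b * c) := by
        have : -(b * c * d) + 1 * (c * d) + 1 * (b * d) + 9 * (-1) * (b * c) = 0 := hE
        linarith
      have h2 : b + c - b * c ≤ 0 := by nlinarith
      have h3 : d * (b + c - b * c) ≤ 0 := by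
        apply mul_nonpos_of_nonneg_of_nonpos <;> linarith
      have h4 : 0 < b * c := by nlinarith
      linarith
  · exfalso
    exact arith_mixed (hb15 rfl) hc hd hε (by linarith) (by linarith)
  · exfalso
    exact arith_mixed (hc15 rfl) hb hd hε (by linarith) (by linarith)
  · rcases hε with rfl | rfl
    · have hd' : d = 1 + b + c := by linarith
      have h1 : (1 + b + c) * (b * c + b + c) = 9 * (b * c) := by
        rw [hd'] at hE
        linarith
      have h2 : c * (b - 1) ^ 2 + b * (c - 1) ^ 2 + (b - c) ^ 2 = 0 := by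
        nlinarith
      have h3 : 0 ≤ c * (b - 1) ^ 2 := by positivity
      have h4 : 0 ≤ b * (c - 1) ^ 2 := by positivity
      have h5 : 0 ≤ (b - c) ^ 2 := by positivity
      have h6 : c * (b - 1) ^ 2 = 0 := by linarith
      have h7 : b * (c - 1) ^ 2 = 0 := by linarith
      have hb1 : b = 1 := by
        rcases mul_eq_zero.mp h6 with h | h
        · omega
        · have := pow_eq_zero_iff (two_ne_zero) |>.mp h
          omega
      have hc1 : c = 1 := by
        rcases mul_eq_zero.mp h7 with h | h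
        · omega
        · have := pow_eq_zero_iff (two_ne_zero) |>.mp h
          omega
      refine ⟨rfl, rfl, hb1, hc1, ?_, rfl⟩
      rw [hd', hb1, hc1]
      norm_num
    · exfalso
      linarith


variable {G : Type u} [Group G] [Finite G] {M : Ideal AlgInt} [hMp : M.IsPrime]
variable {A : Type} [AddCommGroup A] (D : FD G A) [Fintype A] [DecidableEq A]

open Classical in
/-- The principal block, as a finite set. -/
noncomputable def Bs (M : Ideal AlgInt) [M.IsPrime] (G : Type u) [Group G] [Finite G] :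
    Finset (IrrCharacter G) := Finset.univ.filter (· ∈ principalBlock M G)

/-- The principal block without the trivial character. -/
noncomputable def Ss (M : Ideal AlgInt) [M.IsPrime] (G : Type u) [Group G] [Finite G] :
    Finset (IrrCharacter G) := by
  classical
  exact (Bs M G).erase (oneIrr G)

theorem mem_Bs {χ : IrrCharacter G} : χ ∈ Bs M G ↔ χ ∈ principalBlock M G := by
  classical
  simp [Bs]

theorem mem_Ss {χ : IrrCharacter G} : χ ∈ Ss M G ↔ χ ≠ oneIrr G ∧ χ ∈ principalBlock M G := by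
  classical
  unfold Ss
  rw [Finset.mem_erase, mem_Bs]

/-- Nontrivial characters of `A`. -/
abbrev Psi (A : Type) [AddCommGroup A] := {ψ : AddChar A ℂ // ψ ≠ 1}

/-- The orbit relation. -/
def RR (ψ φ : Psi A) : Prop :=
  ψ.1 = φ.1 ∨ ψ.1 = twist D φ.1 ∨ ψ.1 = twist D (twist D φ.1)

theorem nZ_one {ψ : AddChar A ℂ} (hψ : ψ ≠ 1) : nZ D ψ (oneIrr G) = -1 := by
  have h := nZ_spec D ψ (oneIrr G)
  have h2 : nC D (oneIrr G).1 ψ = -1 := nC_trivial D hψ
  rw [h2] at h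
  exact_mod_cast h

theorem eB_sum_eq (f : IrrCharacter G → ℂ) :
    ∑ ζ : IrrCharacter G, eB (principalBlock M G) ζ * f ζ =
      f (oneIrr G) + ∑ χ ∈ Ss M G, f χ := by
  classical
  rw [sum_eB_eq_filter]
  have h1 : Finset.univ.filter (· ∈ principalBlock M G) = Bs M G := by
    unfold Bs
    congr
  rw [h1]
  unfold Ss
  exact (Finset.add_sum_erase _ f (mem_Bs.mpr oneIrr_mem_principal)).symm

section Gram

variable (hM : IsPModular 2 M)
  (hnorm : ∀ a : A, a ≠ 0 → ∑ ζ : IrrCharacter G, eB (principalBlock M G) ζ *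
      (ζ.1 (D.ι a) * conj (ζ.1 (D.ι a))) = (Fintype.card A : ℂ))

include hM hnorm

theorem gram_Z (ψ φ : Psi A) :
    ((∑ χ ∈ Ss M G, nZ D ψ.1 χ * nZ D φ.1 χ : ℤ) : ℂ) =
      2 + (if ψ.1 = φ.1 then 1 else 0) + (if ψ.1 = twist D φ.1 then 1 else 0) +
        (if ψ.1 = twist D (twist D φ.1) then 1 else 0) := by
  classical
  have h := gram D hM hnorm ψ.2 φ.2
  rw [eB_sum_eq] at h
  have h1 : ∀ χ : IrrCharacter G, nC D χ.1 ψ.1 * conj (nC D χ.1 φ.1) =
      ((nZ D ψ.1 χ * nZ D φ.1 χ : ℤ) : ℂ) := by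
    intro χ
    rw [← nZ_spec, ← nZ_spec, map_intCast]
    push_cast
    rfl
  simp only [h1] at h
  rw [nZ_one D ψ.2, nZ_one D φ.2] at h
  push_cast at h ⊢
  linear_combination h

theorem gram_R {ψ φ : Psi A} (h : RR D ψ φ) : ∑ χ ∈ Ss M G, nZ D ψ.1 χ * nZ D φ.1 χ = 3 := by
  classical
  have h1 := gram_Z D hM hnorm ψ φ
  have hφ := φ.2
  have h01 : φ.1 ≠ twist D φ.1 := (twist_ne D hφ).symm
  have h02 : φ.1 ≠ twist D (twist D φ.1) := (twist_twist_ne D hφ).symm
  have h12 : twist D φ.1 ≠ twist D (twist D φ.1) := (twist_ne D (twist_ne_one D hφ)).symm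
  have h2 : (if ψ.1 = φ.1 then (1 : ℂ) else 0) + (if ψ.1 = twist D φ.1 then 1 else 0) +
      (if ψ.1 = twist D (twist D φ.1) then 1 else 0) = 1 := by
    rcases h with h | h | h
    · rw [if_pos h, if_neg (by rw [h]; exact h01), if_neg (by rw [h]; exact h02)]
      ring
    · rw [if_neg (by rw [h]; exact h01.symm), if_pos h, if_neg (by rw [h]; exact h12)]
      ring
    · rw [if_neg (by rw [h]; exact h02.symm), if_neg (by rw [h]; exact h12.symm), if_pos h]
      ring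
  have h3 : ((∑ χ ∈ Ss M G, nZ D ψ.1 χ * nZ D φ.1 χ : ℤ) : ℂ) = ((3 : ℤ) : ℂ) := by
    rw [h1, add_assoc, add_assoc, ← add_assoc (if ψ.1 = φ.1 then (1 : ℂ) else 0), h2]
    push_cast
    ring
  exact_mod_cast h3

theorem gram_nR {ψ φ : Psi A} (h : ¬ RR D ψ φ) : ∑ χ ∈ Ss M G, nZ D ψ.1 χ * nZ D φ.1 χ = 2 := by
  classical
  have h1 := gram_Z D hM hnorm ψ φ
  unfold RR at h
  push Not at h
  rw [if_neg h.1, if_neg h.2.1, if_neg h.2.2] at h1
  have h3 : ((∑ χ ∈ Ss M G, nZ D ψ.1 χ * nZ D φ.1 χ : ℤ) : ℂ) = ((2 : ℤ) : ℂ) := by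
    rw [h1]
    push_cast
    ring
  exact_mod_cast h3

end Gram

theorem RR_refl (ψ : Psi A) : RR D ψ ψ := Or.inl rfl

theorem RR_iff (ψ φ : Psi A) :
    RR D ψ φ ↔ φ.1 = ψ.1 ∨ φ.1 = twist D ψ.1 ∨ φ.1 = twist D (twist D ψ.1) := by
  unfold RR
  have h3 := twist_three D ψ.1
  have h3' := twist_three D φ.1
  constructor
  · rintro (h | h | h)
    · exact Or.inl h.symm
    · right; right
      rw [h, h3']
    · right; left
      rw [h, h3']
  · rintro (h | h | h)
    · exact Or.inl h.symm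
    · right; right
      rw [h, h3]
    · right; left
      rw [h, h3]

theorem RR_fib (ψ : Psi A) (s : Finset (Psi A)) (hs : ∀ φ ∈ s, RR D ψ φ) : s.card ≤ 3 := by
  classical
  have h1 : s.image Subtype.val ⊆ ({ψ.1, twist D ψ.1, twist D (twist D ψ.1)} : Finset (AddChar A ℂ)) := by
    intro x hx
    obtain ⟨φ, hφ, rfl⟩ := Finset.mem_image.mp hx
    have := (RR_iff D ψ φ).mp (hs φ hφ)
    simpa using this
  have h2 := Finset.card_le_card h1
  rw [Finset.card_image_of_injective _ Subtype.val_injective] at h2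
  exact h2.trans Finset.card_le_three

theorem card_Psi [Fintype (Psi A)] (hq : 16 ≤ Fintype.card A) : 13 ≤ Fintype.card (Psi A) := by
  classical
  have h1 : Fintype.card (Psi A) = Fintype.card (AddChar A ℂ) - 1 := by
    have h3 := Fintype.card_subtype_compl (fun ψ : AddChar A ℂ => ψ = 1)
    rw [Fintype.card_subtype_eq] at h3
    convert h3
  have h2 : Fintype.card (AddChar A ℂ) = Fintype.card A := by
    convert AddChar.card_eq (α := A)
  rw [h1, h2]
  omega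

/-- The structure of the principal block. -/
structure BS (D : FD G A) (M : Ideal AlgInt) [M.IsPrime] where
  β : IrrCharacter G
  γ : IrrCharacter G
  hβ : β ∈ Ss M G
  hγ : γ ∈ Ss M G
  hne : β ≠ γ
  σ₁ : ℤ
  σ₂ : ℤ
  hσ₁ : σ₁ = 1 ∨ σ₁ = -1
  hσ₂ : σ₂ = 1 ∨ σ₂ = -1
  f : Psi A → IrrCharacter G
  ε : Psi A → ℤ
  hf : ∀ ψ, f ψ ∈ Ss M G ∧ f ψ ≠ β ∧ f ψ ≠ γ ∧ (ε ψ = 1 ∨ ε ψ = -1) ∧
    nZ D ψ.1 β = σ₁ ∧ nZ D ψ.1 γ = σ₂ ∧ nZ D ψ.1 (f ψ) = ε ψ ∧
    (∀ χ ∈ Ss M G, χ ≠ β → χ ≠ γ → χ ≠ f ψ → nZ D ψ.1 χ = 0) ∧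
    (∀ φ, RR D ψ φ → f φ = f ψ ∧ ε φ = ε ψ) ∧ (∀ φ, ¬ RR D ψ φ → f φ ≠ f ψ)

theorem exists_BS (hM : IsPModular 2 M)
    (hnorm : ∀ a : A, a ≠ 0 → ∑ ζ : IrrCharacter G, eB (principalBlock M G) ζ *
      (ζ.1 (D.ι a) * conj (ζ.1 (D.ι a))) = (Fintype.card A : ℂ))
    (hq : 16 ≤ Fintype.card A) : Nonempty (BS D M) := by
  classical
  obtain ⟨β, hβ, γ, hγ, hne, σ₁, σ₂, hσ₁, hσ₂, f, ε, hall⟩ :=
    sunflower_main (Ss M G) (fun (ψ : Psi A) χ => nZ D ψ.1 χ) (RR D)
      (fun ψ φ h => gram_R D hM hnorm h) (fun ψ φ h => gram_nR D hM hnorm h) (RR_refl D)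
      (RR_fib D) (card_Psi hq)
  exact ⟨⟨β, γ, hβ, hγ, hne, σ₁, σ₂, hσ₁, hσ₂, f, ε, hall⟩⟩

section Expansion

variable {D} (B : BS D M)

/-- The expansion of a block sum. -/
theorem expand (g : IrrCharacter G → ℂ) (ψ : Psi A) :
    ∑ ζ : IrrCharacter G, eB (principalBlock M G) ζ * (g ζ * nC D ζ.1 ψ.1) =
      - g (oneIrr G) + B.σ₁ * g B.β + B.σ₂ * g B.γ + B.ε ψ * g (B.f ψ) := by
  classical
  obtain ⟨hfS, hfβ, hfγ, hε, hn1, hn2, hn3, hn0, -, -⟩ := B.hf ψ
  rw [eB_sum_eq]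
  have h1 : nC D (oneIrr G).1 ψ.1 = -1 := nC_trivial D ψ.2
  rw [h1]
  have h2 : ∑ χ ∈ Ss M G, g χ * nC D χ.1 ψ.1 =
      ∑ χ ∈ ({B.β, B.γ, B.f ψ} : Finset (IrrCharacter G)), g χ * nC D χ.1 ψ.1 := by
    symm
    apply Finset.sum_subset
    · intro x hx
      simp only [Finset.mem_insert, Finset.mem_singleton] at hx
      rcases hx with rfl | rfl | rfl
      · exact B.hβ
      · exact B.hγ
      · exact hfS
    · intro x hx hx2
      simp only [Finset.mem_insert, Finset.mem_singleton, not_or] at hx2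
      rw [← nZ_spec, hn0 x hx hx2.1 hx2.2.1 hx2.2.2]
      simp
  rw [h2, Finset.sum_insert, Finset.sum_insert, Finset.sum_singleton, ← nZ_spec, ← nZ_spec, ← nZ_spec,
    hn1, hn2, hn3]
  · ring
  · rw [Finset.mem_singleton]
    exact hfγ.symm
  · rw [Finset.mem_insert, Finset.mem_singleton, not_or]
    exact ⟨B.hne, hfβ.symm⟩

/-- Values of a character with constant coefficients. -/
theorem value_const {χ : IrrCharacter G} {s : ℤ} (h : ∀ ψ : Psi A, nZ D ψ.1 χ = s) {a : A}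
    (ha : a ≠ 0) : χ.1 (D.ι a) = -(s : ℂ) := by
  classical
  rw [← nC_inversion D χ.1 ha]
  have h1 : ∀ φ : AddChar A ℂ, nC D χ.1 φ * φ a = (s : ℂ) * φ a - if φ = 1 then (s : ℂ) else 0 := by
    intro φ
    by_cases hφ : φ = 1
    · subst hφ
      simp
    · rw [if_neg hφ, sub_zero, ← nZ_spec, h ⟨φ, hφ⟩]
  simp only [h1]
  rw [Finset.sum_sub_distrib, ← Finset.mul_sum, AddChar.sum_apply_eq_ite, if_neg ha, mul_zero,
    Finset.sum_ite_eq', if_pos (Finset.mem_univ _), zero_sub]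

theorem value_β {a : A} (ha : a ≠ 0) : B.β.1 (D.ι a) = -(B.σ₁ : ℂ) :=
  value_const (fun ψ => (B.hf ψ).2.2.2.2.1) ha

theorem value_γ {a : A} (ha : a ≠ 0) : B.γ.1 (D.ι a) = -(B.σ₂ : ℂ) :=
  value_const (fun ψ => (B.hf ψ).2.2.2.2.2.1) ha

/-- Values of the third coordinate. -/
theorem value_f (ψ : Psi A) {a : A} (ha : a ≠ 0) :
    (B.f ψ).1 (D.ι a) = (B.ε ψ : ℂ) * (ψ.1 a + twist D ψ.1 a + twist D (twist D ψ.1) a) := by
  classical
  rw [← nC_inversion D (B.f ψ).1 ha]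
  have hψ := ψ.2
  have h01 : ψ.1 ≠ twist D ψ.1 := (twist_ne D hψ).symm
  have h02 : ψ.1 ≠ twist D (twist D ψ.1) := (twist_twist_ne D hψ).symm
  have h12 : twist D ψ.1 ≠ twist D (twist D ψ.1) := (twist_ne D (twist_ne_one D hψ)).symm
  have hin : ∀ φ : Psi A, RR D ψ φ → nZ D φ.1 (B.f ψ) = B.ε ψ := by
    intro φ hφ
    obtain ⟨h1, h2⟩ := (B.hf ψ).2.2.2.2.2.2.2.2.1 φ hφ
    rw [← h1, (B.hf φ).2.2.2.2.2.2.1, h2]
  have hout : ∀ φ : Psi A, ¬ RR D ψ φ → nZ D φ.1 (B.f ψ) = 0 := by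
    intro φ hφ
    have h1 := (B.hf ψ).2.2.2.2.2.2.2.2.2 φ hφ
    exact (B.hf φ).2.2.2.2.2.2.2.1 _ (B.hf ψ).1 (B.hf ψ).2.1 (B.hf ψ).2.2.1 h1.symm
  rw [← Finset.sum_subset (Finset.subset_univ
    ({ψ.1, twist D ψ.1, twist D (twist D ψ.1)} : Finset (AddChar A ℂ)))]
  · rw [Finset.sum_insert, Finset.sum_insert, Finset.sum_singleton]
    · have e0 := hin ψ (RR_refl D ψ)
      have e1 := hin ⟨twist D ψ.1, twist_ne_one D hψ⟩ ((RR_iff D _ _).mpr (Or.inr (Or.inl rfl)))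
      have e2 := hin ⟨twist D (twist D ψ.1), twist_ne_one D (twist_ne_one D hψ)⟩
        ((RR_iff D _ _).mpr (Or.inr (Or.inr rfl)))
      simp only at e1 e2
      rw [← nZ_spec, ← nZ_spec, ← nZ_spec, e0, e1, e2]
      ring
    · rw [Finset.mem_singleton]
      exact h12
    · rw [Finset.mem_insert, Finset.mem_singleton, not_or]
      exact ⟨h01, h02⟩
  · intro φ _ hφ
    simp only [Finset.mem_insert, Finset.mem_singleton, not_or] at hφ
    by_cases hφ1 : φ = 1
    · subst hφ1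
      simp
    · have h1 : ¬ RR D ψ ⟨φ, hφ1⟩ := by
        rw [RR_iff]
        simp only
        tauto
      rw [← nZ_spec, hout ⟨φ, hφ1⟩ h1]
      simp

end Expansion

end Cfsg.Agent.H15.Homo
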