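import Cfsg.Agent.Lib.H15.HomoC3

/-! # The kernel of the linear characters in the principal 2-block -/

set_option autoImplicit false
set_option linter.unusedSectionVars false
set_option linter.style.haveILetI false
set_option linter.unusedSimpArgs false

namespace Cfsg.Agent.H15.Homo

open Cfsg Cfsg.Agent.H21 Cfsg.Agent.H22
open scoped ComplexConjugate

universe u

variable {G : Type u} [Group G] [Finite G] {M : Ideal AlgInt} [hMp : M.IsPrime]
variable {A : Type} [AddCommGroup A] (D : FD G A) [Fintype A] [DecidableEq A]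

/-- The sum over a character with constant value on nonzero elements. -/
theorem sum_value {χ : G → ℂ} {s : ℂ} (h : ∀ a : A, a ≠ 0 → χ (D.ι a) = s) :
    ∑ a : A, χ (D.ι a) = χ 1 + ((Fintype.card A : ℂ) - 1) * s := by
  classical
  rw [← Finset.add_sum_erase _ _ (Finset.mem_univ (0 : A)), D.ι_zero]
  congr 1
  rw [Finset.sum_congr rfl (fun a ha => h a (Finset.ne_of_mem_erase ha)), Finset.sum_const,
    Finset.card_erase_of_mem (Finset.mem_univ _), Finset.card_univ, nsmul_eq_mul,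
    Nat.cast_sub Fintype.card_pos]
  simp

theorem deg_spec (χ : IrrCharacter G) : χ.1 1 = ((charDegree χ.1 : ℤ) : ℂ) := by
  rw [one_eq_charDegree (isCharacter_of_irr χ.2)]
  simp

theorem deg_pos (χ : IrrCharacter G) : (1 : ℤ) ≤ (charDegree χ.1 : ℤ) := by
  exact_mod_cast irr_charDegree_pos χ.2

/-- The degree bound. -/
theorem deg_bound {χ : IrrCharacter G} (h : ∀ a : A, a ≠ 0 → χ.1 (D.ι a) = -1) :
    (Fintype.card A : ℤ) - 1 ≤ (charDegree χ.1 : ℤ) := by
  obtain ⟨n, hn⟩ := cN_one D χ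
  rw [sum_value D h, deg_spec] at hn
  have h1 : (charDegree χ.1 : ℤ) - ((Fintype.card A : ℤ) - 1) = (Fintype.card A : ℤ) * n := by
    have : (((charDegree χ.1 : ℤ) - ((Fintype.card A : ℤ) - 1) : ℤ) : ℂ) =
        (((Fintype.card A : ℤ) * n : ℤ) : ℂ) := by
      push_cast at hn ⊢
      linear_combination hn
    exact_mod_cast this
  have h2 : (0 : ℤ) ≤ (Fintype.card A : ℤ) * n := by positivity
  linarith

/-- A character of the principal block vanishing on the nonidentity elements of the Sylow subgroup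
is trivial: it would have defect zero. -/
theorem no_vanishing (hM : IsPModular 2 M)
    (hqfac : Fintype.card A = 2 ^ (Nat.card G).factorization 2) {χ : IrrCharacter G}
    (hχ : χ ∈ principalBlock M G) (h : ∀ a : A, a ≠ 0 → χ.1 (D.ι a) = 0) : χ = oneIrr G := by
  obtain ⟨n, hn⟩ := cN_one D χ
  rw [sum_value D h, mul_zero, add_zero, deg_spec] at hn
  have h1 : (charDegree χ.1 : ℤ) = (Fintype.card A : ℤ) * n := by
    have : ((charDegree χ.1 : ℤ) : ℂ) = (((Fintype.card A : ℤ) * n : ℤ) : ℂ) := by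
      push_cast at hn ⊢
      exact hn
    exact_mod_cast this
  have h2 : charDegree χ.1 = Fintype.card A * n := by exact_mod_cast h1
  have hdeg : 0 < charDegree χ.1 := irr_charDegree_pos χ.2
  have hcod : ¬ 2 ∣ Nat.card G / charDegree χ.1 := by
    rw [not_dvd_codegree_iff]
    rw [← Nat.Prime.pow_dvd_iff_le_factorization Nat.prime_two hdeg.ne', ← hqfac, h2]
    exact dvd_mul_right _ _
  have hs : SameBlock M χ.1 (oneIrr G).1 :=
    block_sameBlock principalBlock_isBlock hχ oneIrr_mem_principal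
  exact (eq_of_mem_block_of_defect_zero hM χ hcod hs).symm

/-- The main character-theoretic result. -/
theorem main_char (hM : IsPModular 2 M)
    (hnorm : ∀ a : A, a ≠ 0 → ∑ ζ : IrrCharacter G, eB (principalBlock M G) ζ *
      (ζ.1 (D.ι a) * conj (ζ.1 (D.ι a))) = (Fintype.card A : ℂ))
    (hq : 16 ≤ Fintype.card A) (hqfac : Fintype.card A = 2 ^ (Nat.card G).factorization 2)
    (hO : ∀ N : Subgroup G, N.Normal → Odd (Nat.card N) → N = ⊥) {j : A} (hj0 : j ≠ 0)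
    (hj2 : 2 • j = 0) {m : ℕ} (hexp : ∀ a : A, 2 ^ m • a = 0)
    (hJ : ∀ x : G, IsConj x (D.ι j) → ∃ n : ℕ, Odd n ∧ ((x * D.ι j) ^ 2) ^ n = 1) (ψ₀ : Psi A)
    (hψ₀ : ∀ v : A, 2 • v = 0 → ψ₀.1 v = 1) :
    ∃ K : Subgroup G, K.Normal ∧ (∀ a, D.ι a ∈ K) ∧ ∀ y ∈ K, ¬ 2 ∣ orderOf y → y = 1 := by
  classical
  obtain ⟨B⟩ := exists_BS D hM hnorm hq
  have hone : ∀ y : G, (oneIrr G).1 y = 1 := fun _ => rfl
  have hq' : (15 : ℤ) ≤ (Fintype.card A : ℤ) - 1 := by
    have : (16 : ℤ) ≤ (Fintype.card A : ℤ) := by exact_mod_cast hq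
    omega
  -- the relation for each `ψ` at the identity
  have hRall : ∀ ψ : Psi A, -1 + B.σ₁ * (charDegree B.β.1 : ℤ) + B.σ₂ * (charDegree B.γ.1 : ℤ) +
      B.ε ψ * (charDegree (B.f ψ).1 : ℤ) = 0 := by
    intro ψ
    have h1 := reg_rel D hM (y := (1 : G)) (by rw [orderOf_one]; norm_num) ψ.1
    rw [expand B (fun ζ => ζ.1 1) ψ] at h1
    simp only [hone] at h1
    rw [deg_spec, deg_spec, deg_spec] at h1
    have h2 : ((-1 + B.σ₁ * (charDegree B.β.1 : ℤ) + B.σ₂ * (charDegree B.γ.1 : ℤ) +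
      B.ε ψ * (charDegree (B.f ψ).1 : ℤ) : ℤ) : ℂ) = ((0 : ℤ) : ℂ) := by
      push_cast at h1 ⊢
      exact h1
    exact_mod_cast h2
  set b : ℤ := (charDegree B.β.1 : ℤ) with hb
  set c : ℤ := (charDegree B.γ.1 : ℤ) with hc
  have hb1 : 1 ≤ b := deg_pos _
  have hc1 : 1 ≤ c := deg_pos _
  have hσ₁2 : (B.σ₁ : ℂ) * B.σ₁ = 1 := by
    rcases B.hσ₁ with h | h <;> rw [h] <;> norm_num
  have hσ₂2 : (B.σ₂ : ℂ) * B.σ₂ = 1 := by
    rcases B.hσ₂ with h | h <;> rw [h] <;> norm_num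
  -- the degree bounds
  have hb15 : B.σ₁ = 1 → 15 ≤ b := by
    intro h
    have h1 := deg_bound (χ := B.β) D (fun a ha => by rw [value_β B ha, h]; norm_num)
    exact hq'.trans h1
  have hc15 : B.σ₂ = 1 → 15 ≤ c := by
    intro h
    have h1 := deg_bound (χ := B.γ) D (fun a ha => by rw [value_γ B ha, h]; norm_num)
    exact hq'.trans h1
  -- the value of the third character at the involution
  have hthird : (B.f ψ₀).1 (D.ι j) = (B.ε ψ₀ : ℂ) * 3 := by
    rw [value_f B ψ₀ hj0]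
    have h1 : ψ₀.1 j = 1 := hψ₀ j hj2
    have h2 : twist D ψ₀.1 j = 1 := hψ₀ _ (by rw [← map_nsmul, hj2, map_zero])
    have h3 : twist D (twist D ψ₀.1) j = 1 :=
      hψ₀ _ (by rw [← map_nsmul, ← map_nsmul, hj2, map_zero, map_zero])
    rw [h1, h2, h3]
    norm_num
  set d : ℤ := (charDegree (B.f ψ₀).1 : ℤ) with hd
  have hd1 : 1 ≤ d := deg_pos _
  have hb0 : (b : ℂ) ≠ 0 := by exact_mod_cast (by omega : b ≠ 0)
  have hc0 : (c : ℂ) ≠ 0 := by exact_mod_cast (by omega : c ≠ 0)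
  have hd0 : (d : ℂ) ≠ 0 := by exact_mod_cast (by omega : d ≠ 0)
  have hε₀2 : (B.ε ψ₀ : ℂ) * B.ε ψ₀ = 1 := by
    rcases (B.hf ψ₀).2.2.2.1 with h | h <;> rw [h] <;> norm_num
  -- the relation at the involution
  have hE : -(b * c * d) + B.σ₁ * (c * d) + B.σ₂ * (b * d) + 9 * B.ε ψ₀ * (b * c) = 0 := by
    have h1 := e1_rel D hM hexp hJ hψ₀
    rw [expand B (fun ζ => ζ.1 (D.ι j) * ζ.1 (D.ι j) / ζ.1 1) ψ₀] at h1
    simp only [hone] at h1
    rw [deg_spec B.β, deg_spec B.γ, deg_spec (B.f ψ₀), value_β B hj0, value_γ B hj0, hthird] at h1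
    rw [← hb, ← hc, ← hd] at h1
    have h2 : ((-(b * c * d) + B.σ₁ * (c * d) + B.σ₂ * (b * d) + 9 * B.ε ψ₀ * (b * c) : ℤ) : ℂ) =
        ((0 : ℤ) : ℂ) := by
      push_cast
      have h3 : -(1 * 1 / 1 : ℂ) + (B.σ₁ : ℂ) * (-(B.σ₁ : ℂ) * -(B.σ₁ : ℂ) / b) +
          (B.σ₂ : ℂ) * (-(B.σ₂ : ℂ) * -(B.σ₂ : ℂ) / c) +
          (B.ε ψ₀ : ℂ) * ((B.ε ψ₀ : ℂ) * 3 * ((B.ε ψ₀ : ℂ) * 3) / d) = 0 := h1
      have hA : -(B.σ₁ : ℂ) * -(B.σ₁ : ℂ) = 1 := by rw [neg_mul_neg]; exact hσ₁2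
      have hA' : -(B.σ₂ : ℂ) * -(B.σ₂ : ℂ) = 1 := by rw [neg_mul_neg]; exact hσ₂2
      have hC : (B.ε ψ₀ : ℂ) * 3 * ((B.ε ψ₀ : ℂ) * 3) = 9 := by linear_combination 9 * hε₀2
      rw [hA, hA', hC] at h3
      have h4 : -((b : ℂ) * c * d) + B.σ₁ * (c * d) + B.σ₂ * (b * d) + 9 * B.ε ψ₀ * (b * c) =
          b * c * d * (-(1 * 1 / 1 : ℂ) + (B.σ₁ : ℂ) * (1 / b) +
          (B.σ₂ : ℂ) * (1 / c) + (B.ε ψ₀ : ℂ) * (9 / d)) := by
        field_simp
      rw [h4, h3, mul_zero]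
    exact_mod_cast h2
  obtain ⟨hs1, hs2, hb', hc', hd', hε'⟩ := arith_main hb1 hc1 hd1 B.hσ₁ B.hσ₂ (B.hf ψ₀).2.2.2.1
    hb15 hc15 (hRall ψ₀) hE
  -- consequences
  have hbval : B.β.1 1 = 1 := by
    rw [deg_spec, ← hb, hb']
    norm_num
  have hcval : B.γ.1 1 = 1 := by
    rw [deg_spec, ← hc, hc']
    norm_num
  have hall : ∀ ψ : Psi A, B.ε ψ = 1 ∧ (charDegree (B.f ψ).1 : ℤ) = 3 := by
    intro ψ
    have h1 := hRall ψ
    rw [hs1, hs2, hb', hc'] at h1
    have h2 := deg_pos (B.f ψ)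
    rcases (B.hf ψ).2.2.2.1 with h | h
    · rw [h] at h1
      exact ⟨h, by linarith⟩
    · rw [h] at h1
      exfalso
      linarith
  have hfval : ∀ ψ : Psi A, (B.f ψ).1 1 = 3 := by
    intro ψ
    rw [deg_spec, (hall ψ).2]
    norm_num
  refine ⟨charKer B.β.1 (isCharacter_of_irr B.β.2) ⊓ charKer B.γ.1 (isCharacter_of_irr B.γ.2),
    Subgroup.normal_inf_normal _ _, ?_, ?_⟩
  · intro a
    by_cases ha : a = 0
    · rw [ha, D.ι_zero]
      exact Subgroup.one_mem _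
    · rw [Subgroup.mem_inf, mem_charKer, mem_charKer, value_β B ha, value_γ B ha, hbval, hcval, hs1, hs2]
      norm_num
  · intro y hy hyr
    rw [Subgroup.mem_inf, mem_charKer, mem_charKer, hbval, hcval] at hy
    have hfy : ∀ ψ : Psi A, (B.f ψ).1 y = (B.f ψ).1 1 := by
      intro ψ
      have h1 := reg_rel D hM hyr ψ.1
      rw [expand B (fun ζ => ζ.1 y) ψ] at h1
      simp only [hone] at h1
      rw [hy.1, hy.2, hs1, hs2, (hall ψ).1] at h1
      rw [hfval]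
      push_cast at h1
      linear_combination h1
    let N : Subgroup G := ⨅ χ : principalBlock M G, charKer χ.1.1 (isCharacter_of_irr χ.1.2)
    haveI hNn : N.Normal := Subgroup.normal_iInf_normal fun _ => charKer_normal _ _
    have hNmem : ∀ x, x ∈ N ↔ ∀ χ ∈ principalBlock M G, χ.1 x = χ.1 1 := by
      intro x
      simp only [N, Subgroup.mem_iInf, mem_charKer, Subtype.forall]
    have hcop := card_ker_coprime hM N (fun χ hχ x hx => (hNmem x).mp hx χ hχ)
    have hodd : Odd (Nat.card N) := by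
      rw [← Nat.not_even_iff_odd, even_iff_two_dvd]
      intro hd'
      have := Nat.Coprime.eq_one_of_dvd hcop.symm hd'
      omega
    have hNbot := hO N hNn hodd
    have hyN : y ∈ N := by
      rw [hNmem]
      intro χ hχ
      by_cases h1 : χ = oneIrr G
      · rw [h1]
        rfl
      by_cases h2 : χ = B.β
      · rw [h2, hy.1, hbval]
      by_cases h3 : χ = B.γ
      · rw [h3, hy.2, hcval]
      by_cases h4 : ∃ ψ : Psi A, χ = B.f ψ
      · obtain ⟨ψ, rfl⟩ := h4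
        exact hfy ψ
      · exfalso
        push Not at h4
        apply h1
        apply no_vanishing D hM hqfac hχ
        intro a ha
        have h5 := value_const (χ := χ) (s := 0) (fun ψ =>
          (B.hf ψ).2.2.2.2.2.2.2.1 χ (mem_Ss.mpr ⟨h1, hχ⟩) h2 h3 (h4 ψ)) ha
        simpa using h5
    rw [hNbot] at hyN
    exact Subgroup.mem_bot.mp hyN

end Cfsg.Agent.H15.Homo
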