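import Cfsg.Agent.Lib.H15.HomoC4

/-! # Brauer's theorem on homocyclic Sylow 2-subgroups of rank two -/

set_option autoImplicit false
set_option linter.unusedSectionVars false
set_option linter.style.haveILetI false
set_option linter.unusedSimpArgs false

namespace Cfsg.Agent.H15.Homo

open Cfsg Cfsg.Agent.H21 Cfsg.Agent.H22
open scoped ComplexConjugate

universe u

variable {G : Type u} [Group G] [Finite G]

/-- The centralizer of a normal abelian Sylow subgroup when the odd core is trivial. -/
theorem centralizer_eq_of_normal (P : Sylow 2 G) (hPn : (P : Subgroup G).Normal)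
    (hPC : (P : Subgroup G) ≤ Subgroup.centralizer ((P : Subgroup G) : Set G))
    (hO : ∀ N : Subgroup G, N.Normal → Odd (Nat.card N) → N = ⊥) :
    Subgroup.centralizer ((P : Subgroup G) : Set G) = (P : Subgroup G) := by
  classical
  set C := Subgroup.centralizer ((P : Subgroup G) : Set G) with hC
  let Q' : Sylow 2 C := P.subtype hPC
  have hQ'c : (Q' : Subgroup C) = (P : Subgroup G).subgroupOf C := P.coe_subtype hPC
  have hCcomm : ∀ (g : C) (x : C), x ∈ (Q' : Subgroup C) → x * g = g * x := by
    intro g x hx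
    rw [hQ'c, Subgroup.mem_subgroupOf] at hx
    apply Subtype.ext
    exact (Subgroup.mem_centralizer_iff.mp g.2) _ hx
  have hN : Subgroup.normalizer (Q' : Subgroup C) ≤ Subgroup.centralizer ((Q' : Subgroup C) : Set C) := by
    intro g _
    rw [Subgroup.mem_centralizer_iff]
    intro a ha
    exact hCcomm g a ha
  let f := MonoidHom.transferSylow Q' hN
  have hcompl := MonoidHom.ker_transferSylow_isComplement' Q' hN
  have hnd : ¬ 2 ∣ Nat.card f.ker := Cfsg.Agent.H01.not_dvd_card_of_complement Q' hcompl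
  have hodd : Odd (Nat.card f.ker) := by
    rwa [← Nat.not_even_iff_odd, even_iff_two_dvd]
  have hCn : ∀ g : G, ∀ x ∈ C, g * x * g⁻¹ ∈ C := by
    intro g x hx
    rw [hC, Subgroup.mem_centralizer_iff] at hx ⊢
    intro z hz
    have hz' : g⁻¹ * z * g ∈ (P : Subgroup G) := by
      have := hPn.conj_mem z hz g⁻¹
      simpa using this
    have h1 := hx _ hz'
    calc z * (g * x * g⁻¹) = g * ((g⁻¹ * z * g) * x) * g⁻¹ := by group
      _ = g * (x * (g⁻¹ * z * g)) * g⁻¹ := by rw [h1]
      _ = g * x * g⁻¹ * z := by group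
  let R : Subgroup G := f.ker.map C.subtype
  have hRcard : Nat.card R = Nat.card f.ker :=
    Nat.card_congr (Subgroup.equivMapOfInjective _ _ C.subtype_injective).symm.toEquiv
  have hRn : R.Normal := by
    constructor
    rintro _ ⟨r, hr, rfl⟩ g
    refine ⟨⟨g * r * g⁻¹, hCn g r r.2⟩, ?_, rfl⟩
    rw [SetLike.mem_coe, MonoidHom.mem_ker]
    set x : C := ⟨g * r * g⁻¹, hCn g r r.2⟩ with hx
    have hrn : (⟨r, hr⟩ : f.ker) ^ Nat.card f.ker = 1 := pow_card_eq_one'
    have hr1 : r ^ Nat.card f.ker = 1 := by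
      have := congrArg Subtype.val hrn
      simpa only [SubmonoidClass.coe_pow, OneMemClass.coe_one] using this
    have hxn : x ^ Nat.card f.ker = 1 := by
      apply Subtype.ext
      show ((g * (r : G) * g⁻¹) ^ Nat.card f.ker) = 1
      rw [conj_pow]
      have h2 : (r : G) ^ Nat.card f.ker = 1 := by
        have := congrArg Subtype.val hr1
        simpa only [SubmonoidClass.coe_pow, OneMemClass.coe_one] using this
      rw [h2]
      group
    have h1 : (f x) ^ Nat.card f.ker = 1 := by rw [← map_pow, hxn, map_one]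
    have h2 : (f x) ^ Nat.card (Q' : Subgroup C) = 1 := pow_card_eq_one'
    obtain ⟨k, hk⟩ := Q'.2.exists_card_eq
    rw [hk] at h2
    have hcop : Nat.Coprime (Nat.card f.ker) (2 ^ k) :=
      Nat.Coprime.pow_right _ (Nat.coprime_two_right.mpr hodd)
    exact orderOf_eq_one_iff.mp (Nat.eq_one_of_dvd_coprimes hcop (orderOf_dvd_of_pow_eq_one h1)
      (orderOf_dvd_of_pow_eq_one h2))
  have hRbot := hO R hRn (by rw [hRcard]; exact hodd)
  have hker : f.ker = ⊥ := (Subgroup.map_eq_bot_iff_of_injective _ C.subtype_injective).mp hRbot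
  have hcard := hcompl.card_mul_card
  rw [hker, Subgroup.card_bot, one_mul] at hcard
  have htop : (Q' : Subgroup C) = ⊤ := Subgroup.eq_top_of_card_eq _ hcard
  apply le_antisymm
  · intro c hc
    have h1 : (⟨c, hc⟩ : C) ∈ (Q' : Subgroup C) := by rw [htop]; trivial
    rw [hQ'c, Subgroup.mem_subgroupOf] at h1
    exact h1
  · exact hPC

/-- The column sum over the principal block. -/
theorem norm_from_npc {M : Ideal AlgInt} [M.IsPrime] (hM : IsPModular 2 M) (P : Sylow 2 G) {x : G}
    {k : ℕ} (hx : orderOf x = 2 ^ k)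
    (hPC : (P : Subgroup G) ≤ Subgroup.centralizer ({x} : Set G))
    (O : Subgroup (Subgroup.centralizer ({x} : Set G))) [hO : O.Normal]
    (hcop : (Nat.card O).Coprime 2) (hk : ∃ k : ℕ, O.index = 2 ^ k) :
    ∑ ζ : IrrCharacter G, eB (principalBlock M G) ζ * (ζ.1 x * conj (ζ.1 x)) =
      ((Nat.card (P : Subgroup G) : ℕ) : ℂ) := by
  classical
  have hy : ¬ 2 ∣ orderOf (1 : Subgroup.centralizer ({x} : Set G)) := by
    rw [orderOf_one]
    norm_num
  have h1 := principal_norm_sum (M := M) hM hx (1 : Subgroup.centralizer ({x} : Set G)) hy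
  have h2 := principal_column_npc (M := M) hM O hcop hk hy
  rw [h2] at h1
  have hfac : (Nat.card (Subgroup.centralizer ({x} : Set G))).factorization 2 = (Nat.card G).factorization 2 := by
    have hcP := P.card_eq_multiplicity
    have h3 : 2 ^ (Nat.card G).factorization 2 ∣ Nat.card (Subgroup.centralizer ({x} : Set G)) := by
      have := Subgroup.card_dvd_of_le hPC
      rwa [hcP] at this
    have h4 : Nat.card (Subgroup.centralizer ({x} : Set G)) ∣ Nat.card G := Subgroup.card_subgroup_dvd_card _
    have h5 := (Nat.Prime.pow_dvd_iff_le_factorization Nat.prime_two Nat.card_pos.ne').mp h3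
    have h6 := (Nat.factorization_le_iff_dvd Nat.card_pos.ne' Nat.card_pos.ne').mpr h4 2
    omega
  rw [hfac, ← P.card_eq_multiplicity] at h1
  have h3 := finsum_norm_sq_cast (principalBlock M G) (fun ζ : IrrCharacter G => ζ.1 x)
  simp only [Subgroup.coe_one, mul_one] at h1
  rw [← h3, h1]
  norm_cast


/-- The main theorem for an abstract `A`. -/
theorem homocyclic_core {A : Type} [AddCommGroup A] [Fintype A] [DecidableEq A] (P : Sylow 2 G)
    {m : ℕ} (e : (P : Subgroup G) ≃* Multiplicative A) (hexp : ∀ a : A, 2 ^ m • a = 0)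
    (hV3 : (invs A).card = 3) (hq : 16 ≤ Fintype.card A) {a₀ : A} (ha₀ : 2 • a₀ ≠ 0)
    (hO : ∀ N : Subgroup G, N.Normal → Odd (Nat.card N) → N = ⊥) :
    (P : Subgroup G).Normal ∧ Subgroup.centralizer ((P : Subgroup G) : Set G) = (P : Subgroup G) ∧
      ((P : Subgroup G).index = 1 ∨ (P : Subgroup G).index = 3) := by
  classical
  have hcardP : Nat.card (P : Subgroup G) = Fintype.card A := by
    rw [Nat.card_congr e.toEquiv, Nat.card_congr Multiplicative.toAdd, Nat.card_eq_fintype_card]
  have hqfac : Fintype.card A = 2 ^ (Nat.card G).factorization 2 := by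
    rw [← hcardP, P.card_eq_multiplicity]
  have hPC : (P : Subgroup G) ≤ Subgroup.centralizer ((P : Subgroup G) : Set G) := by
    intro x hx
    rw [Subgroup.mem_centralizer_iff]
    intro y hy
    exact comm_of_mem e hy hx
  by_cases hNC : Subgroup.normalizer ((P : Subgroup G) : Set G) ≤
      Subgroup.centralizer ((P : Subgroup G) : Set G)
  · -- normal complement
    have hcompl := MonoidHom.ker_transferSylow_isComplement' P hNC
    have hnd : ¬ 2 ∣ Nat.card (MonoidHom.transferSylow P hNC).ker :=
      Cfsg.Agent.H01.not_dvd_card_of_complement P hcompl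
    have hker := hO _ (MonoidHom.normal_ker _)
      (by rwa [← Nat.not_even_iff_odd, even_iff_two_dvd])
    have hcard := hcompl.card_mul_card
    rw [hker, Subgroup.card_bot, one_mul] at hcard
    have htop : (P : Subgroup G) = ⊤ := Subgroup.eq_top_of_card_eq _ hcard
    refine ⟨by rw [htop]; infer_instance, ?_, Or.inl (by rw [htop]; exact Subgroup.index_top)⟩
    apply le_antisymm
    · intro x _
      rw [htop]
      trivial
    · exact hPC
  · obtain ⟨g₀, hg₀, hg₀c⟩ := Set.not_subset.mp hNC
    obtain ⟨τ, hτ, hτ3, hfix, hconj, hNtri⟩ := fusion_data P e hexp hV3 hg₀ hg₀c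
    let D : FD G A :=
      { ι := iota e
        ι_add := iota_add e
        ι_inj := iota_inj e
        ord := by
          intro a
          have h1 : iota e a ^ (2 ^ m) = 1 := by
            rw [← iota_nsmul, hexp, iota_zero]
          obtain ⟨k, _, hk⟩ := (Nat.dvd_prime_pow Nat.prime_two).mp (orderOf_dvd_of_pow_eq_one h1)
          exact ⟨k, hk⟩
        τ := τ
        τ3 := hτ3
        τfix := hfix
        conj_iff := hconj }
    obtain ⟨M, hM⟩ := Cfsg.Agent.H21.exists_pModular (p := 2) Nat.prime_two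
    haveI hMprime : M.IsPrime := hM.2.1.isPrime
    have hnorm : ∀ a : A, a ≠ 0 → ∑ ζ : IrrCharacter G, eB (principalBlock M G) ζ *
        (ζ.1 (D.ι a) * conj (ζ.1 (D.ι a))) = (Fintype.card A : ℂ) := by
      intro a ha
      have ha1 : iota e a ≠ 1 := fun h => ha ((iota_eq_one e).mp h)
      obtain ⟨O, hOn, hcop, hk, _⟩ := npc_data P e hexp hV3 (iota_mem e a) ha1
      obtain ⟨k, hord⟩ := D.ord a
      have hle : (P : Subgroup G) ≤ Subgroup.centralizer ({D.ι a} : Set G) := by
        intro x hx
        rw [Subgroup.mem_centralizer_singleton_iff]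
        exact comm_of_mem e hx (iota_mem e a)
      have h1 := norm_from_npc (M := M) hM P hord hle O hcop hk
      rw [h1, hcardP]
    -- an involution and a character
    obtain ⟨j, hj⟩ := Finset.card_pos.mp (by omega : 0 < (invs A).card)
    have hj0 := (mem_invs.mp hj).1
    have hj2 := (mem_invs.mp hj).2
    have hJ : ∀ x : G, IsConj x (D.ι j) → ∃ n : ℕ, Odd n ∧ ((x * D.ι j) ^ 2) ^ n = 1 := by
      intro x hx
      have hJ2 : D.ι j * D.ι j = 1 := by
        rw [← D.ι_add, ← two_nsmul, hj2, D.ι_zero]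
      have hx2 : x * x = 1 := by
        obtain ⟨c, hc⟩ := isConj_iff.mp hx
        have h1 : c * (x * x) * c⁻¹ = 1 := by
          calc c * (x * x) * c⁻¹ = (c * x * c⁻¹) * (c * x * c⁻¹) := by group
            _ = 1 := by rw [hc, hJ2]
        exact conj_eq_one_iff.mp h1
      exact involution_product P e hexp hV3 hx2 hJ2
    obtain ⟨ψ₀, hψ₀1, hψ₀⟩ := exists_char_trivial_two ha₀
    obtain ⟨K, hKn, hιK, hKreg⟩ := main_char D hM hnorm hq hqfac hO hj0 hj2 hexp hJ ⟨ψ₀, hψ₀1⟩ hψ₀
    -- `K` is a 2-group
    have hKp : IsPGroup 2 K := by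
      have hcard : Nat.card K = 2 ^ (Nat.primeFactorsList (Nat.card K)).length := by
        apply Nat.eq_prime_pow_of_unique_prime_dvd Nat.card_pos.ne'
        intro d hd hdK
        by_contra hd2
        haveI : Fact d.Prime := ⟨hd⟩
        obtain ⟨y, hy⟩ := exists_prime_orderOf_dvd_card' d hdK
        have hyord : orderOf ((y : K) : G) = d := by rw [Subgroup.orderOf_coe, hy]
        have hy1 := hKreg (y : G) y.2 (by
          rw [hyord]
          intro h2
          exact hd2 ((Nat.prime_dvd_prime_iff_eq Nat.prime_two hd).mp h2).symm)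
        rw [hy1, orderOf_one] at hyord
        exact hd.one_lt.ne hyord
      exact IsPGroup.of_card hcard
    have hPK : (P : Subgroup G) ≤ K := by
      intro x hx
      obtain ⟨a, rfl⟩ := exists_iota e hx
      exact hιK a
    have hKeq : K = (P : Subgroup G) := P.is_maximal' hKp hPK
    have hPn : (P : Subgroup G).Normal := hKeq ▸ hKn
    have hCP := centralizer_eq_of_normal P hPn hPC hO
    refine ⟨hPn, hCP, Or.inr ?_⟩
    -- the index
    have hNtop : ∀ g : G, g ∈ Subgroup.normalizer ((P : Subgroup G) : Set G) := by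
      intro g
      rw [Subgroup.mem_normalizer_iff]
      intro h
      constructor
      · exact fun hh => hPn.conj_mem h hh g
      · intro hh
        have := hPn.conj_mem _ hh g⁻¹
        simpa [mul_assoc] using this
    have hg₀P : g₀ ∉ (P : Subgroup G) := by
      rw [← hCP]
      exact hg₀c
    have hg₀3 : g₀ * g₀ * g₀ ∈ (P : Subgroup G) := by
      rw [← hCP, Subgroup.mem_centralizer_iff]
      intro y hy
      obtain ⟨a, rfl⟩ := exists_iota e hy
      have h1 : iota e (τ (τ (τ a))) = (g₀ * g₀ * g₀) * iota e a * (g₀ * g₀ * g₀)⁻¹ := by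
        rw [hτ, hτ, hτ]
        group
      rw [hτ3] at h1
      exact eq_mul_inv_iff_mul_eq.mp h1
    have hg₀2 : g₀ * g₀ ∉ (P : Subgroup G) := by
      intro h
      apply hg₀P
      have := (P : Subgroup G).mul_mem ((P : Subgroup G).inv_mem h) hg₀3
      simpa [mul_assoc] using this
    let F : Fin 3 → G ⧸ (P : Subgroup G) := fun i => ((g₀ ^ (i : ℕ) : G) : G ⧸ (P : Subgroup G))
    have hFsurj : Function.Surjective F := by
      intro x
      obtain ⟨g, rfl⟩ := QuotientGroup.mk_surjective x
      rcases hNtri g (hNtop g) with h | h | h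
      · rw [hCP] at h
        refine ⟨0, ?_⟩
        show ((g₀ ^ 0 : G) : G ⧸ (P : Subgroup G)) = _
        rw [QuotientGroup.eq]
        simpa using h
      · rw [hCP] at h
        refine ⟨1, ?_⟩
        show ((g₀ ^ 1 : G) : G ⧸ (P : Subgroup G)) = _
        rw [QuotientGroup.eq]
        simpa using h
      · rw [hCP] at h
        refine ⟨2, ?_⟩
        show ((g₀ ^ 2 : G) : G ⧸ (P : Subgroup G)) = _
        rw [QuotientGroup.eq]
        have e1 : (g₀ ^ 2)⁻¹ * g = g₀⁻¹ * (g₀⁻¹ * g) := by
          rw [sq, mul_inv_rev, mul_assoc]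
        rw [e1]
        exact h
    have hFinj : Function.Injective F := by
      have key : ∀ i j : Fin 3, i < j → F i ≠ F j := by
        intro i j hij hF
        have h1 : (g₀ ^ (i : ℕ))⁻¹ * g₀ ^ (j : ℕ) ∈ (P : Subgroup G) := QuotientGroup.eq.mp hF
        fin_cases i <;> fin_cases j <;> simp at hij <;> simp at h1
        · exact hg₀P h1
        · exact hg₀2 (by rw [sq] at h1; exact h1)
        · apply hg₀P
          rw [sq, ← mul_assoc, inv_mul_cancel, one_mul] at h1
          exact h1
      intro i j hF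
      by_contra hne
      rcases lt_or_gt_of_ne hne with h | h
      · exact key i j h hF
      · exact key j i h hF.symm
    have hcard3 : Nat.card (G ⧸ (P : Subgroup G)) = 3 := by
      rw [← Nat.card_congr (Equiv.ofBijective F ⟨hFinj, hFsurj⟩), Nat.card_eq_fintype_card,
        Fintype.card_fin]
    exact hcard3

/-- **Brauer.** Sylow 2-subgroups `Z/2^m × Z/2^m`, `m ≥ 2`, and trivial odd core. -/
theorem homocyclic_main (P : Sylow 2 G) (m : ℕ) (hm : 2 ≤ m)
    (e : (P : Subgroup G) ≃* Multiplicative (ZMod (2 ^ m) × ZMod (2 ^ m)))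
    (hO : ∀ N : Subgroup G, N.Normal → Odd (Nat.card N) → N = ⊥) :
    (P : Subgroup G).Normal ∧ Subgroup.centralizer ((P : Subgroup G) : Set G) = (P : Subgroup G) ∧
      ((P : Subgroup G).index = 1 ∨ (P : Subgroup G).index = 3) := by
  classical
  letI inst : Fintype (ZMod (2 ^ m) × ZMod (2 ^ m)) := instFintypeProd _ _
  have hexp : ∀ a : ZMod (2 ^ m) × ZMod (2 ^ m), 2 ^ m • a = 0 := model_exp
  have hV3 : (invs (ZMod (2 ^ m) × ZMod (2 ^ m))).card = 3 := model_invs (m := m) (by omega)
  have hq : 16 ≤ Fintype.card (ZMod (2 ^ m) × ZMod (2 ^ m)) := by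
    rw [Fintype.card_prod, ZMod.card]
    have h1 : 2 ^ 2 ≤ 2 ^ m := Nat.pow_le_pow_right (by norm_num) hm
    nlinarith
  have ha₀ : 2 • ((1, 0) : ZMod (2 ^ m) × ZMod (2 ^ m)) ≠ 0 := by
    intro h
    have h1 := congrArg Prod.fst h
    have h2 : (2 : ZMod (2 ^ m)) = 0 := by simpa using h1
    have h3 : ((2 : ℕ) : ZMod (2 ^ m)) = 0 := by exact_mod_cast h2
    rw [ZMod.natCast_eq_zero_iff] at h3
    have h4 := Nat.le_of_dvd (by norm_num) h3
    have h5 : 2 ^ 2 ≤ 2 ^ m := Nat.pow_le_pow_right (by norm_num) hm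
    omega
  exact homocyclic_core P e hexp hV3 hq ha₀ hO

end Cfsg.Agent.H15.Homo
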