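import Cfsg.Agent.Lib.H15.HomoA
import Cfsg.Agent.Lib.H23.RealDeg5
import Cfsg.Agent.Lib.H21.KleinFour

/-! # Fusion in a group with homocyclic abelian Sylow 2-subgroups of rank 2 -/

set_option autoImplicit false
set_option linter.unusedSectionVars false
set_option linter.style.haveILetI false

namespace Cfsg.Agent.H15.Homo

universe u

variable {G : Type u} [Group G]
variable {A : Type} [AddCommGroup A]

section Iota

variable {Q : Subgroup G} (e : Q ≃* Multiplicative A)

/-- The embedding of `A` into `G`. -/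
def iota (a : A) : G := ((e.symm (Multiplicative.ofAdd a) : Q) : G)

theorem iota_add (a b : A) : iota e (a + b) = iota e a * iota e b := by
  unfold iota
  rw [ofAdd_add, map_mul]
  rfl

theorem iota_inj : Function.Injective (iota e) := by
  intro a b h
  have h1 := Subtype.ext h
  exact Multiplicative.ofAdd.injective (e.symm.injective h1)

theorem iota_mem (a : A) : iota e a ∈ Q := (e.symm (Multiplicative.ofAdd a)).2

theorem exists_iota {x : G} (hx : x ∈ Q) : ∃ a : A, iota e a = x := by
  refine ⟨Multiplicative.toAdd (e ⟨x, hx⟩), ?_⟩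
  unfold iota
  simp

theorem iota_zero : iota e (0 : A) = 1 := by
  unfold iota
  rw [ofAdd_zero, map_one]
  rfl

theorem iota_eq_one {a : A} : iota e a = 1 ↔ a = 0 := by
  constructor
  · intro h
    apply iota_inj e
    rw [h, iota_zero]
  · rintro rfl
    exact iota_zero e

theorem iota_comm (a b : A) : iota e a * iota e b = iota e b * iota e a := by
  rw [← iota_add, ← iota_add, add_comm]

theorem iota_nsmul (n : ℕ) (a : A) : iota e (n • a) = iota e a ^ n := by
  induction n with
  | zero => simp [iota_zero]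
  | succ n ih => rw [succ_nsmul, iota_add, ih, pow_succ]

theorem iota_neg (a : A) : iota e (-a) = (iota e a)⁻¹ := by
  rw [eq_inv_iff_mul_eq_one, ← iota_add, neg_add_cancel, iota_zero]

include e in
theorem comm_of_mem {x y : G} (hx : x ∈ Q) (hy : y ∈ Q) : x * y = y * x := by
  obtain ⟨a, rfl⟩ := exists_iota e hx
  obtain ⟨b, rfl⟩ := exists_iota e hy
  exact iota_comm e a b

/-- Conjugation by an element of the normalizer. -/
theorem exists_cj {g : G} (hg : g ∈ Subgroup.normalizer (Q : Set G)) :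
    ∃ t : A →+ A, (∀ a, iota e (t a) = g * iota e a * g⁻¹) ∧ Function.Injective t := by
  have hmem : ∀ a : A, g * iota e a * g⁻¹ ∈ Q := fun a =>
    (Subgroup.mem_normalizer_iff.mp hg _).mp (iota_mem e a)
  have hspec : ∀ a : A, ∃ b : A, iota e b = g * iota e a * g⁻¹ := fun a => exists_iota e (hmem a)
  choose f hf using hspec
  have hadd : ∀ a b, f (a + b) = f a + f b := by
    intro a b
    apply iota_inj e
    rw [hf, iota_add, iota_add, hf, hf]
    group
  refine ⟨AddMonoidHom.mk' f hadd, hf, ?_⟩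
  intro a b hab
  have h1 : f a = f b := hab
  have h2 := hf a
  rw [h1, hf b] at h2
  apply iota_inj e
  have h3 : g * iota e a * g⁻¹ = g * iota e b * g⁻¹ := h2.symm
  simpa using h3

theorem iter_cj {g : G} {t : A →+ A} (ht : ∀ a, iota e (t a) = g * iota e a * g⁻¹) (n : ℕ) (a : A) :
    iota e (t^[n] a) = g ^ n * iota e a * (g ^ n)⁻¹ := by
  induction n with
  | zero => simp
  | succ n ih =>
    rw [Function.iterate_succ_apply', ht, ih, pow_succ']
    group

end Iota

section Sylow

variable [Finite G]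

theorem exists_odd_pow_mem (Q : Sylow 2 G) {g : G}
    (hg : g ∈ Subgroup.normalizer ((Q : Subgroup G) : Set G)) :
    ∃ r : ℕ, Odd r ∧ g ^ r ∈ (Q : Subgroup G) := by
  set N := Subgroup.normalizer ((Q : Subgroup G) : Set G) with hN
  have hle : (Q : Subgroup G) ≤ N := Subgroup.le_normalizer
  haveI hnorm : ((Q : Subgroup G).subgroupOf N).Normal := Subgroup.normal_in_normalizer
  refine ⟨((Q : Subgroup G).subgroupOf N).index, ?_, ?_⟩
  · rw [← Nat.not_even_iff_odd, even_iff_two_dvd]
    intro hd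
    apply Q.not_dvd_index
    have h1 := Subgroup.relIndex_mul_index hle
    rw [← h1]
    exact Dvd.dvd.mul_right hd _
  · have h1 := Subgroup.pow_index_mem ((Q : Subgroup G).subgroupOf N) (⟨g, hg⟩ : N)
    rw [Subgroup.mem_subgroupOf] at h1
    simpa using h1

variable [Fintype A] [DecidableEq A] {m : ℕ}

/-- The trichotomy for the conjugation action of the normalizer of a Sylow 2-subgroup. -/
theorem nstep (Q : Sylow 2 G) (e : (Q : Subgroup G) ≃* Multiplicative A)
    (hexp : ∀ a : A, 2 ^ m • a = 0) (hV3 : (invs A).card = 3) {g : G}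
    (hg : g ∈ Subgroup.normalizer ((Q : Subgroup G) : Set G)) {t : A →+ A}
    (ht : ∀ a, iota e (t a) = g * iota e a * g⁻¹) (hinj : Function.Injective t) :
    (∀ a, t a = a) ∨ ((∀ a, t (t (t a)) = a) ∧ ∀ a, t a = a → a = 0) := by
  obtain ⟨r, hr, hgr⟩ := exists_odd_pow_mem Q hg
  refine vstep t hinj hr (fun a => ?_) hexp hV3
  apply iota_inj e
  rw [iter_cj e ht]
  have h1 := comm_of_mem e hgr (iota_mem e a)
  rw [h1]
  group

/-- An element of the normalizer fixing a nontrivial element centralizes the Sylow subgroup. -/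
theorem fix_central (Q : Sylow 2 G) (e : (Q : Subgroup G) ≃* Multiplicative A)
    (hexp : ∀ a : A, 2 ^ m • a = 0) (hV3 : (invs A).card = 3) {g x : G}
    (hg : g ∈ Subgroup.normalizer ((Q : Subgroup G) : Set G)) (hx : x ∈ (Q : Subgroup G))
    (hx1 : x ≠ 1) (hgx : g * x * g⁻¹ = x) {y : G} (hy : y ∈ (Q : Subgroup G)) :
    g * y * g⁻¹ = y := by
  obtain ⟨t, ht, hinj⟩ := exists_cj e hg
  obtain ⟨a, rfl⟩ := exists_iota e hx
  obtain ⟨b, rfl⟩ := exists_iota e hy
  have ha : a ≠ 0 := fun h => hx1 ((iota_eq_one e).mpr h)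
  rcases nstep Q e hexp hV3 hg ht hinj with h | ⟨_, h⟩
  · rw [← ht, h]
  · exfalso
    apply ha
    apply h
    apply iota_inj e
    rw [ht, hgx]

/-- The structure of the centralizer of a nontrivial element of a Sylow 2-subgroup. -/
theorem npc_data (Q : Sylow 2 G) (e : (Q : Subgroup G) ≃* Multiplicative A)
    (hexp : ∀ a : A, 2 ^ m • a = 0) (hV3 : (invs A).card = 3) {w : G}
    (hw : w ∈ (Q : Subgroup G)) (hw1 : w ≠ 1) :
    ∃ O : Subgroup (Subgroup.centralizer ({w} : Set G)), O.Normal ∧
      (Nat.card O).Coprime 2 ∧ (∃ k : ℕ, O.index = 2 ^ k) ∧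
      (∀ s u : Subgroup.centralizer ({w} : Set G), s * u * s⁻¹ * u⁻¹ ∈ O) := by
  classical
  have hle : (Q : Subgroup G) ≤ Subgroup.centralizer ({w} : Set G) := by
    intro x hx
    rw [Subgroup.mem_centralizer_singleton_iff]
    exact comm_of_mem e hx hw
  set C := Subgroup.centralizer ({w} : Set G) with hC
  let Q' : Sylow 2 C := Q.subtype hle
  have hQ'c : (Q' : Subgroup C) = (Q : Subgroup G).subgroupOf C := Q.coe_subtype hle
  have hcomm : ∀ s u : (Q' : Subgroup C), s * u = u * s := by
    intro s u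
    have hmemQ' : ∀ x : C, x ∈ (Q' : Subgroup C) → (x : G) ∈ (Q : Subgroup G) := by
      intro x hx
      rwa [hQ'c, Subgroup.mem_subgroupOf] at hx
    have hs : ((s : C) : G) ∈ (Q : Subgroup G) := hmemQ' _ s.2
    have hu : ((u : C) : G) ∈ (Q : Subgroup G) := hmemQ' _ u.2
    exact Subtype.ext (Subtype.ext (comm_of_mem e hs hu))
  have hN : Subgroup.normalizer (Q' : Subgroup C) ≤ Subgroup.centralizer ((Q' : Subgroup C) : Set C) := by
    intro g hg
    rw [Subgroup.mem_centralizer_iff]
    intro a ha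
    rw [SetLike.mem_coe, hQ'c, Subgroup.mem_subgroupOf] at ha
    have hgw : (g : G) * w = w * (g : G) := by
      have : (g : G) ∈ Subgroup.centralizer ({w} : Set G) := g.2
      rw [Subgroup.mem_centralizer_singleton_iff] at this
      exact this
    have hgN : (g : G) ∈ Subgroup.normalizer ((Q : Subgroup G) : Set G) := by
      rw [Subgroup.mem_normalizer_iff]
      rw [Subgroup.mem_normalizer_iff] at hg
      intro h
      constructor
      · intro hh
        have hhC : h ∈ C := hle hh
        have h1 : (⟨h, hhC⟩ : C) ∈ (Q' : Subgroup C) := by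
          rw [hQ'c, Subgroup.mem_subgroupOf]
          exact hh
        have h2 := (hg _).mp h1
        rw [hQ'c, Subgroup.mem_subgroupOf] at h2
        exact h2
      · intro hh
        have hhC : h ∈ C := by
          have h3 := hle hh
          have h4 : (g : G)⁻¹ * ((g : G) * h * (g : G)⁻¹) * (g : G) = h := by group
          rw [← h4]
          exact C.mul_mem (C.mul_mem (C.inv_mem g.2) h3) g.2
        have h1 : (g * ⟨h, hhC⟩ * g⁻¹ : C) ∈ (Q' : Subgroup C) := by
          rw [hQ'c, Subgroup.mem_subgroupOf]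
          exact hh
        have h2 := (hg _).mpr h1
        rw [hQ'c, Subgroup.mem_subgroupOf] at h2
        exact h2
    have h5 := fix_central Q e hexp hV3 hgN hw hw1 (by rw [hgw]; group) ha
    apply Subtype.ext
    show (a : G) * (g : G) = (g : G) * (a : G)
    exact (mul_inv_eq_iff_eq_mul.mp h5).symm
  let f := MonoidHom.transferSylow Q' hN
  have hcompl := MonoidHom.ker_transferSylow_isComplement' Q' hN
  refine ⟨f.ker, MonoidHom.normal_ker _, ?_, ?_, ?_⟩
  · rw [Nat.coprime_comm, Nat.prime_two.coprime_iff_not_dvd]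
    exact Cfsg.Agent.H01.not_dvd_card_of_complement Q' hcompl
  · obtain ⟨k, hk⟩ := Q'.2.exists_card_eq
    exact ⟨k, by rw [hcompl.symm.index_eq_card, hk]⟩
  · intro s u
    rw [MonoidHom.mem_ker, map_mul, map_mul, map_mul, map_inv, map_inv]
    have h := hcomm (f s) (f u)
    rw [h]
    group

/-- The square of the product of two involutions has odd order. -/
theorem involution_product (P : Sylow 2 G) (e : (P : Subgroup G) ≃* Multiplicative A)
    (hexp : ∀ a : A, 2 ^ m • a = 0) (hV3 : (invs A).card = 3) {t J : G} (ht : t * t = 1)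
    (hJ : J * J = 1) : ∃ n : ℕ, Odd n ∧ ((t * J) ^ 2) ^ n = 1 := by
  classical
  have htinv : t⁻¹ = t := inv_eq_of_mul_eq_one_left ht
  have hJinv : J⁻¹ = J := inv_eq_of_mul_eq_one_left hJ
  set r := orderOf (t * J) with hr
  rcases Nat.even_or_odd r with ⟨l, hl⟩ | hodd
  · have hlpos : 0 < l := by
      have : 0 < r := orderOf_pos _
      omega
    set w := (t * J) ^ l with hw
    have hw2 : w * w = 1 := by
      rw [hw, ← pow_add, ← hl, hr, pow_orderOf_eq_one]
    have hw1 : w ≠ 1 := by
      intro h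
      have := orderOf_dvd_of_pow_eq_one h
      rw [← hr] at this
      have := Nat.le_of_dvd hlpos this
      omega
    have hinvw : w⁻¹ = w := inv_eq_of_mul_eq_one_left hw2
    have htconj : t * (t * J) * t⁻¹ = (t * J)⁻¹ := by
      rw [htinv, mul_inv_rev, htinv, hJinv, ← mul_assoc, ht, one_mul]
    have hJconj : J * (t * J) * J⁻¹ = (t * J)⁻¹ := by
      rw [hJinv, mul_inv_rev, htinv, hJinv, mul_assoc, mul_assoc, hJ, mul_one]
    have htw : t * w = w * t := by
      have h1 : t * w * t⁻¹ = w⁻¹ := by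
        rw [hw, ← conj_pow, htconj, inv_pow]
      rw [hinvw] at h1
      exact mul_inv_eq_iff_eq_mul.mp h1
    have hJw : J * w = w * J := by
      have h1 : J * w * J⁻¹ = w⁻¹ := by
        rw [hw, ← conj_pow, hJconj, inv_pow]
      rw [hinvw] at h1
      exact mul_inv_eq_iff_eq_mul.mp h1
    have hord : orderOf w = 2 ^ 1 := by
      rw [pow_one]
      exact orderOf_eq_prime (by rw [sq]; exact hw2) hw1
    obtain ⟨Q, hQ⟩ := Cfsg.Agent.H21.exists_sylow_of_two_element hord
    let eQ : (Q : Subgroup G) ≃* Multiplicative A := (Sylow.equiv Q P).trans e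
    obtain ⟨O, hO, hcop, _, hab⟩ := npc_data Q eQ hexp hV3 hQ hw1
    have htC : t ∈ Subgroup.centralizer ({w} : Set G) := by
      rw [Subgroup.mem_centralizer_singleton_iff]
      exact htw.symm ▸ rfl
    have hJC : J ∈ Subgroup.centralizer ({w} : Set G) := by
      rw [Subgroup.mem_centralizer_singleton_iff]
      exact hJw.symm ▸ rfl
    have h1 := hab ⟨t, htC⟩ ⟨J, hJC⟩
    have h2 : (⟨t, htC⟩ * ⟨J, hJC⟩ * (⟨t, htC⟩ : Subgroup.centralizer ({w} : Set G))⁻¹ *
        (⟨J, hJC⟩ : Subgroup.centralizer ({w} : Set G))⁻¹ : Subgroup.centralizer ({w} : Set G)) =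
        ⟨(t * J) ^ 2, by
          rw [sq]
          exact Subgroup.mul_mem _ (Subgroup.mul_mem _ htC hJC) (Subgroup.mul_mem _ htC hJC)⟩ := by
      apply Subtype.ext
      simp only [Subgroup.coe_mul, Subgroup.coe_inv, htinv, hJinv]
      rw [sq]
      group
    rw [h2] at h1
    have hoddO : Odd (Nat.card O) := by
      rw [← Nat.not_even_iff_odd, even_iff_two_dvd]
      intro hd
      have := Nat.Coprime.eq_one_of_dvd hcop.symm hd
      omega
    refine ⟨Nat.card O, hoddO, ?_⟩
    have h3 : ((⟨_, h1⟩ : O)) ^ Nat.card O = 1 := pow_card_eq_one'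
    have h4 : (((⟨_, h1⟩ : O) ^ Nat.card O : O) : Subgroup.centralizer ({w} : Set G)) =
        ((1 : O) : Subgroup.centralizer ({w} : Set G)) := by rw [h3]
    have h5 := congrArg Subtype.val h4
    simpa only [SubmonoidClass.coe_pow, OneMemClass.coe_one] using h5
  · refine ⟨r, hodd, ?_⟩
    rw [← pow_mul, mul_comm, pow_mul, hr, pow_orderOf_eq_one, one_pow]


/-- The fusion data when the normalizer does not centralize. -/
theorem fusion_data (P : Sylow 2 G) (e : (P : Subgroup G) ≃* Multiplicative A)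
    (hexp : ∀ a : A, 2 ^ m • a = 0) (hV3 : (invs A).card = 3) {g₀ : G}
    (hg₀ : g₀ ∈ Subgroup.normalizer ((P : Subgroup G) : Set G))
    (hg₀c : g₀ ∉ Subgroup.centralizer ((P : Subgroup G) : Set G)) :
    ∃ τ : A →+ A, (∀ a, iota e (τ a) = g₀ * iota e a * g₀⁻¹) ∧
      (∀ a, τ (τ (τ a)) = a) ∧ (∀ a, τ a = a → a = 0) ∧
      (∀ a b, a ≠ 0 → (IsConj (iota e a) (iota e b) ↔ b = a ∨ b = τ a ∨ b = τ (τ a))) ∧
      (∀ g ∈ Subgroup.normalizer ((P : Subgroup G) : Set G),
        g ∈ Subgroup.centralizer ((P : Subgroup G) : Set G) ∨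
        g₀⁻¹ * g ∈ Subgroup.centralizer ((P : Subgroup G) : Set G) ∨
        g₀⁻¹ * (g₀⁻¹ * g) ∈ Subgroup.centralizer ((P : Subgroup G) : Set G)) := by
  classical
  obtain ⟨τ, hτ, hinj⟩ := exists_cj e hg₀
  have hcase := nstep P e hexp hV3 hg₀ hτ hinj
  have hne : ¬ ∀ a, τ a = a := by
    intro h
    apply hg₀c
    rw [Subgroup.mem_centralizer_iff]
    intro y hy
    obtain ⟨b, rfl⟩ := exists_iota e hy
    have h1 := hτ b
    rw [h b] at h1
    have h2 : iota e b * g₀ = g₀ * iota e b := by
      exact eq_mul_inv_iff_mul_eq.mp h1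
    exact h2
  obtain ⟨h3, hfix⟩ := hcase.resolve_left hne
  have hfix2 : ∀ a, τ (τ a) = a → a = 0 := by
    intro a h
    apply hfix
    have := h3 a
    rw [h] at this
    exact this
  -- an involution and its orbit
  have hcard : 0 < (invs A).card := by omega
  obtain ⟨v, hv⟩ := Finset.card_pos.mp hcard
  have hv0 := (mem_invs.mp hv).1
  have hv2 := (mem_invs.mp hv).2
  have hτmem : ∀ a ∈ invs A, τ a ∈ invs A := by
    intro a ha
    refine mem_invs.mpr ⟨fun h0 => (mem_invs.mp ha).1 (hinj (by rw [h0, map_zero])), ?_⟩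
    rw [← map_nsmul, (mem_invs.mp ha).2, map_zero]
  have horbit : invs A = {v, τ v, τ (τ v)} := by
    symm
    apply Finset.eq_of_subset_of_card_le
    · intro x hx
      simp only [Finset.mem_insert, Finset.mem_singleton] at hx
      rcases hx with rfl | rfl | rfl
      · exact hv
      · exact hτmem _ hv
      · exact hτmem _ (hτmem _ hv)
    · rw [hV3, Finset.card_insert_of_notMem, Finset.card_insert_of_notMem, Finset.card_singleton]
      · simp only [Finset.mem_singleton]
        intro h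
        exact hv0 (hfix v (hinj h).symm)
      · simp only [Finset.mem_insert, Finset.mem_singleton, not_or]
        exact ⟨fun h => hv0 (hfix _ h.symm), fun h => hv0 (hfix2 _ h.symm)⟩
  have hg0inv : ∀ a, g₀⁻¹ * iota e (τ a) * g₀ = iota e a := by
    intro a
    rw [hτ]
    group
  -- the trichotomy in the normalizer
  have hN : ∀ g ∈ Subgroup.normalizer ((P : Subgroup G) : Set G),
        g ∈ Subgroup.centralizer ((P : Subgroup G) : Set G) ∨
        g₀⁻¹ * g ∈ Subgroup.centralizer ((P : Subgroup G) : Set G) ∨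
        g₀⁻¹ * (g₀⁻¹ * g) ∈ Subgroup.centralizer ((P : Subgroup G) : Set G) := by
    intro g hg
    have hinvN : g₀⁻¹ ∈ Subgroup.normalizer ((P : Subgroup G) : Set G) := Subgroup.inv_mem _ hg₀
    have hcent : ∀ k ∈ Subgroup.normalizer ((P : Subgroup G) : Set G), k * iota e v * k⁻¹ = iota e v →
        k ∈ Subgroup.centralizer ((P : Subgroup G) : Set G) := by
      intro k hk hkv
      rw [Subgroup.mem_centralizer_iff]
      intro y hy
      have h1 := fix_central P e hexp hV3 hk (iota_mem e v)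
        (fun h => hv0 ((iota_eq_one e).mp h)) hkv hy
      exact (mul_inv_eq_iff_eq_mul.mp h1).symm
    obtain ⟨t, ht, htinj⟩ := exists_cj e hg
    have htv : t v ∈ invs A := by
      refine mem_invs.mpr ⟨fun h0 => hv0 (htinj (by rw [h0, map_zero])), ?_⟩
      rw [← map_nsmul, hv2, map_zero]
    rw [horbit] at htv
    simp only [Finset.mem_insert, Finset.mem_singleton] at htv
    rcases htv with h | h | h
    · left
      apply hcent g hg
      rw [← ht, h]
    · right; left
      apply hcent _ (Subgroup.mul_mem _ hinvN hg)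
      have h1 := ht v
      rw [h] at h1
      rw [mul_inv_rev, inv_inv]
      calc g₀⁻¹ * g * iota e v * (g⁻¹ * g₀) = g₀⁻¹ * (g * iota e v * g⁻¹) * g₀ := by group
        _ = g₀⁻¹ * iota e (τ v) * g₀ := by rw [h1]
        _ = iota e v := hg0inv v
    · right; right
      apply hcent _ (Subgroup.mul_mem _ hinvN (Subgroup.mul_mem _ hinvN hg))
      have h1 := ht v
      rw [h] at h1
      calc g₀⁻¹ * (g₀⁻¹ * g) * iota e v * (g₀⁻¹ * (g₀⁻¹ * g))⁻¹
          = g₀⁻¹ * (g₀⁻¹ * (g * iota e v * g⁻¹) * g₀) * g₀ := by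
            simp only [mul_inv_rev, inv_inv, mul_assoc]
        _ = g₀⁻¹ * (g₀⁻¹ * iota e (τ (τ v)) * g₀) * g₀ := by rw [h1]
        _ = g₀⁻¹ * iota e (τ v) * g₀ := by rw [hg0inv]
        _ = iota e v := hg0inv v
  refine ⟨τ, hτ, h3, hfix, ?_, hN⟩
  intro a b ha
  constructor
  · intro hconj
    obtain ⟨c, hc⟩ := isConj_iff.mp hconj
    have hcomm : ∀ (x y : G), x ∈ (P : Subgroup G) → y ∈ (P : Subgroup G) → x * y * x⁻¹ = y := by
      intro x y hx hy
      rw [comm_of_mem e hx hy]
      group
    obtain ⟨n, hn, hna⟩ := Cfsg.Agent.H23.burnside_conj P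
      (fun s hs => hcomm s _ hs (iota_mem e a)) (fun s hs => hcomm s _ hs (iota_mem e b)) hc
    have hcentral : ∀ k ∈ Subgroup.centralizer ((P : Subgroup G) : Set G), k * iota e a * k⁻¹ = iota e a := by
      intro k hk
      have h1 := (Subgroup.mem_centralizer_iff.mp hk) _ (iota_mem e a)
      rw [← h1]
      group
    rcases hN n hn with h | h | h
    · left
      apply iota_inj e
      rw [← hna, hcentral n h]
    · right; left
      apply iota_inj e
      have h1 := hcentral _ h
      rw [hτ, ← hna]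
      calc n * iota e a * n⁻¹ = g₀ * ((g₀⁻¹ * n) * iota e a * (g₀⁻¹ * n)⁻¹) * g₀⁻¹ := by group
        _ = g₀ * iota e a * g₀⁻¹ := by rw [h1]
    · right; right
      apply iota_inj e
      have h1 := hcentral _ h
      rw [hτ, hτ, ← hna]
      calc n * iota e a * n⁻¹ = g₀ * (g₀ * ((g₀⁻¹ * (g₀⁻¹ * n)) * iota e a * (g₀⁻¹ * (g₀⁻¹ * n))⁻¹) * g₀⁻¹) * g₀⁻¹ := by group
        _ = g₀ * (g₀ * iota e a * g₀⁻¹) * g₀⁻¹ := by rw [h1]
  · rintro (rfl | rfl | rfl)
    · exact IsConj.refl _
    · exact isConj_iff.mpr ⟨g₀, (hτ a).symm⟩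
    · exact isConj_iff.mpr ⟨g₀ * g₀, by rw [hτ, hτ]; group⟩

end Sylow

end Cfsg.Agent.H15.Homo
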