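import Cfsg.Agent.Lib.H15.LeechGolay
import Cfsg.Prelude.Def_Spor_Conway

/-!
# Short representatives of the classes modulo twice the lattice
-/

set_option autoImplicit false
set_option maxRecDepth 100000
set_option linter.unusedSimpArgs false
set_option linter.unusedVariables false

namespace Cfsg.Agent.H15.LeechRep

open Cfsg Cfsg.Agent.H27.Golay Cfsg.Agent.H26.GolayMod Cfsg.Agent.H26.Leech
open Cfsg.Agent.H15.LeechGolay

/-- Lift of a bit. -/
def lift (a : ZMod 2) : ℤ := if a = 0 then 0 else 1

theorem bit_cases (a : ZMod 2) : a = 0 ∨ a = 1 := by revert a; decide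

@[simp] theorem lift_zero : lift 0 = 0 := rfl
@[simp] theorem lift_one : lift 1 = 1 := by decide

theorem sum_lift (a : GolayPt → ZMod 2) : ∑ i, lift (a i) = ((support₂ a).card : ℤ) := by
  have h : ∀ i, lift (a i) = if a i ≠ 0 then 1 else 0 := by
    intro i
    rcases bit_cases (a i) with e | e <;> rw [e] <;> decide
  simp_rw [h]
  rw [Finset.sum_boole]
  rfl

theorem weight4 {u : GolayPt → ZMod 2} (hu : u ∈ golayCode) : 4 ∣ (support₂ u).card := by
  rcases supports_weights (s := support₂ u) ⟨u, hu, rfl⟩ with h | ⟨_, h⟩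
  · rw [h]; exact dvd_zero _
  · exact h

/-- Membership criterion for halves. -/
theorem crit {x y : GolayPt → ℤ} {u : GolayPt → ZMod 2} (hu : u ∈ golayCode)
    (h : ∀ i, (x i - y i) % 8 = (4 * lift (u i)) % 8)
    (hs : (∑ i, (x i - y i)) % 16 = 0) : ∃ z ∈ leechLattice, x - y = 2 • z := by
  have hev : ∀ i, (x i - y i) % 2 = 0 := by
    intro i
    have := h i
    rcases bit_cases (u i) with e | e <;> rw [e] at this <;> simp at this <;> omega
  have h2 : ∀ i, x i - y i = 2 * ((x i - y i) / 2) := by
    intro i
    have := hev i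
    omega
  refine ⟨fun i => (x i - y i) / 2, ?_, ?_⟩
  · rw [mem_leechLattice_iff, mem_leechSet_iff]
    refine ⟨0, ?_, ?_, ?_⟩
    · intro i
      have := h i
      show ((x i - y i) / 2) % 2 = (0 : ℤ) % 2
      rcases bit_cases (u i) with e | e <;> rw [e] at this <;> simp at this <;> omega
    · have h3 : ∑ i, (x i - y i) = 2 * ∑ i, ((x i - y i) / 2) := by
        rw [Finset.mul_sum]
        exact Finset.sum_congr rfl fun i _ => h2 i
      show (∑ i, ((x i - y i) / 2)) % 8 = (4 * (0 : ℤ)) % 8
      rw [h3] at hs
      omega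
    · have : hi (fun i => (x i - y i) / 2) = u := by
        funext i
        have := h i
        show hiZ ((x i - y i) / 2) = u i
        unfold hiZ
        rcases bit_cases (u i) with e | e <;> rw [e] at this ⊢ <;> simp at this
        · rw [if_neg (by omega)]
        · rw [if_pos (by omega)]
      rw [this]
      exact hu
  · funext i
    simp only [Pi.sub_apply, Pi.smul_apply, smul_eq_mul, nsmul_eq_mul]
    have := h2 i
    push_cast
    omega

/-- The difference sum is divisible by eight. -/
theorem sum_mod8 {x y : GolayPt → ℤ} {u : GolayPt → ZMod 2} (hu : u ∈ golayCode)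
    (h : ∀ i, (x i - y i) % 8 = (4 * lift (u i)) % 8) : (∑ i, (x i - y i)) % 8 = 0 := by
  have h1 : (8 : ℤ) ∣ ∑ i, (x i - y i - 4 * lift (u i)) := by
    apply Finset.dvd_sum
    intro i _
    have := h i
    omega
  rw [Finset.sum_sub_distrib, ← Finset.mul_sum, sum_lift] at h1
  obtain ⟨k, hk⟩ := weight4 hu
  rw [hk] at h1
  push_cast at h1
  omega

theorem sum_update_diff (x y : GolayPt → ℤ) (t : GolayPt) (a : ℤ) :
    ∑ i, (x i - Function.update y t a i) = ∑ i, (x i - y i) + (y t - a) := by
  have h : ∑ i, (x i - Function.update y t a i) - ∑ i, (x i - y i) = y t - a := by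
    rw [← Finset.sum_sub_distrib]
    rw [Finset.sum_eq_single t]
    · simp
    · intro b _ hb
      simp [Function.update_of_ne hb]
    · simp
  linarith

theorem sqNorm_update (y : GolayPt → ℤ) (t : GolayPt) (a : ℤ) :
    sqNorm (Function.update y t a) = sqNorm y - y t ^ 2 + a ^ 2 := by
  have h : sqNorm (Function.update y t a) - sqNorm y = a ^ 2 - y t ^ 2 := by
    unfold sqNorm
    rw [← Finset.sum_sub_distrib]
    rw [Finset.sum_eq_single t]
    · simp
    · intro b _ hb
      simp [Function.update_of_ne hb]
    · simp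
  linarith

/-- Moving one coordinate by eight repairs the residue of the sum. -/
theorem flip {x y : GolayPt → ℤ} {u : GolayPt → ZMod 2} (hu : u ∈ golayCode)
    (h : ∀ i, (x i - y i) % 8 = (4 * lift (u i)) % 8)
    (hs : (∑ i, (x i - y i)) % 16 = 8) (t : GolayPt) (a : ℤ) (ha : a = y t + 8 ∨ a = y t - 8) :
    ∃ z ∈ leechLattice, x - Function.update y t a = 2 • z := by
  apply crit hu
  · intro i
    by_cases hi : i = t
    · subst hi
      rw [Function.update_self]
      have := h i
      rcases ha with rfl | rfl <;> omega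
    · rw [Function.update_of_ne hi]
      exact h i
  · rw [sum_update_diff]
    rcases ha with rfl | rfl <;> omega

/-- The bit of the parity of an integer. -/
def bitz (n : ℤ) : ZMod 2 := if n % 2 = 0 then 0 else 1

theorem hiZ_even0 {a : ℤ} (h : a % 4 = 0) : hiZ a = 0 := by
  unfold hiZ; rw [if_neg (by omega)]
theorem hiZ_even2 {a : ℤ} (h : a % 4 = 2) : hiZ a = 1 := by
  unfold hiZ; rw [if_pos (by omega)]
theorem hiZ_odd1 {a : ℤ} (h : a % 4 = 1) : hiZ a = 0 := by
  unfold hiZ; rw [if_neg (by omega)]
theorem hiZ_odd3 {a : ℤ} (h : a % 4 = 3) : hiZ a = 1 := by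
  unfold hiZ; rw [if_pos (by omega)]

theorem one_add_one : (1 : ZMod 2) + 1 = 0 := by decide
theorem one_ne : (1 : ZMod 2) ≠ 0 := by decide

/-- The even representative at a point. -/
def yE (c t : ZMod 2) : ℤ :=
  if c = 0 then (if t = 0 then 0 else 4) else (if t = 0 then 2 else -2)

/-- The odd representative at a point. -/
def yO (c t : ZMod 2) : ℤ :=
  if c = 0 then (if t = 0 then 1 else -3) else (if t = 0 then -1 else 3)

/-- The quarter word, even case. -/
def wE (c : ZMod 2) (a : ℤ) : ZMod 2 := bitz ((a - (if c = 0 then 0 else 2)) / 4)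
/-- The quarter word, odd case. -/
def wO (c : ZMod 2) (a : ℤ) : ZMod 2 := bitz ((a - (if c = 0 then 1 else -1)) / 4)

theorem pointE (a : ℤ) (ha : a % 2 = 0) (ub : ZMod 2) :
    (a - yE (hiZ a) (wE (hiZ a) a + ub)) % 8 = (4 * lift ub) % 8 := by
  have h4 : a % 4 = 0 ∨ a % 4 = 2 := by omega
  rcases h4 with h4 | h4
  · rw [hiZ_even0 h4]
    unfold wE bitz yE
    simp only [if_true]
    by_cases hs : ((a - 0) / 4) % 2 = 0
    · rw [if_pos hs]
      rcases bit_cases ub with rfl | rfl
      · simp; omega
      · simp; omega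
    · rw [if_neg hs]
      rcases bit_cases ub with rfl | rfl
      · simp; omega
      · simp [one_add_one]; omega
  · rw [hiZ_even2 h4]
    unfold wE bitz yE
    simp only [one_ne, if_false]
    by_cases hs : ((a - 2) / 4) % 2 = 0
    · rw [if_pos hs]
      rcases bit_cases ub with rfl | rfl
      · simp; omega
      · simp; omega
    · rw [if_neg hs]
      rcases bit_cases ub with rfl | rfl
      · simp; omega
      · simp [one_add_one]; omega

theorem pointO (a : ℤ) (ha : a % 2 = 1) (ub : ZMod 2) :
    (a - yO (hiZ a) (wO (hiZ a) a + ub)) % 8 = (4 * lift ub) % 8 := by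
  have h4 : a % 4 = 1 ∨ a % 4 = 3 := by omega
  rcases h4 with h4 | h4
  · rw [hiZ_odd1 h4]
    unfold wO bitz yO
    simp only [if_true]
    by_cases hs : ((a - 1) / 4) % 2 = 0
    · rw [if_pos hs]
      rcases bit_cases ub with rfl | rfl
      · simp; omega
      · simp; omega
    · rw [if_neg hs]
      rcases bit_cases ub with rfl | rfl
      · simp; omega
      · simp [one_add_one]; omega
  · rw [hiZ_odd3 h4]
    unfold wO bitz yO
    simp only [one_ne, if_false]
    by_cases hs : ((a - -1) / 4) % 2 = 0
    · rw [if_pos hs]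
      rcases bit_cases ub with rfl | rfl
      · simp; omega
      · simp; omega
    · rw [if_neg hs]
      rcases bit_cases ub with rfl | rfl
      · simp; omega
      · simp [one_add_one]; omega

theorem card_one : (∑ _i : GolayPt, (1 : ℤ)) = 24 := by
  simp

/-- The odd case. -/
theorem odd_case {x : GolayPt → ℤ} (hpar : ∀ i, x i % 2 = 1) (hsum : (∑ i, x i) % 8 = 4)
    (hc : hi x ∈ golayCode) :
    ∃ y : GolayPt → ℤ, sqNorm y ≤ 64 ∧ ∃ z ∈ leechLattice, x - y = 2 • z := by
  set c := hi x with hcdef
  obtain ⟨u, hu, hb⟩ := cover (c := 0) golayCode.zero_mem (by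
    have : support₂ (0 : GolayPt → ZMod 2) = ∅ := by ext p; simp [mem_support₂]
    rw [this]; simp) (fun i => wO (c i) (x i))
  have hz : support₂ (0 : GolayPt → ZMod 2) = ∅ := by ext p; simp [mem_support₂]
  rw [hz, Finset.sdiff_empty] at hb
  simp only [Finset.card_empty, mul_zero, zero_add] at hb
  set τ : GolayPt → ZMod 2 := (fun i => wO (c i) (x i)) + u with hτ
  set y₀ : GolayPt → ℤ := fun i => yO (c i) (τ i) with hy₀
  have hpt : ∀ i, (x i - y₀ i) % 8 = (4 * lift (u i)) % 8 := fun i => pointO (x i) (hpar i) (u i)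
  have h8 := sum_mod8 hu hpt
  -- the parity of `τ`
  have hcong : (8 : ℤ) ∣ ∑ i, (y₀ i - (1 - 2 * lift (c i) + 4 * lift (τ i))) := by
    apply Finset.dvd_sum
    intro i _
    show (8 : ℤ) ∣ yO (c i) (τ i) - _
    rcases bit_cases (c i) with e | e <;> rcases bit_cases (τ i) with e' | e' <;>
      rw [e, e'] <;> decide
  have hcard : (∑ _i : GolayPt, (1 : ℤ)) = 24 := card_one
  rw [Finset.sum_sub_distrib, Finset.sum_add_distrib, Finset.sum_sub_distrib, hcard,
    ← Finset.mul_sum, ← Finset.mul_sum, sum_lift, sum_lift] at hcong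
  obtain ⟨k, hk⟩ := weight4 hc
  rw [hk] at hcong
  push_cast at hcong
  rw [Finset.sum_sub_distrib] at h8
  have hTodd : (support₂ τ).card % 2 = 1 := by omega
  have hT3 : (support₂ τ).card ≤ 3 := by omega
  have hnorm : sqNorm y₀ = 24 + 8 * ((support₂ τ).card : ℤ) := by
    have : ∀ i, y₀ i ^ 2 = 1 + 8 * lift (τ i) := by
      intro i
      show yO (c i) (τ i) ^ 2 = _
      rcases bit_cases (c i) with e | e <;> rcases bit_cases (τ i) with e' | e' <;>
        rw [e, e'] <;> decide
    unfold sqNorm
    simp_rw [this]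
    rw [Finset.sum_add_distrib, hcard, ← Finset.mul_sum, sum_lift]
  have h16 : (∑ i, (x i - y₀ i)) % 16 = 0 ∨ (∑ i, (x i - y₀ i)) % 16 = 8 := by
    rw [Finset.sum_sub_distrib] at *
    omega
  rcases h16 with h16 | h16
  · obtain ⟨z, hz, he⟩ := crit hu hpt h16
    exact ⟨y₀, by rw [hnorm]; omega, z, hz, he⟩
  · have hne : (support₂ τ).Nonempty := by
      rw [← Finset.card_pos]; omega
    obtain ⟨t, ht⟩ := hne
    have ht' : τ t ≠ 0 := mem_support₂.1 ht
    have ht1 : τ t = 1 := by
      rcases bit_cases (τ t) with e | e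
      · exact absurd e ht'
      · exact e
    rcases bit_cases (c t) with e | e
    · have hy : y₀ t = -3 := by
        show yO (c t) (τ t) = _
        rw [e, ht1]; decide
      obtain ⟨z, hz, he⟩ := flip hu hpt h16 t 5 (Or.inl (by rw [hy]; norm_num))
      refine ⟨_, ?_, z, hz, he⟩
      rw [sqNorm_update, hnorm, hy]
      omega
    · have hy : y₀ t = 3 := by
        show yO (c t) (τ t) = _
        rw [e, ht1]; decide
      obtain ⟨z, hz, he⟩ := flip hu hpt h16 t (-5) (Or.inr (by rw [hy]; norm_num))
      refine ⟨_, ?_, z, hz, he⟩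
      rw [sqNorm_update, hnorm, hy]
      omega

theorem lift_add (a b : ZMod 2) : lift (a + b) = lift a + lift b - 2 * (lift a * lift b) := by
  revert a b; decide

/-- Two code words meet in an even number of points. -/
theorem dot_even {a b : GolayPt → ZMod 2} (ha : a ∈ golayCode) (hb : b ∈ golayCode) :
    (∑ i, lift (a i) * lift (b i)) % 2 = 0 := by
  have h1 : ∑ i, lift ((a + b) i) =
      ∑ i, lift (a i) + ∑ i, lift (b i) - 2 * ∑ i, lift (a i) * lift (b i) := by
    rw [Finset.mul_sum, ← Finset.sum_add_distrib, ← Finset.sum_sub_distrib]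
    exact Finset.sum_congr rfl fun i _ => lift_add _ _
  rw [sum_lift, sum_lift, sum_lift] at h1
  obtain ⟨k1, h1'⟩ := weight4 ha
  obtain ⟨k2, h2'⟩ := weight4 hb
  obtain ⟨k3, h3'⟩ := weight4 (golayCode.add_mem ha hb)
  rw [h1', h2', h3'] at h1
  push_cast at h1
  omega

/-- The dodecad case with nothing off the dodecad and the wrong residue: pass to the complement. -/
theorem dodecad_special {x : GolayPt → ℤ} {c u τ : GolayPt → ZMod 2} (hc : c ∈ golayCode)
    (hu : u ∈ golayCode) (hC : (support₂ c).card = 12)
    (hP : ∀ i, c i = 0 → τ i = 0)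
    (hpt : ∀ i, (x i - yE (c i) (τ i)) % 8 = (4 * lift (u i)) % 8)
    (hs : (∑ i, (x i - yE (c i) (τ i))) % 16 = 8)
    (hTev : (support₂ τ).card % 2 = 0) :
    ∃ y : GolayPt → ℤ, sqNorm y ≤ 64 ∧ ∃ z ∈ leechLattice, x - y = 2 • z := by
  have hone : (fun _ => 1 : GolayPt → ZMod 2) ∈ golayCode := allOnes_mem
  set c' : GolayPt → ZMod 2 := c + fun _ => 1 with hc'
  have hc'm : c' ∈ golayCode := golayCode.add_mem hc hone
  have hc'card : (support₂ c').card = 12 := by
    show (support₂ (c + fun _ => 1)).card = 12
    rw [card_support_add_one, hC]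
  obtain ⟨u', hu', hb⟩ := cover hc'm (by omega) τ
  rw [hc'card] at hb
  have hQ1 : (support₂ (τ + u') \ support₂ c').card ≤ 1 := by omega
  -- the parity of `Q`
  have hQ : (support₂ (τ + u') \ support₂ c').card = ∑ i, lift ((τ + u') i) * lift (c i) := by
    have : ∀ i, lift ((τ + u') i) * lift (c i) =
        if (τ + u') i ≠ 0 ∧ ¬ (c' i ≠ 0) then 1 else 0 := by
      intro i
      simp only [hc', Pi.add_apply]
      generalize (τ i + u' i) = a
      generalize c i = b
      revert a b
      decide
    simp_rw [this]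
    rw [Finset.sum_boole]
    congr 2
    ext p
    simp [mem_support₂, Finset.mem_sdiff]
  have hQev : (∑ i, lift ((τ + u') i) * lift (c i)) % 2 = 0 := by
    have h1 : ∑ i, lift ((τ + u') i) * lift (c i) =
        ∑ i, lift (τ i) + ∑ i, lift (u' i) * lift (c i)
          - 2 * ∑ i, lift (τ i) * lift (u' i) * lift (c i) := by
      rw [Finset.mul_sum, ← Finset.sum_add_distrib, ← Finset.sum_sub_distrib]
      refine Finset.sum_congr rfl fun i _ => ?_
      have hi := hP i
      simp only [Pi.add_apply]
      rcases bit_cases (c i) with e | e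
      · rw [hi e, e]; simp
      · rw [e, lift_add]; simp
    rw [h1, sum_lift]
    have := dot_even hu' hc
    omega
  have hQ0 : (support₂ (τ + u') \ support₂ c') = ∅ := by
    rw [← Finset.card_eq_zero]
    have : (((support₂ (τ + u') \ support₂ c').card : ℕ) : ℤ) % 2 = 0 := by
      rw [hQ]; exact hQev
    omega
  have hagree : ∀ i, c i = 1 → u' i = τ i := by
    intro i hi
    by_contra hne
    have hm : i ∈ support₂ (τ + u') \ support₂ c' := by
      rw [Finset.mem_sdiff, mem_support₂, mem_support₂]
      simp only [hc', Pi.add_apply, hi, one_add_one]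
      refine ⟨?_, by simp⟩
      intro h0
      apply hne
      generalize τ i = a at *
      generalize u' i = b at *
      revert a b
      decide
    rw [hQ0] at hm
    simp at hm
  -- the new vector
  set y' : GolayPt → ℤ := fun i => if c i = 0 then (if u' i = 0 then 2 else -2) else 0 with hy'
  have hdiff : ∀ i, yE (c i) (τ i) - y' i =
      4 * lift (c i) - 2 - 8 * lift (τ i) + 4 * lift (u' i) := by
    intro i
    simp only [hy', yE]
    rcases bit_cases (c i) with e | e
    · rw [e, hP i e]
      rcases bit_cases (u' i) with e' | e' <;> rw [e'] <;> decide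
    · rw [hagree i e, e]
      rcases bit_cases (τ i) with e' | e' <;> rw [e'] <;> decide
  have hsumdiff : ∑ i, (x i - y' i) = ∑ i, (x i - yE (c i) (τ i)) +
      (4 * ((support₂ c).card : ℤ) - 48 - 8 * ((support₂ τ).card : ℤ)
        + 4 * ((support₂ u').card : ℤ)) := by
    have h1 : ∑ i, (x i - y' i) = ∑ i, (x i - yE (c i) (τ i)) + ∑ i, (yE (c i) (τ i) - y' i) := by
      rw [← Finset.sum_add_distrib]
      exact Finset.sum_congr rfl fun i _ => by ring
    rw [h1]
    congr 1
    simp_rw [hdiff]
    have h48 : (∑ _i : GolayPt, (2 : ℤ)) = 48 := by simp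
    rw [Finset.sum_add_distrib, Finset.sum_sub_distrib, Finset.sum_sub_distrib, h48,
      ← Finset.mul_sum, ← Finset.mul_sum, ← Finset.mul_sum, sum_lift, sum_lift, sum_lift]
  have hsum16 : (∑ i, (x i - y' i)) % 16 = 8 := by
    rw [hsumdiff, hC]
    obtain ⟨k, hk⟩ := weight4 hu'
    rw [hk]
    push_cast
    omega
  have hpar : ∀ i, (x i - y' i) % 4 = 2 := by
    intro i
    have := hpt i
    simp only [hy', yE] at this ⊢
    rcases bit_cases (c i) with e | e <;> rw [e] at this ⊢
    · rw [hP i e] at this
      rcases bit_cases (u' i) with e' | e' <;> rcases bit_cases (u i) with e'' | e'' <;>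
        rw [e''] at this <;> simp [e'] at this ⊢ <;> omega
    · rcases bit_cases (τ i) with e' | e' <;> rcases bit_cases (u i) with e'' | e'' <;>
        rw [e'] at this <;> rw [e''] at this <;> simp at this ⊢ <;> omega
  have h2 : ∀ i, x i - y' i = 2 * ((x i - y' i) / 2) := by
    intro i
    have := hpar i
    omega
  refine ⟨y', ?_, fun i => (x i - y' i) / 2, ?_, ?_⟩
  · have : ∀ i, y' i ^ 2 = 4 - 4 * lift (c i) := by
      intro i
      simp only [hy']
      rcases bit_cases (c i) with e | e
      · rw [e]
        rcases bit_cases (u' i) with e' | e' <;> rw [e'] <;> decide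
      · rw [e]; simp [one_ne]
    unfold sqNorm
    simp_rw [this]
    have h96 : (∑ _i : GolayPt, (4 : ℤ)) = 96 := by simp
    rw [Finset.sum_sub_distrib, h96, ← Finset.mul_sum, sum_lift, hC]
    norm_num
  · rw [mem_leechLattice_iff, mem_leechSet_iff]
    refine ⟨1, ?_, ?_, ?_⟩
    · intro i
      have := hpar i
      show ((x i - y' i) / 2) % 2 = (1 : ℤ) % 2
      omega
    · have h3 : ∑ i, (x i - y' i) = 2 * ∑ i, ((x i - y' i) / 2) := by
        rw [Finset.mul_sum]
        exact Finset.sum_congr rfl fun i _ => h2 i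
      show (∑ i, ((x i - y' i) / 2)) % 8 = (4 * (1 : ℤ)) % 8
      rw [h3] at hsum16
      omega
    · have : hi (fun i => (x i - y' i) / 2) = u + u' + c' := by
        funext i
        have := hpt i
        show hiZ ((x i - y' i) / 2) = u i + u' i + (c i + 1)
        rcases bit_cases (c i) with e | e
        · have hτ0 := hP i e
          rw [e, hτ0] at this
          have hy : y' i = if u' i = 0 then 2 else -2 := by simp [hy', e]
          have hy0 : yE 0 0 = 0 := rfl
          rw [hy0] at this
          rw [hy, e]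
          rcases bit_cases (u' i) with e' | e' <;> rcases bit_cases (u i) with e'' | e'' <;>
            rw [e''] at this <;> rw [e', e''] <;> simp only [one_ne, if_false, if_true,
              eq_self_iff_true, lift_zero, lift_one, mul_zero, mul_one, ↓reduceIte] at this ⊢ <;> first
              | (rw [hiZ_odd1 (by omega)]; decide)
              | (rw [hiZ_odd3 (by omega)]; decide)
        · have hy : y' i = 0 := by simp [hy', e, one_ne]
          rw [e] at this
          rw [hy, e, hagree i e]
          rcases bit_cases (τ i) with e' | e' <;> rcases bit_cases (u i) with e'' | e'' <;>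
            rw [e'] at this <;> rw [e''] at this <;> rw [e', e''] <;> simp only [yE, one_ne, if_false, if_true,
              eq_self_iff_true, lift_zero, lift_one, mul_zero, mul_one, ↓reduceIte] at this ⊢ <;> first
              | (rw [hiZ_odd1 (by omega)]; decide)
              | (rw [hiZ_odd3 (by omega)]; decide)
      rw [this]
      exact golayCode.add_mem (golayCode.add_mem hu hu') hc'm
  · funext i
    simp only [Pi.sub_apply, Pi.smul_apply, smul_eq_mul, nsmul_eq_mul]
    have := h2 i
    push_cast
    omega

/-- The even case when the code word has weight at most twelve. -/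
theorem even_small {x : GolayPt → ℤ} (hpar : ∀ i, x i % 2 = 0) (hsum : (∑ i, x i) % 8 = 0)
    (hc : hi x ∈ golayCode) (hc12 : (support₂ (hi x)).card ≤ 12) :
    ∃ y : GolayPt → ℤ, sqNorm y ≤ 64 ∧ ∃ z ∈ leechLattice, x - y = 2 • z := by
  set c := hi x with hcdef
  obtain ⟨u, hu, hb⟩ := cover hc hc12 (fun i => wE (c i) (x i))
  set τ : GolayPt → ZMod 2 := (fun i => wE (c i) (x i)) + u with hτ
  set y₀ : GolayPt → ℤ := fun i => yE (c i) (τ i) with hy₀
  have hpt : ∀ i, (x i - y₀ i) % 8 = (4 * lift (u i)) % 8 := fun i => pointE (x i) (hpar i) (u i)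
  have h8 := sum_mod8 hu hpt
  have hcong : (8 : ℤ) ∣ ∑ i, (y₀ i - (2 * lift (c i) + 4 * lift (τ i))) := by
    apply Finset.dvd_sum
    intro i _
    show (8 : ℤ) ∣ yE (c i) (τ i) - _
    rcases bit_cases (c i) with e | e <;> rcases bit_cases (τ i) with e' | e' <;>
      rw [e, e'] <;> decide
  rw [Finset.sum_sub_distrib, Finset.sum_add_distrib,
    ← Finset.mul_sum, ← Finset.mul_sum, sum_lift, sum_lift] at hcong
  obtain ⟨k, hk⟩ := weight4 hc
  have hnorm : sqNorm y₀ = 4 * ((support₂ c).card : ℤ)
      + 16 * ((support₂ τ \ support₂ c).card : ℤ) := by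
    have hP : ((support₂ τ \ support₂ c).card : ℤ) = ∑ i, lift (τ i) * (1 - lift (c i)) := by
      have : ∀ i, lift (τ i) * (1 - lift (c i)) = if τ i ≠ 0 ∧ ¬ (c i ≠ 0) then 1 else 0 := by
        intro i
        generalize τ i = a
        generalize c i = b
        revert a b
        decide
      simp_rw [this]
      rw [Finset.sum_boole]
      congr 2
      ext p
      simp [mem_support₂, Finset.mem_sdiff]
    have : ∀ i, y₀ i ^ 2 = 4 * lift (c i) + 16 * (lift (τ i) * (1 - lift (c i))) := by
      intro i
      show yE (c i) (τ i) ^ 2 = _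
      rcases bit_cases (c i) with e | e <;> rcases bit_cases (τ i) with e' | e' <;>
        rw [e, e'] <;> decide
    unfold sqNorm
    simp_rw [this]
    rw [Finset.sum_add_distrib, ← Finset.mul_sum, ← Finset.mul_sum, sum_lift, hP]
  have hb' : (4 * ((support₂ c).card : ℤ) + 16 * ((support₂ τ \ support₂ c).card : ℤ)) ≤ 64 := by
    exact_mod_cast hb
  have h16 : (∑ i, (x i - y₀ i)) % 16 = 0 ∨ (∑ i, (x i - y₀ i)) % 16 = 8 := by
    omega
  rcases h16 with h16 | h16
  · obtain ⟨z, hz, he⟩ := crit hu hpt h16
    exact ⟨y₀, by rw [hnorm]; exact hb', z, hz, he⟩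
  · by_cases hne : (support₂ τ \ support₂ c).Nonempty
    · obtain ⟨t, ht⟩ := hne
      rw [Finset.mem_sdiff, mem_support₂, mem_support₂] at ht
      have ht1 : τ t = 1 := (bit_cases (τ t)).resolve_left ht.1
      have ht0 : c t = 0 := by
        by_contra h
        exact ht.2 h
      have hy : y₀ t = 4 := by
        show yE (c t) (τ t) = _
        rw [ht0, ht1]; decide
      obtain ⟨z, hz, he⟩ := flip hu hpt h16 t (-4) (Or.inr (by rw [hy]; norm_num))
      refine ⟨_, ?_, z, hz, he⟩
      rw [sqNorm_update, hnorm, hy]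
      linarith
    · have hPe : ∀ i, c i = 0 → τ i = 0 := by
        intro i hi
        by_contra h
        apply hne
        refine ⟨i, ?_⟩
        rw [Finset.mem_sdiff, mem_support₂, mem_support₂]
        exact ⟨h, fun h' => h' hi⟩
      rcases supports_weights (s := support₂ c) ⟨c, hc, rfl⟩ with h0 | ⟨h8', h4⟩
      · -- the zero word
        have hc0 : ∀ i, c i = 0 := by
          intro i
          by_contra h
          have : i ∈ support₂ c := mem_support₂.2 h
          rw [h0] at this
          simp at this
        have hy0 : ∀ i, y₀ i = 0 := by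
          intro i
          show yE (c i) (τ i) = 0
          rw [hc0 i, hPe i (hc0 i)]; rfl
        obtain ⟨z, hz, he⟩ := flip hu hpt h16 none 8 (Or.inl (by rw [hy0]; norm_num))
        refine ⟨_, ?_, z, hz, he⟩
        rw [sqNorm_update, hy0]
        have : sqNorm y₀ = 0 := by
          unfold sqNorm
          simp [hy0]
        rw [this]
        norm_num
      · have hcases : (support₂ c).card = 8 ∨ (support₂ c).card = 12 := by omega
        rcases hcases with h8c | h12c
        · -- an octad: a coordinate of absolute value six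
          have hne' : (support₂ c).Nonempty := by
            rw [← Finset.card_pos]; omega
          obtain ⟨t, ht⟩ := hne'
          have ht1 : c t = 1 := (bit_cases (c t)).resolve_left (mem_support₂.1 ht)
          have hPcard : (support₂ τ \ support₂ c) = ∅ := Finset.not_nonempty_iff_eq_empty.1 hne
          rw [hPcard, h8c] at hnorm
          rcases bit_cases (τ t) with e | e
          · have hy : y₀ t = 2 := by
              show yE (c t) (τ t) = _
              rw [ht1, e]; decide
            obtain ⟨z, hz, he⟩ := flip hu hpt h16 t (-6) (Or.inr (by rw [hy]; norm_num))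
            refine ⟨_, ?_, z, hz, he⟩
            rw [sqNorm_update, hnorm, hy]
            norm_num
          · have hy : y₀ t = -2 := by
              show yE (c t) (τ t) = _
              rw [ht1, e]; decide
            obtain ⟨z, hz, he⟩ := flip hu hpt h16 t 6 (Or.inl (by rw [hy]; norm_num))
            refine ⟨_, ?_, z, hz, he⟩
            rw [sqNorm_update, hnorm, hy]
            norm_num
        · -- a dodecad
          rw [Finset.sum_sub_distrib] at h8
          have hTev : (support₂ τ).card % 2 = 0 := by
            rw [h12c] at hcong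
            push_cast at hcong
            omega
          exact dodecad_special hc hu h12c hPe hpt h16 hTev

/-- The complement reduction for the even case. -/
theorem even_case {x : GolayPt → ℤ} (hpar : ∀ i, x i % 2 = 0) (hsum : (∑ i, x i) % 8 = 0)
    (hc : hi x ∈ golayCode) :
    ∃ y : GolayPt → ℤ, sqNorm y ≤ 64 ∧ ∃ z ∈ leechLattice, x - y = 2 • z := by
  by_cases hc12 : (support₂ (hi x)).card ≤ 12
  · exact even_small hpar hsum hc hc12
  · -- subtract twice an odd vector
    have hV : Spor.vecV ∈ leechLattice := AddSubgroup.subset_closure Spor.vecV_mem_leechSet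
    set x' : GolayPt → ℤ := x - 2 • Spor.vecV with hx'
    have hVval : ∀ i, Spor.vecV i = -1 ∨ Spor.vecV i = -5 := by
      intro i
      unfold Spor.vecV
      by_cases h : i = none
      · right; simp [h]
      · left; simp [h]
    have hxi : ∀ i, x' i = x i - 2 * Spor.vecV i := by
      intro i
      simp [hx']
    have hpar' : ∀ i, x' i % 2 = 0 := by
      intro i
      have := hpar i
      rw [hxi]
      omega
    have hhi : hi x' = hi x + fun _ => 1 := by
      funext i
      show hiZ (x' i) = hiZ (x i) + 1
      rw [hxi]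
      have := hpar i
      have h4 : x i % 4 = 0 ∨ x i % 4 = 2 := by omega
      rcases hVval i with e | e <;> rw [e] <;> rcases h4 with h4 | h4
      · rw [hiZ_even2 (by omega), hiZ_even0 h4]; decide
      · rw [hiZ_even0 (by omega), hiZ_even2 h4]; decide
      · rw [hiZ_even2 (by omega), hiZ_even0 h4]; decide
      · rw [hiZ_even0 (by omega), hiZ_even2 h4]; decide
    have hsumV : (∑ i, Spor.vecV i) % 4 = 0 := by
      revert hVval
      decide
    have hsum' : (∑ i, x' i) % 8 = 0 := by
      have : ∑ i, x' i = ∑ i, x i - 2 * ∑ i, Spor.vecV i := by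
        rw [Finset.mul_sum, ← Finset.sum_sub_distrib]
        exact Finset.sum_congr rfl fun i _ => hxi i
      rw [this]
      omega
    have hc' : hi x' ∈ golayCode := by
      rw [hhi]
      exact golayCode.add_mem hc allOnes_mem
    have hc12' : (support₂ (hi x')).card ≤ 12 := by
      rw [hhi, card_support_add_one]
      omega
    obtain ⟨y, hy, z, hz, he⟩ := even_small hpar' hsum' hc' hc12'
    refine ⟨y, hy, z + Spor.vecV, leechLattice.add_mem hz hV, ?_⟩
    rw [smul_add, ← he, hx']
    abel

/-- Every class modulo twice the lattice has a representative of square sum at most `64`. -/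
theorem exists_short {x : GolayPt → ℤ} (hx : x ∈ leechLattice) :
    ∃ y ∈ leechLattice, sqNorm y ≤ 64 ∧ ∃ z ∈ leechLattice, x - y = 2 • z := by
  have hx' := mem_leechLattice_iff.1 hx
  have h : ∃ y : GolayPt → ℤ, sqNorm y ≤ 64 ∧ ∃ z ∈ leechLattice, x - y = 2 • z := by
    rcases even_or_odd hx' with ⟨h1, h2, h3⟩ | ⟨h1, h2, h3⟩
    · exact even_case h1 h2 h3
    · exact odd_case h1 h2 h3
  obtain ⟨y, hy, z, hz, he⟩ := h
  refine ⟨y, ?_, hy, z, hz, he⟩
  have : y = x - 2 • z := by
    rw [← he]; abel
  rw [this]
  exact leechLattice.sub_mem hx (leechLattice.nsmul_mem hz 2)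

end Cfsg.Agent.H15.LeechRep
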