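import Cfsg.Agent.Lib.H02.LeechC

/-!
# The shape census of the lattice vectors of square sum 48
-/

set_option autoImplicit false
set_option maxRecDepth 100000
set_option linter.unusedSimpArgs false
set_option linter.unusedVariables false

namespace Cfsg.Agent.H15.LeechShape

open Cfsg Cfsg.Agent.H27.Golay Cfsg.Agent.H26.Leech Cfsg.Agent.H02.LeechC

theorem Xmem {ε : ℕ} {c : GolayPt → ZMod 2} {N : ℕ} {x : GolayPt → ℤ} :
    x ∈ X ε c N ↔ (∀ i, (-8 ≤ x i ∧ x i ≤ 8) ∧ x i % 4 = rr ε (c i)) ∧ sqNorm x = N ∧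
      (∑ i, x i) % 8 = 4 * (ε : ℤ) := by
  unfold X
  rw [Finset.mem_filter, mem_pi']

@[simp] theorem rr00 : rr 0 0 = 0 := rfl
@[simp] theorem rr01 : rr 0 1 = 2 := rfl
@[simp] theorem rr10 : rr 1 0 = 1 := rfl
@[simp] theorem rr11 : rr 1 1 = 3 := rfl

theorem wt_sum (c : GolayPt → ZMod 2) : ((hammingNorm c : ℕ) : ℤ) = ∑ i, ((c i).val : ℤ) := by
  unfold hammingNorm
  rw [Finset.card_filter]
  push_cast
  refine Finset.sum_congr rfl fun i _ => ?_
  rcases zmod2_cases (c i) with e | e <;> simp [e, val_zero, val_one]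

theorem t_even {a : ℤ} {b : ZMod 2} (h3 : a % 4 = rr 0 b) : 0 ≤ a ^ 2 - 4 * (b.val : ℤ) := by
  rcases zmod2_cases b with rfl | rfl
  · have := sq_nonneg a
    simpa using this
  · simp only [rr01] at h3
    have h : 2 ≤ a ∨ a ≤ -2 := by omega
    show 0 ≤ a ^ 2 - 4 * (1 : ℤ)
    rcases h with h | h <;> nlinarith

theorem sum_t (x : GolayPt → ℤ) (c : GolayPt → ZMod 2) :
    ∑ i, (x i ^ 2 - 4 * ((c i).val : ℤ)) = sqNorm x - 4 * (hammingNorm c : ℤ) := by
  rw [Finset.sum_sub_distrib, ← Finset.mul_sum, wt_sum]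
  rfl

/-- Finite sets of classes. -/
theorem card_union (ε : ℕ) (hε : ε < 2) (F : Finset (GolayPt → ZMod 2)) (N : ℕ) :
    (F.biUnion (fun c => X ε c N)).card = ∑ c ∈ F, FF ε (hammingNorm c) N := by
  rw [Finset.card_biUnion]
  · exact Finset.sum_congr rfl fun c _ => card_X_eq ε hε c N
  · intro c _ c' _ hne
    exact X_disjoint N hε hε (by simpa using hne)

theorem sum_filter_w (ε w N : ℕ) :
    ∑ c ∈ codeF.filter (fun c => hammingNorm c = w), FF ε (hammingNorm c) N =
      ∑ c ∈ codeF, (fun w' => if w' = w then FF ε w' N else 0) (hammingNorm c) := by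
  rw [Finset.sum_filter]

theorem F0_12 : F0 12 48 = 2048 := by decide +kernel
theorem F0_8 : F0 8 48 = 4096 := by decide +kernel
theorem F0_0 : F0 0 48 = 0 := by decide +kernel
theorem F1_total : F1 0 48 + 759 * F1 8 48 + 2576 * F1 12 48 + 759 * F1 16 48 + F1 24 48 = 8388608 := by
  decide +kernel

theorem mem_T48 {x : GolayPt → ℤ} (hL : x ∈ leechLattice) (hn : sqNorm x = 48) :
    ∃ ε < 2, ∃ c ∈ golayCode, x ∈ X ε c 48 :=
  (mem_T (N := 48) (by norm_num)).1 ⟨hL, by simpa using hn⟩

theorem mem_T48' {x : GolayPt → ℤ} {ε : ℕ} {c : GolayPt → ZMod 2} (hε : ε < 2) (hc : c ∈ golayCode)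
    (hx : x ∈ X ε c 48) : x ∈ leechLattice ∧ sqNorm x = 48 := by
  have hL := (mem_T (N := 48) (by norm_num)).2 ⟨ε, hε, c, hc, hx⟩
  exact ⟨hL.1, by simpa using hL.2⟩

theorem eps0_of_even {x : GolayPt → ℤ} {ε : ℕ} {c : GolayPt → ZMod 2} (hε : ε < 2) {i : GolayPt}
    (h : x i % 4 = rr ε (c i)) (he : x i % 2 = 0) : ε = 0 := by
  by_contra hne
  have : ε = 1 := by omega
  subst this
  rcases zmod2_cases (c i) with e | e <;> rw [e] at h <;> simp only [rr10, rr11] at h <;> omega

theorem eps1_of_odd {x : GolayPt → ℤ} {ε : ℕ} {c : GolayPt → ZMod 2} (hε : ε < 2) {i : GolayPt}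
    (h : x i % 4 = rr ε (c i)) (he : x i % 2 = 1) : ε = 1 := by
  by_contra hne
  have : ε = 0 := by omega
  subst this
  rcases zmod2_cases (c i) with e | e <;> rw [e] at h <;> simp only [rr00, rr01] at h <;> omega

/-- The family `(2^12, 0^12)`. -/
theorem A_eq : {x : GolayPt → ℤ | x ∈ leechLattice ∧ sqNorm x = 48 ∧ ∀ i, x i = 0 ∨ x i = 2 ∨ x i = -2} =
    ↑((codeF.filter (fun c => hammingNorm c = 12)).biUnion (fun c => X 0 c 48)) := by
  ext x
  simp only [Set.mem_setOf_eq, Finset.mem_coe, Finset.mem_biUnion, Finset.mem_filter]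
  constructor
  · rintro ⟨hL, hn, hv⟩
    obtain ⟨ε, hε, c, hc, hx⟩ := mem_T48 hL hn
    have hres := (Xmem.1 hx).1
    have hε0 : ε = 0 := by
      refine eps0_of_even hε (hres none).2 ?_
      rcases hv none with h | h | h <;> rw [h] <;> norm_num
    subst hε0
    refine ⟨c, ⟨mem_codeF.2 hc, ?_⟩, hx⟩
    have hz : ∑ i, (x i ^ 2 - 4 * ((c i).val : ℤ)) = 0 := by
      refine Finset.sum_eq_zero fun i _ => ?_
      have h3 := (hres i).2
      rcases zmod2_cases (c i) with e | e <;> rw [e] at h3 ⊢ <;>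
        simp only [rr00, rr01] at h3 <;> rcases hv i with h | h | h <;> rw [h] at h3 ⊢ <;>
        first | (exfalso; revert h3; decide) | decide
    rw [sum_t, hn] at hz
    omega
  · rintro ⟨c, ⟨hc, hw⟩, hx⟩
    have hc' := mem_codeF.1 hc
    have hL := mem_T48' (by norm_num) hc' hx
    have hn : sqNorm x = 48 := hL.2
    refine ⟨hL.1, hn, ?_⟩
    have hres := (Xmem.1 hx).1
    have hz : ∑ i, (x i ^ 2 - 4 * ((c i).val : ℤ)) = 0 := by
      rw [sum_t, hn, hw]; norm_num
    rw [Finset.sum_eq_zero_iff_of_nonneg (fun i _ => t_even (hres i).2)] at hz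
    intro i
    have h1 := hz i (Finset.mem_univ i)
    rcases zmod2_cases (c i) with e | e <;> rw [e] at h1
    · left
      have h2 : x i ^ 2 = 0 := by simpa using h1
      exact pow_eq_zero_iff (by norm_num) |>.1 h2
    · right
      have h2 : (x i - 2) * (x i + 2) = 0 := by
        have : x i ^ 2 - 4 * (1 : ℤ) = 0 := h1
        linarith [this, (by ring : (x i - 2) * (x i + 2) = x i ^ 2 - 4)]
      rcases mul_eq_zero.1 h2 with h | h
      · left; omega
      · right; omega

theorem card_A : ((codeF.filter (fun c => hammingNorm c = 12)).biUnion (fun c => X 0 c 48)).card = 5275648 := by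
  rw [card_union 0 (by norm_num), sum_filter_w]
  refine (sum_code (fun w' => if w' = 12 then FF 0 w' 48 else 0)).trans ?_
  simp only [FF_zero]
  norm_num [F0_12]

/-- The family `(4, 2^8, 0^15)`. -/
theorem C_eq : {x : GolayPt → ℤ | x ∈ leechLattice ∧ sqNorm x = 48 ∧ ∃ i, |x i| = 4} =
    ↑((codeF.filter (fun c => hammingNorm c = 8)).biUnion (fun c => X 0 c 48)) := by
  ext x
  simp only [Set.mem_setOf_eq, Finset.mem_coe, Finset.mem_biUnion, Finset.mem_filter]
  constructor
  · rintro ⟨hL, hn, a, ha⟩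
    obtain ⟨ε, hε, c, hc, hx⟩ := mem_T48 hL hn
    have hres := (Xmem.1 hx).1
    have ha' : x a = 4 ∨ x a = -4 := by
      rcases abs_eq (by norm_num : (0 : ℤ) ≤ 4) |>.1 ha with h | h
      · left; exact h
      · right; exact h
    have hε0 : ε = 0 := by
      refine eps0_of_even hε (hres a).2 ?_
      rcases ha' with h | h <;> rw [h] <;> norm_num
    subst hε0
    refine ⟨c, ⟨mem_codeF.2 hc, ?_⟩, hx⟩
    have hca : c a = 0 := by
      have h3 := (hres a).2
      rcases zmod2_cases (c a) with e | e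
      · exact e
      · rw [e] at h3
        simp only [rr01] at h3
        rcases ha' with h | h <;> rw [h] at h3 <;> exact absurd h3 (by decide)
    have h1 : x a ^ 2 - 4 * ((c a).val : ℤ) ≤ ∑ i, (x i ^ 2 - 4 * ((c i).val : ℤ)) :=
      Finset.single_le_sum (f := fun i => x i ^ 2 - 4 * ((c i).val : ℤ))
        (fun i _ => t_even (hres i).2) (Finset.mem_univ a)
    rw [sum_t, hn, hca] at h1
    have h16 : x a ^ 2 = 16 := by
      rcases ha' with h | h <;> rw [h] <;> norm_num
    rw [h16] at h1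
    have h2 : (hammingNorm c : ℤ) ≤ 8 := by
      have : ((0 : ZMod 2).val : ℤ) = 0 := rfl
      rw [this] at h1
      linarith
    have hw := Cfsg.Agent.H02.Gol.golay_weights c hc
    have h0 : hammingNorm c ≠ 0 := by
      intro h0
      have hcard := card_X_eq 0 (by norm_num) c 48
      rw [h0, FF_zero, F0_0, Finset.card_eq_zero] at hcard
      rw [hcard] at hx
      simp at hx
    omega
  · rintro ⟨c, ⟨hc, hw⟩, hx⟩
    have hc' := mem_codeF.1 hc
    have hL := mem_T48' (by norm_num) hc' hx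
    have hn : sqNorm x = 48 := hL.2
    refine ⟨hL.1, hn, ?_⟩
    by_contra hno
    push_neg at hno
    have hres := (Xmem.1 hx).1
    have hd : (32 : ℤ) ∣ ∑ i, (x i ^ 2 - 4 * ((c i).val : ℤ)) := by
      refine Finset.dvd_sum fun i _ => ?_
      have h3 := (hres i).2
      obtain ⟨h1, h2⟩ := (hres i).1
      have h5 := hno i
      generalize x i = a at *
      rcases zmod2_cases (c i) with e | e <;> rw [e] at h3 ⊢ <;>
        simp only [rr00, rr01] at h3 <;> interval_cases a <;>
        first | (exfalso; revert h3; decide) | (exfalso; exact h5 (by decide)) | decide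
    rw [sum_t, hn, hw] at hd
    revert hd
    decide

theorem card_C : ((codeF.filter (fun c => hammingNorm c = 8)).biUnion (fun c => X 0 c 48)).card = 3108864 := by
  rw [card_union 0 (by norm_num), sum_filter_w]
  refine (sum_code (fun w' => if w' = 8 then FF 0 w' 48 else 0)).trans ?_
  simp only [FF_zero]
  norm_num [F0_8]

/-- The sign of a bit. -/
def e (b : ZMod 2) : ℤ := 1 - 2 * (b.val : ℤ)

@[simp] theorem e0 : e 0 = 1 := rfl
@[simp] theorem e1 : e 1 = -1 := rfl

/-- The vectors of shape `(5, 1^23)`. -/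
def g (p : (GolayPt → ZMod 2) × GolayPt) : GolayPt → ℤ :=
  fun j => if j = p.2 then 5 * e (p.1 j) else e (p.1 j)

theorem card_one : (∑ _i : GolayPt, (1 : ℤ)) = 24 := by
  simp

theorem sum_e (c : GolayPt → ZMod 2) : ∑ i, e (c i) = 24 - 2 * (hammingNorm c : ℤ) := by
  unfold e
  rw [Finset.sum_sub_distrib, ← Finset.mul_sum, card_one, wt_sum]

theorem weight4' {c : GolayPt → ZMod 2} (hc : c ∈ golayCode) : 4 ∣ hammingNorm c := by
  have hw := Cfsg.Agent.H02.Gol.golay_weights c hc
  rcases hw with h | h | h | h | h <;> rw [h] <;> norm_num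

theorem g_mem {c : GolayPt → ZMod 2} (hc : c ∈ golayCode) (i : GolayPt) : g (c, i) ∈ X 1 c 48 := by
  rw [Xmem]
  refine ⟨fun j => ?_, ?_, ?_⟩
  · simp only [g]
    by_cases h : j = i
    · rw [if_pos h]
      rcases zmod2_cases (c j) with e' | e' <;> rw [e'] <;> decide
    · rw [if_neg h]
      rcases zmod2_cases (c j) with e' | e' <;> rw [e'] <;> decide
  · have h1 : ∀ j, g (c, i) j ^ 2 = 1 + (if j = i then 24 else 0) := by
      intro j
      simp only [g]
      by_cases h : j = i
      · rw [if_pos h, if_pos h]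
        rcases zmod2_cases (c j) with e' | e' <;> rw [e'] <;> decide
      · rw [if_neg h, if_neg h]
        rcases zmod2_cases (c j) with e' | e' <;> rw [e'] <;> decide
    unfold sqNorm
    simp_rw [h1]
    rw [Finset.sum_add_distrib, card_one, Finset.sum_ite_eq' ]
    simp
  · have h1 : ∀ j, g (c, i) j = e (c j) + (if j = i then 4 * e (c i) else 0) := by
      intro j
      simp only [g]
      by_cases h : j = i
      · subst h
        rw [if_pos rfl, if_pos rfl]; ring
      · rw [if_neg h, if_neg h]; ring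
    simp_rw [h1]
    rw [Finset.sum_add_distrib, sum_e, Finset.sum_ite_eq']
    simp only [Finset.mem_univ, if_true]
    obtain ⟨k, hk⟩ := weight4' hc
    rw [hk]
    push_cast
    rcases zmod2_cases (c i) with e' | e' <;> rw [e'] <;> simp only [e0, e1] <;> omega

theorem g_inj {c c' : GolayPt → ZMod 2} {i i' : GolayPt} (h : g (c, i) = g (c', i')) :
    (c, i) = (c', i') := by
  have hi : i = i' := by
    by_contra hne
    have h1 := congrFun h i
    simp only [g, if_true, if_neg hne] at h1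
    rcases zmod2_cases (c i) with e' | e' <;> rcases zmod2_cases (c' i) with e'' | e'' <;>
      rw [e', e''] at h1 <;> revert h1 <;> decide
  subst hi
  have hc : c = c' := by
    funext j
    have h1 := congrFun h j
    simp only [g] at h1
    by_cases hj : j = i
    · rw [if_pos hj, if_pos hj] at h1
      rcases zmod2_cases (c j) with e' | e' <;> rcases zmod2_cases (c' j) with e'' | e'' <;>
        rw [e', e''] at h1 ⊢ <;> first | rfl | (revert h1; decide)
    · rw [if_neg hj, if_neg hj] at h1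
      rcases zmod2_cases (c j) with e' | e' <;> rcases zmod2_cases (c' j) with e'' | e'' <;>
        rw [e', e''] at h1 ⊢ <;> first | rfl | (revert h1; decide)
  rw [hc]

/-- The image of `g`. -/
noncomputable def Dset : Finset (GolayPt → ℤ) :=
  (codeF ×ˢ (Finset.univ : Finset GolayPt)).image g

theorem card_codeF : codeF.card = 4096 := by
  have h := sum_code (fun _ => 1)
  rw [Finset.card_eq_sum_ones]
  exact h

theorem card_Dset : Dset.card = 98304 := by
  unfold Dset
  rw [Finset.card_image_of_injOn, Finset.card_product, card_codeF]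
  · rfl
  · rintro ⟨c, i⟩ _ ⟨c', i'⟩ _ h
    exact g_inj h

theorem mem_D_gen (s₁ : Finset (GolayPt → ZMod 2)) {x : GolayPt → ℤ} :
    x ∈ (s₁ ×ˢ (Finset.univ : Finset GolayPt)).image g ↔ ∃ c ∈ s₁, ∃ a, g (c, a) = x := by
  simp only [Finset.mem_image, Finset.mem_product, Finset.mem_univ, and_true, Prod.exists]
  constructor
  · rintro ⟨c, a, hc, h⟩
    exact ⟨c, hc, a, h⟩
  · rintro ⟨c, hc, a, h⟩
    exact ⟨c, a, hc, h⟩

theorem mem_Dset_iff {x : GolayPt → ℤ} :
    x ∈ Dset ↔ ∃ c ∈ golayCode, ∃ a, g (c, a) = x := by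
  unfold Dset
  rw [mem_D_gen]
  simp only [mem_codeF]

attribute [irreducible] Dset

theorem mem_Dset_of {x : GolayPt → ℤ} (hL : x ∈ leechLattice) (hn : sqNorm x = 48) {a : GolayPt}
    (ha : |x a| = 5) : x ∈ Dset := by
  obtain ⟨ε, hε, c, hc, hx⟩ := mem_T48 hL hn
  have hres := (Xmem.1 hx).1
  have ha' : x a = 5 ∨ x a = -5 := by
    rcases abs_eq (by norm_num : (0 : ℤ) ≤ 5) |>.1 ha with h | h
    · left; exact h
    · right; exact h
  have hε1 : ε = 1 := by
    refine eps1_of_odd hε (hres a).2 ?_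
    rcases ha' with h | h <;> rw [h] <;> norm_num
  subst hε1
  rw [mem_Dset_iff]
  refine ⟨c, hc, a, ?_⟩
  -- the other coordinates
  have hnn : ∀ i, 0 ≤ x i ^ 2 - 1 := by
    intro i
    have h3 := (hres i).2
    have : x i ≠ 0 := by
      intro h0
      rw [h0] at h3
      rcases zmod2_cases (c i) with e' | e' <;> rw [e'] at h3 <;> simp only [rr10, rr11] at h3 <;>
        exact absurd h3 (by decide)
    have h4 : 1 ≤ x i ∨ x i ≤ -1 := by omega
    rcases h4 with h | h <;> nlinarith
  have hsum : ∑ i, (x i ^ 2 - 1) = 24 := by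
    rw [Finset.sum_sub_distrib, card_one]
    have : ∑ i, x i ^ 2 = 48 := hn
    rw [this]; norm_num
  have hera : ∑ i ∈ Finset.univ.erase a, (x i ^ 2 - 1) = 0 := by
    rw [Finset.sum_erase_eq_sub (Finset.mem_univ a), hsum]
    rcases ha' with h | h <;> rw [h] <;> norm_num
  rw [Finset.sum_eq_zero_iff_of_nonneg (fun i _ => hnn i)] at hera
  funext j
  simp only [g]
  by_cases hj : j = a
  · subst hj
    rw [if_pos rfl]
    have h3 := (hres j).2
    rcases zmod2_cases (c j) with e' | e' <;> rw [e'] at h3 ⊢ <;> simp only [rr10, rr11, e0, e1] at h3 ⊢ <;>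
      rcases ha' with h | h <;> rw [h] at h3 ⊢ <;> first | rfl | (exfalso; revert h3; decide)
  · rw [if_neg hj]
    have h1 := hera j (Finset.mem_erase.2 ⟨hj, Finset.mem_univ j⟩)
    have h2 : (x j - 1) * (x j + 1) = 0 := by
      linarith [h1, (by ring : (x j - 1) * (x j + 1) = x j ^ 2 - 1)]
    have h3 := (hres j).2
    rcases zmod2_cases (c j) with e' | e' <;> rw [e'] at h3 ⊢ <;> simp only [rr10, rr11, e0, e1] at h3 ⊢ <;>
      rcases mul_eq_zero.1 h2 with h | h <;> omega

theorem D_eq : {x : GolayPt → ℤ | x ∈ leechLattice ∧ sqNorm x = 48 ∧ ∃ i, |x i| = 5} = ↑Dset := by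
  ext x
  simp only [Set.mem_setOf_eq, Finset.mem_coe]
  constructor
  · rintro ⟨hL, hn, a, ha⟩
    exact mem_Dset_of hL hn ha
  · intro hx
    rw [mem_Dset_iff] at hx
    obtain ⟨c, hc, a, rfl⟩ := hx
    have hL := mem_T48' (by norm_num) hc (g_mem hc a)
    refine ⟨hL.1, hL.2, a, ?_⟩
    simp only [g, if_true]
    rcases zmod2_cases (c a) with e' | e' <;> rw [e'] <;> decide

/-- The odd classes. -/
noncomputable def Oset : Finset (GolayPt → ℤ) := codeF.biUnion (fun c => X 1 c 48)

theorem card_Oset : Oset.card = 8388608 := by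
  unfold Oset
  rw [card_union 1 (by norm_num)]
  refine (sum_code (fun w' => FF 1 w' 48)).trans ?_
  simp only [FF_one]
  exact F1_total

theorem mem_Oset_iff {x : GolayPt → ℤ} : x ∈ Oset ↔ ∃ c ∈ golayCode, x ∈ X 1 c 48 := by
  unfold Oset
  rw [Finset.mem_biUnion]
  constructor
  · rintro ⟨c, hc, h⟩
    exact ⟨c, mem_codeF.1 hc, h⟩
  · rintro ⟨c, hc, h⟩
    exact ⟨c, mem_codeF.2 hc, h⟩

attribute [irreducible] Oset

theorem Dset_sub : Dset ⊆ Oset := by
  intro x hx
  rw [mem_Dset_iff] at hx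
  obtain ⟨c, hc, a, rfl⟩ := hx
  rw [mem_Oset_iff]
  exact ⟨c, hc, g_mem hc a⟩

theorem B_eq : {x : GolayPt → ℤ | x ∈ leechLattice ∧ sqNorm x = 48 ∧
    ∃ i j k, i ≠ j ∧ j ≠ k ∧ i ≠ k ∧ |x i| = 3 ∧ |x j| = 3 ∧ |x k| = 3} = ↑(Oset \ Dset) := by
  ext x
  simp only [Set.mem_setOf_eq, Finset.mem_coe, Finset.mem_sdiff]
  constructor
  · rintro ⟨hL, hn, i, j, k, -, -, -, hi, -, -⟩
    obtain ⟨ε, hε, c, hc, hx⟩ := mem_T48 hL hn
    have hres := (Xmem.1 hx).1
    have hi' : x i = 3 ∨ x i = -3 := by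
      rcases abs_eq (by norm_num : (0 : ℤ) ≤ 3) |>.1 hi with h | h
      · left; exact h
      · right; exact h
    have hε1 : ε = 1 := by
      refine eps1_of_odd hε (hres i).2 ?_
      rcases hi' with h | h <;> rw [h] <;> norm_num
    subst hε1
    constructor
    · rw [mem_Oset_iff]
      exact ⟨c, hc, hx⟩
    · intro hD
      rw [mem_Dset_iff] at hD
      obtain ⟨c', -, a, rfl⟩ := hD
      simp only [g] at hi
      by_cases h : i = a
      · rw [if_pos h] at hi
        rcases zmod2_cases (c' i) with e' | e' <;> rw [e'] at hi <;> revert hi <;> decide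
      · rw [if_neg h] at hi
        rcases zmod2_cases (c' i) with e' | e' <;> rw [e'] at hi <;> revert hi <;> decide
  · rintro ⟨hO, hD⟩
    rw [mem_Oset_iff] at hO
    obtain ⟨c, hc', hx⟩ := hO
    have hL := mem_T48' (by norm_num) hc' hx
    have hn : sqNorm x = 48 := hL.2
    refine ⟨hL.1, hn, ?_⟩
    have hno : ∀ a, |x a| ≠ 5 := fun a ha => hD (mem_Dset_of hL.1 hn ha)
    have hres := (Xmem.1 hx).1
    have hsq : ∀ i, x i ^ 2 ≤ 48 := by
      intro i
      have := Finset.single_le_sum (f := fun i => x i ^ 2) (fun j _ => sq_nonneg (x j))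
        (Finset.mem_univ i)
      have h2 : ∑ i, x i ^ 2 = 48 := hn
      rw [h2] at this
      exact this
    have ht : ∀ i, x i ^ 2 - 1 = 8 * (if |x i| = 3 then 1 else 0) := by
      intro i
      have h3 := (hres i).2
      obtain ⟨h1, h2⟩ := (hres i).1
      have h5 := hno i
      have h6 := hsq i
      generalize x i = a at *
      rcases zmod2_cases (c i) with e' | e' <;> rw [e'] at h3 <;>
        simp only [rr10, rr11] at h3 <;> interval_cases a <;>
        first | (exfalso; revert h3; decide) | (exfalso; exact h5 (by decide)) | (exfalso; revert h6; decide) | decide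
    have hsum : ∑ i, (x i ^ 2 - 1) = 24 := by
      rw [Finset.sum_sub_distrib, card_one]
      have : ∑ i, x i ^ 2 = 48 := hn
      rw [this]; norm_num
    simp_rw [ht] at hsum
    rw [← Finset.mul_sum, Finset.sum_boole] at hsum
    have hcard : (Finset.univ.filter (fun i => |x i| = 3)).card = 3 := by
      have : (8 : ℤ) * ((Finset.univ.filter (fun i => |x i| = 3)).card : ℤ) = 24 := hsum
      omega
    obtain ⟨i, j, k, hij, hik, hjk, hs⟩ := Finset.card_eq_three.1 hcard
    have hm : ∀ l ∈ ({i, j, k} : Finset GolayPt), |x l| = 3 := by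
      intro l hl
      rw [← hs] at hl
      exact (Finset.mem_filter.1 hl).2
    exact ⟨i, j, k, hij, hjk, hik, hm i (by simp), hm j (by simp), hm k (by simp)⟩

/-- The census. -/
theorem census : {x : GolayPt → ℤ | x ∈ leechLattice ∧ sqNorm x = 48 ∧ ∀ i, x i = 0 ∨ x i = 2 ∨ x i = -2}.ncard = 5275648 ∧
    {x : GolayPt → ℤ | x ∈ leechLattice ∧ sqNorm x = 48 ∧ ∃ i j k, i ≠ j ∧ j ≠ k ∧ i ≠ k ∧ |x i| = 3 ∧ |x j| = 3 ∧ |x k| = 3}.ncard = 8290304 ∧
    {x : GolayPt → ℤ | x ∈ leechLattice ∧ sqNorm x = 48 ∧ ∃ i, |x i| = 4}.ncard = 3108864 ∧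
    {x : GolayPt → ℤ | x ∈ leechLattice ∧ sqNorm x = 48 ∧ ∃ i, |x i| = 5}.ncard = 98304 := by
  refine ⟨?_, ?_, ?_, ?_⟩
  · rw [A_eq, Set.ncard_coe_finset, card_A]
  · rw [B_eq, Set.ncard_coe_finset, Finset.card_sdiff_of_subset Dset_sub, card_Oset, card_Dset]
  · rw [C_eq, Set.ncard_coe_finset, card_C]
  · rw [D_eq, Set.ncard_coe_finset, card_Dset]

end Cfsg.Agent.H15.LeechShape
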