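import Cfsg.Agent.Lib.H15.Q8Group
import Cfsg.Agent.Lib.H21.KleinOrder
import Cfsg.Agent.Lib.H22.CentralRank
import Cfsg.Agent.Lib.H22.Rank1
import Cfsg.Agent.Lib.H22.Transport

/-! # The principal 2-block of a group with quaternion Sylow 2-subgroup of order 8 -/

set_option autoImplicit false
set_option linter.unusedSectionVars false
set_option linter.style.haveILetI false

namespace Cfsg.Agent.H15

open QuaternionGroup Cfsg Cfsg.Agent.H21 Cfsg.Agent.H22

universe u

variable {G : Type u} [Group G] [Finite G]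

/-- Rank of the principal block of the centralizer of a central element. -/
theorem rank_principal_centralizer_of_central {M : Ideal AlgInt} [M.IsPrime] (p : ℕ) {x : G}
    (hx : ∀ g : G, x * g = g * x) :
    blockRank p (principalBlock M (Subgroup.centralizer ({x} : Set G))) =
      blockRank p (principalBlock M G) := by
  have htop : Subgroup.centralizer ({x} : Set G) = ⊤ := by
    rw [eq_top_iff]
    intro g _
    rw [Subgroup.mem_centralizer_singleton_iff]
    exact (hx g).symm
  let φ : (Subgroup.centralizer ({x} : Set G)) ≃* G :=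
    (MulEquiv.subgroupCongr htop).trans Subgroup.topEquiv
  have h1 := blockRank_image φ p (principalBlock M (Subgroup.centralizer ({x} : Set G)))
  rw [← h1]
  congr 1
  have h2 := blockOf_irrMap (M := M) φ (oneIrr (Subgroup.centralizer ({x} : Set G)))
  rw [principalBlock_eq (G := Subgroup.centralizer ({x} : Set G)), ← h2]
  rfl

/-- The centralizer of an element of order four has a normal 2-complement. -/
theorem q8_npc_centralizer (S : Sylow 2 G) (e : (S : Subgroup G) ≃* Q8M) {i : G}
    (hi : i ∈ (S : Subgroup G)) (hi2 : i ^ 2 ≠ 1) :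
    HasNormalPComplement 2 (Subgroup.centralizer ({i} : Set G)) := by
  classical
  set C := Subgroup.centralizer ({i} : Set G) with hC
  have hiC : i ∈ C := by
    rw [hC, Subgroup.mem_centralizer_singleton_iff]
  let I : C := ⟨i, hiC⟩
  -- the order of `i` is a power of two
  have hi4 : i ^ 4 = 1 := by
    obtain ⟨t, rfl⟩ := exists_q8Emb (S : Subgroup G) e hi
    have h1 := q8_sq_eq t (sq_ne_of_q8Emb _ e hi2)
    rw [← map_pow]
    have h2 : t ^ 4 = 1 := by
      have h3 : t ^ 4 = (t ^ 2) ^ 2 := by rw [← pow_mul]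
      rw [h3, h1, q8_a2]
    rw [h2, map_one]
  have hWp : IsPGroup 2 (Subgroup.zpowers I) := by
    apply IsPGroup.of_card (n := 2)
    rw [Nat.card_zpowers]
    have h1 : orderOf I = orderOf i := Subgroup.orderOf_mk i hiC
    rw [h1]
    apply orderOf_eq_prime_pow
    · rw [show 2 ^ (1 + 0 + 1 - 1) = 2 by norm_num] at *
      simpa using hi2
    · simpa using hi4
  obtain ⟨P, hP⟩ := hWp.exists_le_sylow
  have hPle : ∀ p : C, p ∈ (P : Subgroup C) → p ∈ Subgroup.zpowers I := by
    intro p hp
    have hPp : IsPGroup 2 ((P : Subgroup C).map C.subtype) := P.2.map _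
    obtain ⟨T, hT⟩ := hPp.exists_le_sylow
    let eT : (T : Subgroup G) ≃* Q8M := (Sylow.equiv T S).trans e
    have hpT : (p : G) ∈ (T : Subgroup G) := hT ⟨p, hp, rfl⟩
    have hiT : i ∈ (T : Subgroup G) := hT ⟨I, hP (Subgroup.mem_zpowers I), rfl⟩
    obtain ⟨w, hw⟩ := exists_q8Emb (T : Subgroup G) eT hiT
    obtain ⟨u, hu⟩ := exists_q8Emb (T : Subgroup G) eT hpT
    have hw2 : w ^ 2 ≠ 1 := sq_ne_of_q8Emb (T : Subgroup G) eT (by rw [hw]; exact hi2)
    have hpc : (p : G) * i = i * (p : G) := by
      have hh : (p : G) ∈ Subgroup.centralizer ({i} : Set G) := p.2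
      rw [Subgroup.mem_centralizer_singleton_iff] at hh
      exact hh
    have hcomm : w * u = u * w := by
      apply q8Emb_inj (T : Subgroup G) eT
      rw [map_mul, map_mul, hw, hu]
      exact hpc.symm
    have hpI : ∀ k : ℕ, p = I ^ k → p ∈ Subgroup.zpowers I := by
      rintro k rfl
      exact Subgroup.pow_mem _ (Subgroup.mem_zpowers I) k
    rcases q8_comm w u hw2 hcomm with h | h | h | h
    · have : p = 1 := by
        apply Subtype.ext
        rw [← hu, h, map_one]
        rfl
      rw [this]
      exact Subgroup.one_mem _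
    · apply hpI 2
      apply Subtype.ext
      rw [← hu, h, ← q8_sq_eq w hw2, map_pow, hw]
      rfl
    · apply hpI 1
      apply Subtype.ext
      rw [← hu, h, hw, pow_one]
    · have : p = I⁻¹ := by
        apply Subtype.ext
        rw [← hu, h, map_inv, hw]
        rfl
      rw [this]
      exact Subgroup.inv_mem _ (Subgroup.mem_zpowers I)
  have hN : Subgroup.normalizer ((P : Subgroup C) : Set C) ≤
      Subgroup.centralizer ((P : Subgroup C) : Set C) := by
    intro n _
    rw [Subgroup.mem_centralizer_iff]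
    intro q hq
    obtain ⟨k, rfl⟩ := Subgroup.mem_zpowers_iff.mp (hPle q hq)
    have h1 : Commute I n := by
      apply Subtype.ext
      have hh : (n : G) ∈ Subgroup.centralizer ({i} : Set G) := n.2
      rw [Subgroup.mem_centralizer_singleton_iff] at hh
      exact hh.symm
    exact (h1.zpow_left k).eq
  exact ⟨P, (MonoidHom.transferSylow P hN).ker, MonoidHom.normal_ker _,
    MonoidHom.ker_transferSylow_isComplement' P hN⟩

/-- The rank of the principal block, through the quotient by the central involution. -/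
theorem q8_rank {M : Ideal AlgInt} (hM : IsPModular 2 M) (S : Sylow 2 G)
    (e : (S : Subgroup G) ≃* Q8M) (hnpc : ¬ HasNormalPComplement 2 G)
    (hzc : ∀ g : G, q8Emb (S : Subgroup G) e (a 2) * g = g * q8Emb (S : Subgroup G) e (a 2)) :
    blockRank 2 (principalBlock M G) = 3 := by
  classical
  haveI : M.IsPrime := hM.2.1.isPrime
  set ι := q8Emb (S : Subgroup G) e with hι
  set z := ι (a 2) with hz
  have hz2 : z ^ 2 = 1 := by rw [hz, ← map_pow, q8_a2, map_one]
  have hz1 : z ≠ 1 := by
    intro h
    apply q8_a2_ne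
    apply q8Emb_inj (S : Subgroup G) e
    rw [map_one]
    exact h
  have hzord : orderOf z = 2 := orderOf_eq_prime hz2 hz1
  set Z := Subgroup.zpowers z with hZ
  have hZc : ∀ w ∈ Z, ∀ g, w * g = g * w := by
    intro w hw g
    obtain ⟨k, rfl⟩ := Subgroup.mem_zpowers_iff.mp hw
    have h1 : Commute z g := hzc g
    exact (h1.zpow_left k).eq
  haveI hZn : Z.Normal := by
    refine ⟨fun n hn g => ?_⟩
    rw [← hZc n hn g, mul_inv_cancel_right]
    exact hn
  have hZp : IsPGroup 2 Z := by
    apply IsPGroup.of_card (n := 1)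
    rw [hZ, Nat.card_zpowers, hzord, pow_one]
  have hZcard : Nat.card Z = 2 := by rw [hZ, Nat.card_zpowers, hzord]
  have hmemZ : ∀ x : G, x ^ 2 = 1 → x ∈ (S : Subgroup G) → x ∈ Z := by
    intro x hx hxS
    obtain ⟨t, rfl⟩ := exists_q8Emb (S : Subgroup G) e hxS
    have ht : t ^ 2 = 1 := by
      apply q8Emb_inj (S : Subgroup G) e
      rw [map_pow, hx, map_one]
    rcases q8_inv t ht with h | h
    · rw [h, map_one]
      exact Z.one_mem
    · rw [h]
      exact Subgroup.mem_zpowers _
  have h1 := blockRank_infl_eq hM Z hZc hZp (oneIrr (G ⧸ Z))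
  have h2 : blockRank 2 (blockOf M (inflIrr Z (oneIrr (G ⧸ Z))).1) = blockRank 2 (principalBlock M G) :=
    rfl
  rw [← h2, ← h1]
  show blockRank 2 (principalBlock M (G ⧸ Z)) = 3
  -- the Sylow subgroup of the quotient
  let Pb : Sylow 2 (G ⧸ Z) := S.mapSurjective (QuotientGroup.mk'_surjective Z)
  have hPbc : (Pb : Subgroup (G ⧸ Z)) = (S : Subgroup G).map (QuotientGroup.mk' Z) :=
    Sylow.coe_mapSurjective _ _
  have hS8 : Nat.card (S : Subgroup G) = 8 := by
    rw [Nat.card_congr e.toEquiv, Nat.card_eq_fintype_card, QuaternionGroup.card]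
  have hP4 : Nat.card Pb = 4 := by
    have hGcard : Nat.card G = Nat.card (G ⧸ Z) * Nat.card Z :=
      Subgroup.card_eq_card_quotient_mul_card_subgroup Z
    have h3 : (Nat.card G).factorization 2 = 3 := by
      have h4 := Sylow.card_eq_multiplicity S
      rw [hS8] at h4
      have h5 : 2 ^ (Nat.card G).factorization 2 = 2 ^ 3 := by rw [← h4]; norm_num
      exact Nat.pow_right_injective (le_refl 2) h5
    have h6 : (Nat.card G).factorization 2 = (Nat.card (G ⧸ Z)).factorization 2 + 1 := by
      rw [hGcard, hZcard, Nat.factorization_mul Nat.card_pos.ne' (by norm_num)]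
      simp [Nat.Prime.factorization_self Nat.prime_two]
    rw [Sylow.card_eq_multiplicity Pb]
    have h7 : (Nat.card (G ⧸ Z)).factorization 2 = 2 := by omega
    rw [h7]
    norm_num
  have hexp : ∀ x : Pb, x * x = 1 := by
    rintro ⟨x, hx⟩
    apply Subtype.ext
    show x * x = 1
    have hx' : x ∈ (S : Subgroup G).map (QuotientGroup.mk' Z) := by
      rw [← hPbc]
      exact hx
    obtain ⟨s, hs, rfl⟩ := hx'
    rw [← map_mul, QuotientGroup.mk'_apply, QuotientGroup.eq_one_iff]
    obtain ⟨t, rfl⟩ := exists_q8Emb (S : Subgroup G) e hs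
    rw [← map_mul, ← sq]
    rcases q8_sq t with h | h
    · rw [h, map_one]
      exact Z.one_mem
    · rw [h]
      exact Subgroup.mem_zpowers _
  -- involutions of the quotient
  set i := ι (a 1) with hi
  have hiS : i ∈ (S : Subgroup G) := q8Emb_mem _ e _
  have hi2 : i ^ 2 ≠ 1 := q8Emb_sq_ne _ e q8_a1
  have hconj : ∀ x : G ⧸ Z, orderOf x = 2 → IsConj x ((i : G) : G ⧸ Z) := by
    intro x hx
    obtain ⟨c, hc⟩ := exists_conj_mem_sylow Pb (g := x) (k := 1) (by rw [hx, pow_one])
    have hc' : c * x * c⁻¹ ∈ (S : Subgroup G).map (QuotientGroup.mk' Z) := by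
      rw [← hPbc]
      exact hc
    obtain ⟨s, hs, hsx⟩ := hc'
    have hs2 : s ^ 2 ≠ 1 := by
      intro h
      have h1 : s ∈ Z := hmemZ s h hs
      have h2 : QuotientGroup.mk' Z s = 1 := by
        rw [QuotientGroup.mk'_apply, QuotientGroup.eq_one_iff]
        exact h1
      rw [h2] at hsx
      have h3 : x = 1 := by
        have h4 : c * x = c := by
          rw [eq_comm, mul_inv_eq_one] at hsx
          exact hsx
        exact mul_eq_left.mp h4
      rw [h3, orderOf_one] at hx
      omega
    have hsi : IsConj s i := q8_all_conj S e hnpc hs hiS hs2 hi2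
    have h5 : IsConj (QuotientGroup.mk' Z s) (QuotientGroup.mk' Z i) := by
      obtain ⟨d, hd⟩ := isConj_iff.mp hsi
      refine isConj_iff.mpr ⟨QuotientGroup.mk' Z d, ?_⟩
      rw [← map_inv, ← map_mul, ← map_mul, hd]
    rw [hsx] at h5
    have h6 : IsConj x (c * x * c⁻¹) := isConj_iff.mpr ⟨c, rfl⟩
    exact h6.trans h5
  have hone : ∀ s t : G ⧸ Z, orderOf s = 2 → orderOf t = 2 → IsConj s t := fun s t hs ht =>
    (hconj s hs).trans (hconj t ht).symm
  exact klein_rank hM Pb hP4 hexp hone

/-- **The principal 2-block has exactly seven characters.** -/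
theorem q8_principal_card {M : Ideal AlgInt} (hM : IsPModular 2 M) (S : Sylow 2 G)
    (e : (S : Subgroup G) ≃* Q8M)
    (hO : ∀ N : Subgroup G, N.Normal → Odd (Nat.card N) → N = ⊥)
    (hG : (S : Subgroup G) ≠ ⊤) : Nat.card (principalBlock M G) = 7 := by
  classical
  haveI : M.IsPrime := hM.2.1.isPrime
  have hnpc : ¬ HasNormalPComplement 2 G := by
    rintro ⟨P, N, hN, hc⟩
    have hNcard : ¬ 2 ∣ Nat.card N := Cfsg.Agent.H01.not_dvd_card_of_complement P hc
    have hN1 := hO N hN (by rwa [← Nat.not_even_iff_odd, even_iff_two_dvd])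
    have h1 := hc.card_mul_card
    rw [hN1, Subgroup.card_bot, one_mul] at h1
    apply hG
    apply Subgroup.eq_top_of_card_eq
    rw [← h1, Sylow.card_eq_multiplicity S, Sylow.card_eq_multiplicity P]
  have hO' : oddCore G = ⊥ := hO _ inferInstance card_oddCore_coprime.odd_of_right
  have hzc := q8_central S e hO'
  have hrank := q8_rank hM S e hnpc hzc
  set ι := q8Emb (S : Subgroup G) e with hι
  set z := ι (a 2) with hz
  set i := ι (a 1) with hi
  have hz2 : z ^ 2 = 1 := by rw [hz, ← map_pow, q8_a2, map_one]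
  have hz1 : z ≠ 1 := by
    intro h
    apply q8_a2_ne
    apply q8Emb_inj (S : Subgroup G) e
    rw [map_one]
    exact h
  have hzord : orderOf z = 2 := orderOf_eq_prime hz2 hz1
  have hiS : i ∈ (S : Subgroup G) := q8Emb_mem _ e _
  have hi2 : i ^ 2 ≠ 1 := q8Emb_sq_ne _ e q8_a1
  have hi4 : i ^ 4 = 1 := by
    rw [hi, ← map_pow]
    have h2 : (a 1 : Q8M) ^ 4 = 1 := by decide
    rw [h2, map_one]
  have hiord : orderOf i = 2 ^ 2 := by
    apply orderOf_eq_prime_pow
    · simpa using hi2
    · simpa using hi4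
  have hzS : z ∈ (S : Subgroup G) := q8Emb_mem _ e _
  set X : Finset G := {1, z, i} with hX
  have hXord : ∀ x ∈ X, ∃ k : ℕ, orderOf x = 2 ^ k := by
    intro x hx
    simp only [hX, Finset.mem_insert, Finset.mem_singleton] at hx
    rcases hx with rfl | rfl | rfl
    · exact ⟨0, by simp⟩
    · exact ⟨1, by rw [hzord, pow_one]⟩
    · exact ⟨2, hiord⟩
  have hzi : z ≠ i := by
    intro h
    rw [h] at hzord
    rw [hzord] at hiord
    norm_num at hiord
  have h1z : (1 : G) ≠ z := hz1.symm
  have h1i : (1 : G) ≠ i := by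
    rintro h
    rw [← h] at hiord
    simp at hiord
  have hXrep : ∀ g : G, (∃ k : ℕ, orderOf g = 2 ^ k) → ∃! x, x ∈ X ∧ IsConj g x := by
    rintro g ⟨k, hk⟩
    have hexist : ∃ x, x ∈ X ∧ IsConj g x := by
      obtain ⟨c, hc⟩ := exists_conj_mem_sylow S hk
      have h0 : IsConj g (c * g * c⁻¹) := isConj_iff.mpr ⟨c, rfl⟩
      obtain ⟨t, ht⟩ := exists_q8Emb (S : Subgroup G) e hc
      by_cases ht2 : t ^ 2 = 1
      · rcases q8_inv t ht2 with h | h
        · refine ⟨1, by simp [hX], h0.trans ?_⟩
          rw [← ht, h, map_one]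
        · refine ⟨z, by simp [hX], h0.trans ?_⟩
          rw [← ht, h]
      · refine ⟨i, by simp [hX], h0.trans ?_⟩
        rw [← ht]
        exact q8_all_conj S e hnpc (q8Emb_mem _ e t) hiS (q8Emb_sq_ne _ e ht2) hi2
    obtain ⟨x, hx, hgx⟩ := hexist
    refine ⟨x, ⟨hx, hgx⟩, ?_⟩
    rintro y ⟨hy, hgy⟩
    have hxy : IsConj x y := hgx.symm.trans hgy
    have hord : orderOf x = orderOf y := by
      obtain ⟨d, hd⟩ := isConj_iff.mp hxy
      rw [← hd]
      exact (orderOf_injective (MulAut.conj d).toMonoidHom (MulAut.conj d).injective x).symm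
    simp only [hX, Finset.mem_insert, Finset.mem_singleton] at hx hy
    have ho1 : orderOf (1 : G) = 1 := orderOf_one
    rcases hx with rfl | rfl | rfl <;> rcases hy with rfl | rfl | rfl <;>
      first
        | rfl
        | (exfalso; rw [ho1, hzord] at hord; omega)
        | (exfalso; rw [ho1, hiord] at hord; omega)
        | (exfalso; rw [hzord, hiord] at hord; omega)
        | (exfalso; rw [hzord, ho1] at hord; omega)
        | (exfalso; rw [hiord, ho1] at hord; omega)
        | (exfalso; rw [hiord, hzord] at hord; omega)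
  have hcard := card_block_eq hM (principalBlock_isBlock (M := M) (G := G)) X hXord hXrep
  have hterm : ∀ x ∈ X, ∑ b ∈ indBlocks M x (principalBlock M G), blockRank 2 b =
      blockRank 2 (principalBlock M (Subgroup.centralizer ({x} : Set G))) := by
    intro x hx
    obtain ⟨k, hk⟩ := hXord x hx
    rw [indBlocks_principal hM hk, Finset.sum_singleton]
  rw [Finset.sum_congr rfl hterm, hX, Finset.sum_insert (by simp [h1z, h1i]),
    Finset.sum_insert (by simp [hzi]), Finset.sum_singleton] at hcard
  rw [rank_principal_centralizer_of_central 2 (x := (1 : G)) (by simp),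
    rank_principal_centralizer_of_central 2 (x := z) hzc, hrank,
    rank_one_of_hasNPC hM (q8_npc_centralizer S e hiS hi2)] at hcard
  exact hcard

end Cfsg.Agent.H15
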