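import Cfsg.Agent.Lib.H15.Q8Model
import Cfsg.Agent.Lib.H15.ZStarSyl
import Cfsg.Agent.Lib.H13.FrobFusion

/-! # Groups with a Sylow 2-subgroup isomorphic to `Q₈`: fusion in the normalizer -/

set_option autoImplicit false
set_option linter.unusedSectionVars false
set_option linter.style.haveILetI false

namespace Cfsg.Agent.H15

open QuaternionGroup Cfsg

variable {G : Type*} [Group G]

section Emb

variable (S : Subgroup G) (e : S ≃* Q8M)

/-- The embedding of `Q₈` with image `S`. -/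
noncomputable def q8Emb : Q8M →* G := S.subtype.comp e.symm.toMonoidHom

theorem q8Emb_inj : Function.Injective (q8Emb S e) := by
  intro s t h
  have h1 : (e.symm s : G) = (e.symm t : G) := h
  exact e.symm.injective (Subtype.ext h1)

theorem q8Emb_mem (t : Q8M) : q8Emb S e t ∈ S := (e.symm t).2

theorem exists_q8Emb {x : G} (hx : x ∈ S) : ∃ t, q8Emb S e t = x := by
  refine ⟨e ⟨x, hx⟩, ?_⟩
  show ((e.symm (e ⟨x, hx⟩) : S) : G) = x
  rw [MulEquiv.symm_apply_apply]

theorem q8Emb_sq_ne {t : Q8M} (h : t ^ 2 ≠ 1) : (q8Emb S e t) ^ 2 ≠ 1 := by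
  intro h2
  apply h
  apply q8Emb_inj S e
  rw [map_pow, h2, map_one]

theorem sq_ne_of_q8Emb {t : Q8M} (h : (q8Emb S e t) ^ 2 ≠ 1) : t ^ 2 ≠ 1 := by
  intro h2
  apply h
  rw [← map_pow, h2, map_one]

/-- The automorphism of `Q₈` induced by an element of the normalizer. -/
theorem exists_q8Aut [Finite G] {g : G} (hg : g ∈ Subgroup.normalizer (S : Set G)) :
    ∃ f : MulAut Q8M, ∀ t, q8Emb S e (f t) = g * q8Emb S e t * g⁻¹ := by
  classical
  have hmem : ∀ t, g * q8Emb S e t * g⁻¹ ∈ S := fun t =>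
    (Subgroup.mem_normalizer_iff.mp hg _).mp (q8Emb_mem S e t)
  let φ : Q8M →* Q8M :=
    { toFun := fun t => e ⟨g * q8Emb S e t * g⁻¹, hmem t⟩
      map_one' := by
        have : (⟨g * q8Emb S e 1 * g⁻¹, hmem 1⟩ : S) = 1 := by
          apply Subtype.ext
          simp
        rw [this, map_one]
      map_mul' := by
        intro x y
        rw [← map_mul]
        congr 1
        apply Subtype.ext
        simp only [map_mul, Subgroup.coe_mul]
        group }
  have hφ : ∀ t, q8Emb S e (φ t) = g * q8Emb S e t * g⁻¹ := by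
    intro t
    show ((e.symm (e ⟨g * q8Emb S e t * g⁻¹, hmem t⟩) : S) : G) = _
    rw [MulEquiv.symm_apply_apply]
  have hinj : Function.Injective φ := by
    intro x y hxy
    apply q8Emb_inj S e
    have h1 := congrArg (q8Emb S e) hxy
    rw [hφ, hφ] at h1
    exact mul_left_cancel (mul_right_cancel h1)
  refine ⟨MulEquiv.ofBijective φ ⟨hinj, Finite.surjective_of_injective hinj⟩, ?_⟩
  intro t
  exact hφ t

include e in
/-- A non-central element of odd order in the normalizer cycles the classes. -/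
theorem q8_key [Finite G] {g : G} (hg : g ∈ Subgroup.normalizer (S : Set G))
    (hodd : (orderOf g).Coprime 2) (hnc : g ∉ Subgroup.centralizer (S : Set G)) {x y : G}
    (hx : x ∈ S) (hy : y ∈ S) (hx2 : x ^ 2 ≠ 1) (hy2 : y ^ 2 ≠ 1) :
    ∃ k : ℕ, g ^ k * x * (g ^ k)⁻¹ = y ∨ g ^ k * x * (g ^ k)⁻¹ = y⁻¹ := by
  obtain ⟨f, hf⟩ := exists_q8Aut S e hg
  have hk : ∀ (k : ℕ) (t : Q8M), q8Emb S e ((f ^ k) t) = g ^ k * q8Emb S e t * (g ^ k)⁻¹ := by
    intro k
    induction k with
    | zero =>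
      intro t
      simp
    | succ n ih =>
      intro t
      rw [pow_succ' f, MulAut.mul_apply, hf, ih, pow_succ' g]
      group
  have hm : f ^ orderOf g = 1 := by
    ext t
    apply q8Emb_inj S e
    rw [hk, pow_orderOf_eq_one]
    simp
  have hne : f ≠ 1 := by
    rintro rfl
    apply hnc
    rw [Subgroup.mem_centralizer_iff]
    intro h hh
    obtain ⟨t, rfl⟩ := exists_q8Emb S e hh
    have h1 := hf t
    rw [MulAut.one_apply, eq_mul_inv_iff_mul_eq] at h1
    exact h1
  have hoddm : Odd (orderOf g) := hodd.odd_of_right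
  obtain ⟨tx, rfl⟩ := exists_q8Emb S e hx
  obtain ⟨ty, rfl⟩ := exists_q8Emb S e hy
  obtain ⟨k, hk2⟩ := q8_cycle f _ hoddm hm hne tx ty (sq_ne_of_q8Emb S e hx2) (sq_ne_of_q8Emb S e hy2)
  refine ⟨k, ?_⟩
  rw [← hk]
  rcases hk2 with h | h
  · left
    rw [h]
  · right
    rw [h, map_inv]

include e in
/-- Local Frobenius step inside `S`. -/
theorem q8_frob_local [Finite G]
    (hall : ∀ g ∈ Subgroup.normalizer (S : Set G), (orderOf g).Coprime 2 →
      g ∈ Subgroup.centralizer (S : Set G))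
    {Q : Subgroup G} (hQ : Q ≤ S) {g : G} (hg : g ∈ Subgroup.normalizer (Q : Set G))
    (hgc : (orderOf g).Coprime 2) {x : G} (hx : x ∈ Q) : g * x * g⁻¹ = x := by
  by_cases hQS : Q = S
  · subst hQS
    have h1 := hall g hg hgc
    rw [Subgroup.mem_centralizer_iff] at h1
    have h2 := h1 x hx
    rw [mul_inv_eq_iff_eq_mul]
    exact h2.symm
  have hy : g * x * g⁻¹ ∈ Q := (Subgroup.mem_normalizer_iff.mp hg _).mp hx
  obtain ⟨t, ht⟩ := exists_q8Emb S e (hQ hx)
  obtain ⟨u, hu⟩ := exists_q8Emb S e (hQ hy)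
  by_cases ht2 : t ^ 2 = 1
  · have hx2 : x ^ 2 = 1 := by rw [← ht, ← map_pow, ht2, map_one]
    rcases q8_inv t ht2 with h0 | h0
    · have hx1 : x = 1 := by rw [← ht, h0, map_one]
      simp [hx1]
    · have hu2 : u ^ 2 = 1 := by
        apply q8Emb_inj S e
        rw [map_pow, hu, map_one]
        have : (g * x * g⁻¹) ^ 2 = g * x ^ 2 * g⁻¹ := by rw [sq, sq]; group
        rw [this, hx2]
        simp
      rcases q8_inv u hu2 with h1 | h1
      · exfalso
        have h3 : g * x * g⁻¹ = 1 := by rw [← hu, h1, map_one]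
        have h4 : x = 1 := by
          have h5 : g * x = g := by rwa [mul_inv_eq_one] at h3
          exact mul_eq_left.mp h5
        have h6 : t = 1 := by
          apply q8Emb_inj S e
          rw [ht, h4, map_one]
        rw [h6] at h0
        exact q8_a2_ne h0.symm
      · rw [← hu, h1, ← h0, ht]
  · have hx2 : x ^ 2 ≠ 1 := by
      rw [← ht]
      exact q8Emb_sq_ne S e ht2
    have hu2 : u ^ 2 ≠ 1 := by
      apply sq_ne_of_q8Emb S e
      rw [hu]
      intro h3
      apply hx2
      have h4 : (g * x * g⁻¹) ^ 2 = g * x ^ 2 * g⁻¹ := by rw [sq, sq]; group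
      rw [h4, mul_inv_eq_one] at h3
      exact mul_eq_left.mp h3
    -- either `u` is in the class of `t`
    have hcases : u = t ∨ u = t⁻¹ := by
      by_contra hcon
      push Not at hcon
      apply hQS
      apply le_antisymm hQ
      intro s hs
      obtain ⟨w, rfl⟩ := exists_q8Emb S e hs
      have hu1 : u ≠ 1 := by
        intro h0
        rw [h0] at hu2
        exact hu2 (one_pow 2)
      have hua : u ≠ a 2 := by
        rintro rfl
        exact hu2 q8_a2
      have htQ : q8Emb S e t ∈ Q := by rw [ht]; exact hx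
      have huQ : q8Emb S e u ∈ Q := by rw [hu]; exact hy
      have hw := q8_gen t u w ht2 hu1 hua hcon.1 hcon.2
      rcases hw with h | h | h | h | h | h | h | h <;> rw [h] <;>
        (try simp only [map_mul, map_one]) <;>
        first
          | exact Q.one_mem
          | exact htQ
          | exact huQ
          | exact Q.mul_mem htQ htQ
          | exact Q.mul_mem (Q.mul_mem htQ htQ) htQ
          | exact Q.mul_mem htQ huQ
          | exact Q.mul_mem (Q.mul_mem htQ htQ) huQ
          | exact Q.mul_mem (Q.mul_mem (Q.mul_mem htQ htQ) htQ) huQ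
    have hsq : g ^ 2 * x = x * g ^ 2 := by
      rcases hcases with h | h
      · have h1 : g * x * g⁻¹ = x := by rw [← hu, h, ht]
        have h2 : g * x = x * g := by
          rwa [mul_inv_eq_iff_eq_mul] at h1
        rw [sq]
        rw [mul_assoc, h2, ← mul_assoc, h2, mul_assoc]
      · have h1 : g * x * g⁻¹ = x⁻¹ := by rw [← hu, h, map_inv, ht]
        have h2 : g * x⁻¹ * g⁻¹ = x := by
          have h3 := congrArg (fun y => y⁻¹) h1
          simp only [mul_inv_rev, inv_inv] at h3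
          rw [← mul_assoc] at h3
          exact h3
        have h4 : g ^ 2 * x * (g ^ 2)⁻¹ = x := by
          have h5 : g ^ 2 * x * (g ^ 2)⁻¹ = g * (g * x * g⁻¹) * g⁻¹ := by
            rw [sq]
            group
          rw [h5, h1, h2]
        rwa [mul_inv_eq_iff_eq_mul] at h4
    -- odd order
    obtain ⟨r, hr⟩ : ∃ r, orderOf g = 2 * r + 1 := hgc.odd_of_right
    have hgpow : g = (g ^ 2) ^ (r + 1) := by
      rw [← pow_mul]
      have : 2 * (r + 1) = orderOf g + 1 := by omega
      rw [this, pow_succ, pow_orderOf_eq_one, one_mul]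
    have hcomm : Commute ((g ^ 2) ^ (r + 1)) x := (show Commute (g ^ 2) x from hsq).pow_left _
    rw [← hgpow] at hcomm
    rw [mul_inv_eq_iff_eq_mul]
    exact hcomm.eq

end Emb

variable [Finite G]

/-- From no normal complement, an element of odd order normalizing, not centralizing, `S`. -/
theorem q8_exists_g (S : Sylow 2 G) (e : (S : Subgroup G) ≃* Q8M)
    (hnpc : ¬ HasNormalPComplement 2 G) :
    ∃ g ∈ Subgroup.normalizer ((S : Subgroup G) : Set G), (orderOf g).Coprime 2 ∧
      g ∉ Subgroup.centralizer ((S : Subgroup G) : Set G) := by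
  by_contra hcon
  push Not at hcon
  have hall : ∀ g ∈ Subgroup.normalizer ((S : Subgroup G) : Set G), (orderOf g).Coprime 2 →
      g ∈ Subgroup.centralizer ((S : Subgroup G) : Set G) := hcon
  apply hnpc
  apply H13.hasNormalPComplement_of_frobCond
  intro Q hQ g hg hgc
  obtain ⟨T, hT⟩ := hQ.exists_le_sylow
  obtain ⟨c, hc⟩ := MulAction.exists_smul_eq G T S
  have hcm : ∀ x ∈ Q, c * x * c⁻¹ ∈ (S : Subgroup G) := by
    intro x hx
    rw [← hc, Sylow.smul_def, Sylow.pointwise_smul_def]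
    exact Subgroup.smul_mem_pointwise_smul _ _ _ (hT hx)
  set Q' := Q.map (MulAut.conj c).toMonoidHom with hQ'
  have hQ'S : Q' ≤ (S : Subgroup G) := by
    rintro _ ⟨x, hx, rfl⟩
    exact hcm x hx
  have hQ'mem : ∀ x, x ∈ Q' ↔ c⁻¹ * x * c ∈ Q := by
    intro x
    constructor
    · rintro ⟨y, hy, rfl⟩
      have : c⁻¹ * ((MulAut.conj c).toMonoidHom y) * c = y := by
        show c⁻¹ * (c * y * c⁻¹) * c = y
        group
      rw [this]
      exact hy
    · intro h
      exact ⟨_, h, by show c * (c⁻¹ * x * c) * c⁻¹ = x; group⟩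
  have hg' : c * g * c⁻¹ ∈ Subgroup.normalizer (Q' : Set G) := by
    rw [Subgroup.mem_normalizer_iff]
    intro x
    rw [hQ'mem, hQ'mem]
    have h1 : c⁻¹ * (c * g * c⁻¹ * x * (c * g * c⁻¹)⁻¹) * c = g * (c⁻¹ * x * c) * g⁻¹ := by group
    rw [h1]
    exact (Subgroup.mem_normalizer_iff.mp hg) _
  have hgc' : (orderOf (c * g * c⁻¹)).Coprime 2 := by
    have h0 : orderOf (c * g * c⁻¹) = orderOf g :=
      orderOf_injective (MulAut.conj c).toMonoidHom (MulAut.conj c).injective g
    rw [h0]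
    exact hgc
  rw [Subgroup.mem_centralizer_iff]
  intro x hx
  have h1 := q8_frob_local (S : Subgroup G) e hall hQ'S hg' hgc' (x := c * x * c⁻¹)
    ⟨x, hx, rfl⟩
  have h2 : c * g * c⁻¹ * (c * x * c⁻¹) * (c * g * c⁻¹)⁻¹ = c * (g * x * g⁻¹) * c⁻¹ := by group
  rw [h2] at h1
  have h3 : g * x * g⁻¹ = x := mul_left_cancel (mul_right_cancel h1)
  rw [mul_inv_eq_iff_eq_mul] at h3
  exact h3.symm

/-- All elements of order four of `S` are conjugate. -/
theorem q8_all_conj (S : Sylow 2 G) (e : (S : Subgroup G) ≃* Q8M)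
    (hnpc : ¬ HasNormalPComplement 2 G) {x y : G} (hx : x ∈ (S : Subgroup G))
    (hy : y ∈ (S : Subgroup G)) (hx2 : x ^ 2 ≠ 1) (hy2 : y ^ 2 ≠ 1) : IsConj x y := by
  obtain ⟨g, hg, hodd, hnc⟩ := q8_exists_g S e hnpc
  obtain ⟨k, hk⟩ := q8_key (S : Subgroup G) e hg hodd hnc hx hy hx2 hy2
  rcases hk with h | h
  · exact isConj_iff.mpr ⟨_, h⟩
  · have h1 : IsConj x y⁻¹ := isConj_iff.mpr ⟨_, h⟩
    refine h1.trans ?_
    obtain ⟨u, rfl⟩ := exists_q8Emb (S : Subgroup G) e hy
    obtain ⟨v, hv⟩ := q8_conj_inv u (sq_ne_of_q8Emb _ e hy2)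
    have h2 : q8Emb (S : Subgroup G) e v * q8Emb (S : Subgroup G) e u *
        (q8Emb (S : Subgroup G) e v)⁻¹ = (q8Emb (S : Subgroup G) e u)⁻¹ := by
      rw [← map_inv, ← map_inv, ← map_mul, ← map_mul, hv]
    exact (isConj_iff.mpr ⟨_, h2⟩).symm

/-- The central involution of `S` is central in `G`, when `O(G) = 1`. -/
theorem q8_central (S : Sylow 2 G) (e : (S : Subgroup G) ≃* Q8M) (hO : oddCore G = ⊥) (g : G) :
    q8Emb (S : Subgroup G) e (a 2) * g = g * q8Emb (S : Subgroup G) e (a 2) := by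
  set ι := q8Emb (S : Subgroup G) e with hι
  have hz2 : (ι (a 2)) ^ 2 = 1 := by rw [← map_pow, q8_a2, map_one]
  have hz1 : ι (a 2) ≠ 1 := by
    intro h
    apply q8_a2_ne
    apply q8Emb_inj (S : Subgroup G) e
    rw [map_one]
    exact h
  have hz : orderOf (ι (a 2)) = 2 := orderOf_eq_prime hz2 hz1
  have hiso : ∀ g : G, g * ι (a 2) * g⁻¹ ∈ (S : Subgroup G) → g * ι (a 2) * g⁻¹ = ι (a 2) := by
    intro g hg
    obtain ⟨u, hu⟩ := exists_q8Emb (S : Subgroup G) e hg
    have hu2 : u ^ 2 = 1 := by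
      apply q8Emb_inj (S : Subgroup G) e
      rw [map_pow, map_one]
      show (ι u) ^ 2 = 1
      rw [hu]
      have h4 : (g * ι (a 2) * g⁻¹) ^ 2 = g * (ι (a 2)) ^ 2 * g⁻¹ := by rw [sq, sq]; group
      rw [h4, hz2]
      simp
    rcases q8_inv u hu2 with h | h
    · exfalso
      have h3 : g * ι (a 2) * g⁻¹ = 1 := by
        rw [← hu]
        show ι u = 1
        rw [h, map_one]
      rw [mul_inv_eq_one] at h3
      exact hz1 (mul_eq_left.mp h3)
    · rw [← hu, h]
  have hiso' := isolated_of_sylow S hz (q8Emb_mem (S : Subgroup G) e (a 2)) hiso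
  have h1 := zstar_theorem G (ι (a 2)) hiso' g
  rw [hO, Subgroup.mem_bot, mul_inv_eq_one, mul_inv_eq_iff_eq_mul] at h1
  exact h1

end Cfsg.Agent.H15
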