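import Mathlib

/-! # Finite facts on the quaternion group of order 8, and on its automorphisms -/

set_option autoImplicit false
set_option maxRecDepth 100000

namespace Cfsg.Agent.H15

open QuaternionGroup

abbrev Q8M := QuaternionGroup 2

theorem q8_sq : ∀ x : Q8M, x ^ 2 = 1 ∨ x ^ 2 = a 2 := by decide

theorem q8_inv : ∀ x : Q8M, x ^ 2 = 1 → x = 1 ∨ x = a 2 := by decide

theorem q8_comm : ∀ w x : Q8M, w ^ 2 ≠ 1 → w * x = x * w → x = 1 ∨ x = a 2 ∨ x = w ∨ x = w⁻¹ := by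
  decide

theorem q8_center : ∀ x : Q8M, a 2 * x = x * a 2 := by decide

theorem q8_conj_inv : ∀ w : Q8M, w ^ 2 ≠ 1 → ∃ y : Q8M, y * w * y⁻¹ = w⁻¹ := by decide

theorem q8_sq_eq : ∀ w : Q8M, w ^ 2 ≠ 1 → w ^ 2 = a 2 := by decide

theorem q8_gen : ∀ w x t : Q8M, w ^ 2 ≠ 1 → x ≠ 1 → x ≠ a 2 → x ≠ w → x ≠ w⁻¹ →
    t = 1 ∨ t = w ∨ t = w * w ∨ t = w * w * w ∨ t = x ∨ t = w * x ∨ t = w * w * x ∨ t = w * w * w * x := by
  decide

theorem q8_a1 : (a 1 : Q8M) ^ 2 ≠ 1 := by decide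

theorem q8_a2 : (a 2 : Q8M) ^ 2 = 1 := by decide

theorem q8_a2_ne : (a 2 : Q8M) ≠ 1 := by decide

theorem q8_a1_sq : (a 1 : Q8M) ^ 2 = a 2 := by decide

theorem q8_xa0 : (xa 0 : Q8M) ^ 2 ≠ 1 := by decide

theorem q8_xa0_ne : (xa 0 : Q8M) ≠ a 1 ∧ (xa 0 : Q8M) ≠ (a 1)⁻¹ := by decide

def FQ (u v : Q8M) : Q8M → Q8M
  | a i => u ^ (i.val)
  | xa i => v * u ^ (i.val)

theorem fq12 : ∀ u v t : Q8M, u ^ 2 ≠ 1 → v ^ 2 ≠ 1 → v ≠ u → v ≠ u⁻¹ → (FQ u v)^[12] t = t := by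
  decide

theorem fq3 : ∀ u v : Q8M, u ^ 2 ≠ 1 → v ^ 2 ≠ 1 → v ≠ u → v ≠ u⁻¹ →
    (∀ t, (FQ u v)^[3] t = t) → (∃ t, FQ u v t ≠ t) → ∀ x y : Q8M, x ^ 2 ≠ 1 → y ^ 2 ≠ 1 →
      ∃ k : Fin 3, (FQ u v)^[k.val] x = y ∨ (FQ u v)^[k.val] x = y⁻¹ := by
  decide

theorem aut_eq_fq (f : MulAut Q8M) (t : Q8M) : f t = FQ (f (a 1)) (f (xa 0)) t := by
  cases t with
  | a i =>
    show f (a i) = (f (a 1)) ^ i.val
    rw [← map_pow, a_one_pow, ZMod.natCast_zmod_val]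
  | xa i =>
    show f (xa i) = f (xa 0) * (f (a 1)) ^ i.val
    rw [← map_pow, a_one_pow, ZMod.natCast_zmod_val, ← map_mul, xa_mul_a, zero_add]

theorem aut_pow_apply (f : MulAut Q8M) (k : ℕ) (t : Q8M) : (f ^ k) t = (⇑f)^[k] t := by
  induction k generalizing t with
  | zero => rfl
  | succ n ih =>
    rw [pow_succ, Function.iterate_succ_apply, MulAut.mul_apply, ih]

theorem aut_map_sq_ne (f : MulAut Q8M) {t : Q8M} (h : t ^ 2 ≠ 1) : (f t) ^ 2 ≠ 1 := by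
  intro h2
  apply h
  apply f.injective
  rw [map_pow, h2, map_one]

/-- An automorphism of odd order of `Q₈` other than the identity permutes the three cyclic
subgroups of order four transitively. -/
theorem q8_cycle (f : MulAut Q8M) (m : ℕ) (hm : Odd m) (hf : f ^ m = 1) (hne : f ≠ 1)
    (x y : Q8M) (hx : x ^ 2 ≠ 1) (hy : y ^ 2 ≠ 1) :
    ∃ k : ℕ, (f ^ k) x = y ∨ (f ^ k) x = y⁻¹ := by
  set u := f (a 1) with hu
  set v := f (xa 0) with hv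
  have hF : ⇑f = FQ u v := funext (aut_eq_fq f)
  have hu2 : u ^ 2 ≠ 1 := aut_map_sq_ne f q8_a1
  have hv2 : v ^ 2 ≠ 1 := aut_map_sq_ne f q8_xa0
  have hvu : v ≠ u := fun h => q8_xa0_ne.1 (f.injective h)
  have hvu' : v ≠ u⁻¹ := fun h => q8_xa0_ne.2 (f.injective (by rw [map_inv]; exact h))
  have h12 : f ^ 12 = 1 := by
    ext t
    rw [aut_pow_apply, hF]
    exact fq12 u v t hu2 hv2 hvu hvu'
  have hdvd1 : orderOf f ∣ 12 := orderOf_dvd_of_pow_eq_one h12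
  have hdvd2 : orderOf f ∣ m := orderOf_dvd_of_pow_eq_one hf
  have hcop : (orderOf f).Coprime 4 := by
    have h1 : Odd (orderOf f) := hm.of_dvd_nat hdvd2
    have h2 : (orderOf f).Coprime 2 := Nat.Coprime.symm (Nat.coprime_two_left.mpr h1)
    exact Nat.Coprime.pow_right 2 h2
  have hdvd3 : orderOf f ∣ 3 := hcop.dvd_of_dvd_mul_left (by simpa using hdvd1)
  have h3 : f ^ 3 = 1 := orderOf_dvd_iff_pow_eq_one.mp hdvd3
  have h3' : ∀ t, (FQ u v)^[3] t = t := by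
    intro t
    rw [← hF, ← aut_pow_apply, h3]
    rfl
  have hnt : ∃ t, FQ u v t ≠ t := by
    by_contra hcon
    push Not at hcon
    apply hne
    ext t
    rw [hF]
    exact hcon t
  obtain ⟨k, hk⟩ := fq3 u v hu2 hv2 hvu hvu' h3' hnt x y hx hy
  refine ⟨k.val, ?_⟩
  rw [aut_pow_apply, hF]
  exact hk

end Cfsg.Agent.H15
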