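import Cfsg.Agent.Lib.H15.ZStarQ3

/-!
# The commutator subgroup of a generalized quaternion Sylow subgroup
-/

set_option autoImplicit false
set_option linter.style.haveILetI false
set_option linter.unusedSectionVars false

namespace Cfsg.Agent.H15

open Cfsg
open scoped commutatorElement

universe u

variable {G : Type u} [Group G] [Finite G] {T : Sylow 2 G} {x y : G} {m : ℕ}

theorem centralizer_zpowers_eq_singleton (w : G) :
    Subgroup.centralizer ((Subgroup.zpowers w : Subgroup G) : Set G) =
      Subgroup.centralizer ({w} : Set G) := by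
  ext c
  rw [Subgroup.mem_centralizer_iff, Subgroup.mem_centralizer_singleton_iff]
  constructor
  · intro h
    exact (h w (Subgroup.mem_zpowers w)).symm
  · intro h
    rintro _ ⟨n, rfl⟩
    have h1 : Commute c w := h
    exact (h1.zpow_right n).eq.symm

namespace QData

variable (h : QData T x y m)
include h

/-- Squares of elements of `T` lie in `⟨x²⟩`. -/
theorem sq_mem (t : G) (ht : t ∈ (T : Subgroup G)) : t * t ∈ Subgroup.zpowers (x * x) := by
  rcases h.hT t ht with h1 | ⟨k, hk, rfl⟩
  · obtain ⟨n, rfl⟩ := h1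
    refine ⟨n, ?_⟩
    simp only
    rw [← zpow_two, ← zpow_mul, ← zpow_two, ← zpow_mul, mul_comm]
  · -- `(y k)² = y²`
    have hinv : y * k * y⁻¹ = k⁻¹ := by
      obtain ⟨n, rfl⟩ := hk
      simp only
      rw [← conj_zpow, h.hconj, inv_zpow]
    have h2 : y * k * (y * k) = y * y := by
      calc y * k * (y * k) = (y * k * y⁻¹) * (y * y) * k := by group
        _ = k⁻¹ * (y * y) * k := by rw [hinv]
        _ = y * y := by
          rw [h.hyy]
          obtain ⟨n, rfl⟩ := hk
          have h5 : Commute (x ^ n) (x ^ 2 ^ (m - 1)) := (Commute.refl x).zpow_left n |>.pow_right _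
          have : ((fun z : ℤ => x ^ z) n)⁻¹ * x ^ 2 ^ (m - 1) * (fun z : ℤ => x ^ z) n = x ^ 2 ^ (m - 1) := by
            simp only
            rw [mul_assoc, ← h5.eq, inv_mul_cancel_left]
          exact this
    rw [h2, h.hyy]
    have hm := h.hm
    obtain ⟨j, hj⟩ : ∃ j, m - 1 = j + 1 := ⟨m - 2, by omega⟩
    have h7 : x ^ 2 ^ (m - 1) = (x * x) ^ 2 ^ j := by
      rw [hj, pow_succ, mul_comm, pow_mul, pow_two]
    rw [h7]
    exact Subgroup.npow_mem_zpowers _ _

/-- The commutator subgroup of `T` is `⟨x²⟩`. -/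
theorem commutator_eq :
    ⁅(T : Subgroup G), (T : Subgroup G)⁆ = Subgroup.zpowers (x * x) := by
  apply le_antisymm
  · rw [Subgroup.commutator_le]
    intro g hg k hk
    have hg2 := h.sq_mem (g * k) (Subgroup.mul_mem _ hg hk)
    have hgg := h.sq_mem g hg
    have hkk := h.sq_mem k hk
    have hn := Subgroup.mem_normalizer_iff.mp (h.T_le_normalizer (Subgroup.inv_mem _ hk))
    have h3 := (hn _).mp (Subgroup.inv_mem _ hgg)
    have h4 := Subgroup.mul_mem _ (Subgroup.mul_mem _ hg2 h3) (Subgroup.inv_mem _ hkk)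
    convert h4 using 1
    rw [commutatorElement_def]
    group
  · rw [Subgroup.zpowers_le]
    have h1 := Subgroup.commutator_mem_commutator h.hyT h.hxT
    have h2 : ⁅y, x⁆ = (x * x)⁻¹ := by
      rw [commutatorElement_def, h.hconj]
      group
    rw [h2] at h1
    simpa using Subgroup.inv_mem _ h1

/-- Elements normalizing `⟨x²⟩` are in `C` or `C y`. -/
theorem N_cases (hm3 : 3 ≤ m) {g : G}
    (hg : g ∈ Subgroup.normalizer ((Subgroup.zpowers (x * x) : Subgroup G) : Set G)) :
    g ∈ Subgroup.centralizer ({x * x} : Set G) ∨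
      g * y⁻¹ ∈ Subgroup.centralizer ({x * x} : Set G) := by
  apply h.conj_X hm3 h.x_mem_C
  · rw [h.hx]
    exact pow_dvd_pow 2 (by omega)
  · exact h.conj_mem_C_of_normalizer hg h.x_mem_C

/-- The order of `⟨x²⟩`. -/
theorem card_D : Nat.card (Subgroup.zpowers (x * x)) = 2 ^ (m - 1) := by
  rw [Nat.card_zpowers, h.orderOf_sq]

end QData

end Cfsg.Agent.H15
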