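import Mathlib

/-!
# Coprime action of a `p`-group with abelian exponent-`p` image: minimal non-centralized sections

If a `p`-group acts on a `p'`-group `Y` through an abelian group of exponent `p`, all its proper
invariant subgroups are centralized and `Y` itself is not, then the kernel of the action has index `p`.
-/

set_option autoImplicit false

namespace Cfsg.Agent.H15.SY

open scoped Pointwise commutatorElement

section Norm

variable {V : Type*} [CommGroup V] {p : ℕ}

theorem norm_eq_one (hp : 0 < p) (w : MulAut V) (hw : w ^ p = 1) (hfp : ∀ v, w v = v → v = 1) (v : V) :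
    ∏ k ∈ Finset.range p, (w ^ k) v = 1 := by
  apply hfp
  rw [map_prod]
  have h1 : ∏ k ∈ Finset.range (p + 1), (w ^ k) v = (∏ k ∈ Finset.range p, (w ^ k) v) * (w ^ p) v :=
    Finset.prod_range_succ _ _
  have h2 : ∏ k ∈ Finset.range (p + 1), (w ^ k) v = (∏ k ∈ Finset.range p, (w ^ (k + 1)) v) * (w ^ 0) v :=
    Finset.prod_range_succ' _ _
  have h3 : (w ^ p) v = v := by rw [hw]; rfl
  have h4 : (w ^ 0) v = v := by simp
  have h5 := h1.symm.trans h2
  rw [h3, h4] at h5
  have h6 := mul_right_cancel h5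
  rw [h6]
  apply Finset.prod_congr rfl
  intro k _
  rw [pow_succ']
  rfl

theorem pow_eq_one_of_fpf (hp : 0 < p) (e f : MulAut V) (hef : Commute e f)
    (he : e ^ p = 1) (hf : f ^ p = 1)
    (h1 : ∀ k, 0 < k → k < p → ∀ v, (f ^ k) v = v → v = 1)
    (h2 : ∀ j v, (e * f ^ j) v = v → v = 1) (v : V) : v ^ p = 1 := by
  have hw : ∀ j, (e * f ^ j) ^ p = 1 := by
    intro j
    rw [(hef.pow_right j).mul_pow, he, one_mul, ← pow_mul, mul_comm, pow_mul, hf, one_pow]
  have hall : ∏ j ∈ Finset.range p, ∏ k ∈ Finset.range p, ((e * f ^ j) ^ k) v = 1 :=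
    Finset.prod_eq_one (fun j _ => norm_eq_one hp _ (hw j) (h2 j) v)
  rw [Finset.prod_comm] at hall
  obtain ⟨n, rfl⟩ : ∃ n, p = n + 1 := ⟨p - 1, by omega⟩
  rw [Finset.prod_range_succ' (fun k => ∏ j ∈ Finset.range (n + 1), ((e * f ^ j) ^ k) v)] at hall
  have h3 : ∏ k ∈ Finset.range n, ∏ j ∈ Finset.range (n + 1), ((e * f ^ j) ^ (k + 1)) v = 1 := by
    apply Finset.prod_eq_one
    intro k hk
    have hk' : k + 1 < n + 1 := by simpa using hk
    have hfk : (f ^ (k + 1)) ^ (n + 1) = 1 := by
      rw [← pow_mul, mul_comm, pow_mul, hf, one_pow]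
    have hN := norm_eq_one hp (f ^ (k + 1)) hfk (h1 (k + 1) (by omega) hk') v
    have h4 : ∀ j, ((e * f ^ j) ^ (k + 1)) v = (e ^ (k + 1)) (((f ^ (k + 1)) ^ j) v) := by
      intro j
      rw [(hef.pow_right j).mul_pow, ← pow_mul, mul_comm j, pow_mul]
      rfl
    simp_rw [h4]
    rw [← map_prod, hN, map_one]
  rw [h3, one_mul] at hall
  simpa using hall

end Norm

section Main

variable {Y E : Type*} [Group Y] [Finite Y] [Group E] [Finite E] {p : ℕ} [hp : Fact p.Prime]

/-- The common fixed points. -/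
def fixSub (ρ : E →* MulAut Y) : Subgroup Y where
  carrier := {y | ∀ a, ρ a y = y}
  mul_mem' := by
    intro x y hx hy a
    simp only [map_mul, hx a, hy a]
  one_mem' := by
    intro a
    simp
  inv_mem' := by
    intro x hx a
    simp only [map_inv, hx a]

/-- The fixed points of one element. -/
def fixOne (φ : MulAut Y) : Subgroup Y where
  carrier := {y | φ y = y}
  mul_mem' := by
    intro x y hx hy
    change _ = _ at hx hy ⊢
    simp only [map_mul, hx, hy]
  one_mem' := by simp
  inv_mem' := by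
    intro x hx
    change _ = _ at hx ⊢
    simp only [map_inv, hx]

theorem exists_inv_sylow (hE : IsPGroup p E) (ρ : E →* MulAut Y) (hcop : (Nat.card Y).Coprime p)
    (q : ℕ) [Fact q.Prime] : ∃ T : Sylow q Y, ∀ a, ∀ z ∈ (T : Subgroup Y), ρ a z ∈ (T : Subgroup Y) := by
  classical
  letI : MulDistribMulAction E Y := MulDistribMulAction.compHom Y ρ
  have hcard : ¬ p ∣ Nat.card (Sylow q Y) := by
    intro h
    have h1 : Nat.card (Sylow q Y) ∣ Nat.card Y := by
      obtain ⟨T⟩ : Nonempty (Sylow q Y) := inferInstance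
      rw [Sylow.card_eq_index_normalizer T]
      exact Subgroup.index_dvd_card _
    have h2 := Nat.dvd_gcd (h.trans h1) (dvd_refl p)
    rw [hcop] at h2
    exact (Fact.out : p.Prime).one_lt.ne' (Nat.dvd_one.1 h2)
  obtain ⟨T, hT⟩ := hE.nonempty_fixed_point_of_prime_not_dvd_card (Sylow q Y) hcard
  refine ⟨T, fun a z hz => ?_⟩
  have h1 : a • T = T := hT a
  have h2 : (a • z) ∈ ((a • T : Sylow q Y) : Subgroup Y) := by
    rw [Sylow.pointwise_smul_def]
    exact Subgroup.smul_mem_pointwise_smul _ _ _ hz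
  rw [h1] at h2
  exact h2

theorem index_ker_eq (hE : IsPGroup p E) (ρ : E →* MulAut Y) (hcomm : ∀ a b, ρ a * ρ b = ρ b * ρ a)
    (hpow : ∀ a, (ρ a) ^ p = 1) (hcop : (Nat.card Y).Coprime p)
    (hmin : ∀ Z : Subgroup Y, (∀ a, ∀ z ∈ Z, ρ a z ∈ Z) → Z ≠ ⊤ → ∀ a, ∀ z ∈ Z, ρ a z = z)
    (hne : ∃ a y, ρ a y ≠ y) : ρ.ker.index = p := by
  classical
  set D := fixSub ρ with hD
  have hDne : D ≠ ⊤ := by
    intro h
    obtain ⟨a, y, hy⟩ := hne
    have : y ∈ D := by rw [h]; trivial
    exact hy (this a)
  -- Step A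
  have hA : ∀ w, ρ w ≠ 1 → ∀ y, ρ w y = y → y ∈ D := by
    intro w hw y hy
    have hZ : fixOne (ρ w) ≠ ⊤ := by
      intro h
      apply hw
      ext x
      have : x ∈ fixOne (ρ w) := by rw [h]; trivial
      exact this
    intro a
    refine hmin (fixOne (ρ w)) ?_ hZ a y hy
    intro b z hz
    change ρ w (ρ b z) = ρ b z
    have h1 : (ρ w * ρ b) z = (ρ b * ρ w) z := by rw [hcomm]
    change ρ w (ρ b z) = ρ b (ρ w z) at h1
    rw [h1, show ρ w z = z from hz]
  -- Step B: `Y` is a `q`-group.
  have hB : ∃ q : ℕ, q.Prime ∧ IsPGroup q Y := by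
    by_contra hno
    push Not at hno
    apply hDne
    rw [← Subgroup.index_eq_one]
    by_contra hidx
    obtain ⟨q, hq, hqd⟩ := Nat.exists_prime_and_dvd hidx
    haveI : Fact q.Prime := ⟨hq⟩
    obtain ⟨T, hT⟩ := exists_inv_sylow hE ρ hcop q
    have hTne : (T : Subgroup Y) ≠ ⊤ := by
      intro h
      apply hno q hq
      have h1 : IsPGroup q (T : Subgroup Y) := T.isPGroup'
      rw [h] at h1
      exact IsPGroup.of_equiv h1 Subgroup.topEquiv
    have hTD : (T : Subgroup Y) ≤ D := by
      intro z hz a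
      exact hmin _ hT hTne a z hz
    exact T.not_dvd_index (hqd.trans (Subgroup.index_dvd_of_le hTD))
  obtain ⟨q, hq, hYq⟩ := hB
  haveI : Fact q.Prime := ⟨hq⟩
  -- Step C: commutator inside `D`.
  have hNontriv : Nontrivial Y := by
    obtain ⟨a, y, hy⟩ := hne
    by_contra hh
    rw [not_nontrivial_iff_subsingleton] at hh
    exact hy (Subsingleton.elim _ _)
  haveI : Group.IsNilpotent Y := hYq.isNilpotent
  have hComm : commutator Y ≠ ⊤ := by
    exact (Group.IsSolvable.commutator_lt_top_of_nontrivial Y).ne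
  have hCD : commutator Y ≤ D := by
    intro z hz a
    refine hmin (commutator Y) ?_ hComm a z hz
    intro b x hx
    have hch : (commutator Y).Characteristic := inferInstance
    have := (Subgroup.characteristic_iff_map_le.1 hch) (ρ b)
    exact this ⟨x, hx, rfl⟩
  haveI hDn : D.Normal := by
    refine ⟨fun d hd y => ?_⟩
    have h1 : y * d * y⁻¹ * d⁻¹ ∈ D := hCD (Subgroup.commutator_mem_commutator trivial trivial)
    have h2 := D.mul_mem h1 hd
    simpa using h2
  -- Step D: the quotient.
  letI instV : CommGroup (Y ⧸ D) :=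
    { (inferInstance : Group (Y ⧸ D)) with
      mul_comm := by
        intro u v
        induction u using QuotientGroup.induction_on with
        | H u =>
          induction v using QuotientGroup.induction_on with
          | H v =>
            rw [← QuotientGroup.mk_mul, ← QuotientGroup.mk_mul, QuotientGroup.eq]
            have h1 : (u * v)⁻¹ * (v * u) = ⁅v⁻¹, u⁻¹⁆ := by
              simp only [commutatorElement_def]; group
            rw [h1]
            exact hCD (Subgroup.commutator_mem_commutator trivial trivial) }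
  have hmapD : ∀ a, D.map (ρ a).toMonoidHom = D := by
    intro a
    ext z
    constructor
    · rintro ⟨d, hd, rfl⟩
      have : ρ a d = d := hd a
      change ρ a d ∈ D
      rwa [this]
    · intro hz
      exact ⟨z, hz, hz a⟩
  let act : E → MulAut (Y ⧸ D) := fun a => QuotientGroup.congr D D (ρ a) (hmapD a)
  have hact : ∀ a (y : Y), act a (y : Y ⧸ D) = ((ρ a y : Y) : Y ⧸ D) := fun a y => rfl
  let ρ' : E →* MulAut (Y ⧸ D) := MonoidHom.mk' act (by
    intro a b
    ext v
    induction v using QuotientGroup.induction_on with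
    | H y =>
      change act (a * b) (y : Y ⧸ D) = act a (act b (y : Y ⧸ D))
      rw [hact, hact, hact, map_mul]
      rfl)
  have hρ' : ∀ a (y : Y), ρ' a (y : Y ⧸ D) = ((ρ a y : Y) : Y ⧸ D) := fun a y => rfl
  -- Step E: fixed-point-freeness on the quotient.
  have hfpf : ∀ w, ρ w ≠ 1 → ∀ v : Y ⧸ D, ρ' w v = v → v = 1 := by
    intro w hw v hv
    induction v using QuotientGroup.induction_on with
    | H y =>
      rw [hρ'] at hv
      have hd : (ρ w y)⁻¹ * y ∈ D := QuotientGroup.eq.1 hv
      set d := (ρ w y)⁻¹ * y with hddef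
      have hdfix : ρ w d = d := hd w
      have hy : y = ρ w y * d := by rw [hddef]; group
      have hit : ∀ k : ℕ, ((ρ w) ^ k) y = y * d⁻¹ ^ k := by
        intro k
        induction k with
        | zero => simp
        | succ k ih =>
          rw [pow_succ', MulAut.mul_apply, ih, map_mul, map_pow, map_inv, hdfix, pow_succ']
          have h5 : ρ w y = y * d⁻¹ := by
            rw [hddef]; group
          rw [h5]; group
      have hdp : d⁻¹ ^ p = 1 := by
        have := hit p
        rw [hpow w] at this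
        have h6 : y = y * d⁻¹ ^ p := this
        exact mul_left_cancel (a := y) (by rw [mul_one]; exact h6.symm)
      have hd1 : d⁻¹ = 1 := by
        have h7 : orderOf d⁻¹ ∣ p := orderOf_dvd_of_pow_eq_one hdp
        have h8 : orderOf d⁻¹ ∣ Nat.card Y := orderOf_dvd_natCard _
        have h9 := Nat.dvd_gcd h8 h7
        rw [hcop] at h9
        exact orderOf_eq_one_iff.1 (Nat.dvd_one.1 h9)
      have hfix : ρ w y = y := by
        have h5 : ρ w y = y * d⁻¹ := by
          rw [hddef]; group
        rw [h5, hd1, mul_one]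
      exact (QuotientGroup.eq_one_iff y).2 (hA w hw y hfix)
  -- Step F.
  obtain ⟨f, y0, hy0⟩ := hne
  have hf1 : ρ f ≠ 1 := by
    intro h
    apply hy0
    rw [h]; rfl
  have hfk : ∀ k, 0 < k → k < p → ρ (f ^ k) ≠ 1 := by
    intro k hk hkp h
    rw [map_pow] at h
    apply hf1
    have hc : Nat.gcd k p = 1 :=
      (Nat.coprime_comm.1 ((Nat.Prime.coprime_iff_not_dvd Fact.out).2
        (Nat.not_dvd_of_pos_of_lt hk hkp)))
    have h2 := pow_gcd_eq_one.2 ⟨h, hpow f⟩
    rwa [hc, pow_one] at h2
  have hrange : ∀ e, ∃ j : ℕ, ρ (e * f ^ j) = 1 := by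
    intro e
    by_contra hno
    push Not at hno
    have hp0 : 0 < p := (Fact.out : p.Prime).pos
    have hcommE : Commute (ρ' e) (ρ' f) := by
      change ρ' e * ρ' f = ρ' f * ρ' e
      ext v
      induction v using QuotientGroup.induction_on with
      | H y =>
        change ρ' e (ρ' f (y : Y ⧸ D)) = ρ' f (ρ' e (y : Y ⧸ D))
        rw [hρ', hρ', hρ', hρ']
        have : (ρ e * ρ f) y = (ρ f * ρ e) y := by rw [hcomm]
        exact congrArg _ this
    have hpow' : ∀ a, (ρ' a) ^ p = 1 := by
      intro a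
      ext v
      induction v using QuotientGroup.induction_on with
      | H y =>
        rw [← map_pow, hρ', map_pow, hpow a]
        rfl
    have hall : ∀ v : Y ⧸ D, v ^ p = 1 := by
      intro v
      refine pow_eq_one_of_fpf hp0 (ρ' e) (ρ' f) hcommE (hpow' e) (hpow' f) ?_ ?_ v
      · intro k hk hkp u hu
        rw [← map_pow] at hu
        exact hfpf (f ^ k) (hfk k hk hkp) u hu
      · intro j u hu
        rw [← map_pow, ← map_mul] at hu
        exact hfpf _ (hno j) u hu
    have hD' : D = ⊤ := by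
      rw [eq_top_iff]
      intro y _
      have h1 : ((y : Y) : Y ⧸ D) ^ p = 1 := hall _
      have h2 : orderOf ((y : Y) : Y ⧸ D) ∣ p := orderOf_dvd_of_pow_eq_one h1
      have h3 : orderOf ((y : Y) : Y ⧸ D) ∣ orderOf y :=
        orderOf_dvd_of_pow_eq_one (by rw [← QuotientGroup.mk_pow, pow_orderOf_eq_one]; rfl)
      have h4 : orderOf y ∣ Nat.card Y := orderOf_dvd_natCard _
      have h5 := Nat.dvd_gcd (h3.trans h4) h2
      rw [hcop] at h5
      have h6 := orderOf_eq_one_iff.1 (Nat.dvd_one.1 h5)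
      exact (QuotientGroup.eq_one_iff y).1 h6
    exact hDne hD'
  have hrng : ρ.range = Subgroup.zpowers (ρ f) := by
    ext φ
    constructor
    · rintro ⟨e, rfl⟩
      obtain ⟨j, hj⟩ := hrange e
      rw [map_mul, map_pow] at hj
      have : ρ e = ((ρ f) ^ j)⁻¹ := eq_inv_of_mul_eq_one_left hj
      rw [this]
      exact Subgroup.inv_mem _ (Subgroup.pow_mem _ (Subgroup.mem_zpowers _) _)
    · intro h
      obtain ⟨k, rfl⟩ := Subgroup.mem_zpowers_iff.1 h
      exact ⟨f ^ k, by simp⟩
  rw [Subgroup.index_ker, hrng, Nat.card_zpowers]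
  exact orderOf_eq_prime (hpow f) hf1

end Main

end Cfsg.Agent.H15.SY
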