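import Cfsg.Agent.Lib.H15.SY1

/-!
# Minimal invariant subgroups not centralized by a `p`-group
-/

set_option autoImplicit false

namespace Cfsg.Agent.H15.SY

open scoped commutatorElement

variable {X E : Type*} [Group X] [Group E]

theorem exists_min_Y [Finite X] (ψ : E →* X) (K : Subgroup X)
    (hKn : ∀ e, ∀ k ∈ K, ψ e * k * (ψ e)⁻¹ ∈ K) (hne : ∃ e, ∃ y ∈ K, ψ e * y * (ψ e)⁻¹ ≠ y) :
    ∃ Y : Subgroup X, Y ≤ K ∧ (∀ e, ∀ y ∈ Y, ψ e * y * (ψ e)⁻¹ ∈ Y) ∧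
      (∃ e, ∃ y ∈ Y, ψ e * y * (ψ e)⁻¹ ≠ y) ∧
      ∀ Z : Subgroup X, Z ≤ Y → (∀ e, ∀ y ∈ Z, ψ e * y * (ψ e)⁻¹ ∈ Z) → Z ≠ Y →
        ∀ e, ∀ y ∈ Z, ψ e * y * (ψ e)⁻¹ = y := by
  classical
  let S : Set (Subgroup X) := {Y | Y ≤ K ∧ (∀ e, ∀ y ∈ Y, ψ e * y * (ψ e)⁻¹ ∈ Y) ∧
      (∃ e, ∃ y ∈ Y, ψ e * y * (ψ e)⁻¹ ≠ y)}
  have hS : S.Nonempty := ⟨K, le_rfl, hKn, hne⟩
  obtain ⟨Y, hY, hmin⟩ := Set.exists_min_image S (fun Y => Nat.card Y) (Set.toFinite S) hS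
  refine ⟨Y, hY.1, hY.2.1, hY.2.2, ?_⟩
  intro Z hZY hZinv hZne
  by_contra hno
  push Not at hno
  obtain ⟨e, y, hy, hey⟩ := hno
  have hZS : Z ∈ S := ⟨hZY.trans hY.1, hZinv, e, y, hy, hey⟩
  exact hZne (Subgroup.eq_of_le_of_card_ge hZY (hmin Z hZS))

/-- The conjugation action of `E` on an invariant subgroup, through `ψ`. -/
def rhoOf (ψ : E →* X) (Y : Subgroup X) (hY : ∀ e, ∀ y ∈ Y, ψ e * y * (ψ e)⁻¹ ∈ Y) : E →* MulAut Y :=
  MonoidHom.mk'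
    (fun e =>
      { toFun := fun y => ⟨ψ e * y * (ψ e)⁻¹, hY e y y.2⟩
        invFun := fun y => ⟨ψ e⁻¹ * y * (ψ e⁻¹)⁻¹, hY e⁻¹ y y.2⟩
        left_inv := by
          intro y
          apply Subtype.ext
          simp [mul_assoc]
        right_inv := by
          intro y
          apply Subtype.ext
          simp [mul_assoc]
        map_mul' := by
          intro x y
          apply Subtype.ext
          simp [mul_assoc] })
    (by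
      intro a b
      ext y
      simp [MulAut.mul_apply, mul_assoc])

@[simp] theorem rhoOf_coe (ψ : E →* X) (Y : Subgroup X) (hY : ∀ e, ∀ y ∈ Y, ψ e * y * (ψ e)⁻¹ ∈ Y)
    (e : E) (y : Y) : ((rhoOf ψ Y hY e y : Y) : X) = ψ e * y * (ψ e)⁻¹ := rfl

theorem index_ker_rho [Finite X] [Finite E] {p : ℕ} [hp : Fact p.Prime] (hE : IsPGroup p E) (ψ : E →* X)
    (hcomm : ∀ a b, ψ a * ψ b = ψ b * ψ a) (hpow : ∀ a, ψ a ^ p = 1) (Y : Subgroup X)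
    (hcop : (Nat.card Y).Coprime p) (hY : ∀ e, ∀ y ∈ Y, ψ e * y * (ψ e)⁻¹ ∈ Y)
    (hne : ∃ e, ∃ y ∈ Y, ψ e * y * (ψ e)⁻¹ ≠ y)
    (hmin : ∀ Z : Subgroup X, Z ≤ Y → (∀ e, ∀ y ∈ Z, ψ e * y * (ψ e)⁻¹ ∈ Z) → Z ≠ Y →
        ∀ e, ∀ y ∈ Z, ψ e * y * (ψ e)⁻¹ = y) :
    (rhoOf ψ Y hY).ker.index = p := by
  refine index_ker_eq hE (rhoOf ψ Y hY) ?_ ?_ hcop ?_ ?_
  · intro a b
    ext y
    simp only [MulAut.mul_apply, rhoOf_coe]
    have h := hcomm a b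
    calc ψ a * (ψ b * (y : X) * (ψ b)⁻¹) * (ψ a)⁻¹
        = (ψ a * ψ b) * (y : X) * (ψ a * ψ b)⁻¹ := by group
      _ = (ψ b * ψ a) * (y : X) * (ψ b * ψ a)⁻¹ := by rw [h]
      _ = ψ b * (ψ a * (y : X) * (ψ a)⁻¹) * (ψ b)⁻¹ := by group
  · intro a
    ext y
    rw [← map_pow, rhoOf_coe, map_pow, hpow a]
    simp
  · intro Z hZinv hZne a z hz
    have h := hmin (Z.map Y.subtype) (Subgroup.map_subtype_le _) ?_ ?_ a (z : X) ⟨z, hz, rfl⟩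
    · exact Subtype.ext h
    · rintro e _ ⟨w, hw, rfl⟩
      exact ⟨rhoOf ψ Y hY e w, hZinv e w hw, rfl⟩
    · intro hEq
      apply hZne
      rw [eq_top_iff]
      intro w _
      have hw : (w : X) ∈ Z.map Y.subtype := by rw [hEq]; exact w.2
      obtain ⟨w', hw', hww'⟩ := hw
      have : w' = w := Subtype.ext hww'
      exact this ▸ hw'
  · obtain ⟨e, y, hy, hey⟩ := hne
    refine ⟨e, ⟨y, hy⟩, ?_⟩
    intro h
    exact hey (congrArg Subtype.val h)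

/-- If all proper invariant subgroups of `Y` are centralized and `α w α⁻¹ ≠ w`, every subgroup containing
the image of `E` and `w α w⁻¹` contains `Y`. -/
theorem le_of_min [Finite X] {p : ℕ} [hp : Fact p.Prime] (ψ : E →* X) (hpow : ∀ a, ψ a ^ p = 1)
    (Y : Subgroup X) (hcop : (Nat.card Y).Coprime p) (hY : ∀ e, ∀ y ∈ Y, ψ e * y * (ψ e)⁻¹ ∈ Y)
    (hmin : ∀ Z : Subgroup X, Z ≤ Y → (∀ e, ∀ y ∈ Z, ψ e * y * (ψ e)⁻¹ ∈ Z) → Z ≠ Y →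
        ∀ e, ∀ y ∈ Z, ψ e * y * (ψ e)⁻¹ = y)
    (Lb : Subgroup X) (hLb : ∀ e, ψ e ∈ Lb) (a₀ : E) (w : X) (hwY : w ∈ Y)
    (hwL : w * ψ a₀ * w⁻¹ ∈ Lb) (hne : ψ a₀ * w * (ψ a₀)⁻¹ ≠ w) : Y ≤ Lb := by
  by_contra hno
  have hU : Lb ⊓ Y ≠ Y := by
    intro h
    exact hno (inf_eq_right.1 h)
  have hinv : ∀ e, ∀ y ∈ Lb ⊓ Y, ψ e * y * (ψ e)⁻¹ ∈ Lb ⊓ Y := by
    intro e y hy
    exact ⟨Lb.mul_mem (Lb.mul_mem (hLb e) hy.1) (Lb.inv_mem (hLb e)), hY e y hy.2⟩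
  have hcent := hmin (Lb ⊓ Y) inf_le_right hinv hU
  set α := ψ a₀ with hα
  set u := w * α * w⁻¹ * α⁻¹ with hu
  have huL : u ∈ Lb := Lb.mul_mem hwL (Lb.inv_mem (hLb a₀))
  have huY : u ∈ Y := by
    have h1 : α * w⁻¹ * α⁻¹ ∈ Y := hY a₀ _ (Y.inv_mem hwY)
    have h2 : u = w * (α * w⁻¹ * α⁻¹) := by rw [hu]; group
    rw [h2]
    exact Y.mul_mem hwY h1
  have hfix : α * u * α⁻¹ = u := hcent a₀ u ⟨huL, huY⟩
  have hstep : α * w * α⁻¹ = u⁻¹ * w := by rw [hu]; group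
  have hit : ∀ k : ℕ, α ^ k * w * (α ^ k)⁻¹ = u⁻¹ ^ k * w := by
    intro k
    induction k with
    | zero => simp
    | succ k ih =>
      have hcomm' : α * u⁻¹ ^ k * α⁻¹ = u⁻¹ ^ k := by
        have h3 : α * u⁻¹ * α⁻¹ = u⁻¹ := by
          have : (α * u * α⁻¹)⁻¹ = u⁻¹ := by rw [hfix]
          simpa [mul_assoc] using this
        have h4 : ∀ n : ℕ, α * u⁻¹ ^ n * α⁻¹ = u⁻¹ ^ n := by
          intro n
          induction n with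
          | zero => simp
          | succ n ihn =>
            calc α * u⁻¹ ^ (n + 1) * α⁻¹ = (α * u⁻¹ ^ n * α⁻¹) * (α * u⁻¹ * α⁻¹) := by
                  rw [pow_succ]; group
              _ = u⁻¹ ^ (n + 1) := by rw [ihn, h3, pow_succ]
        exact h4 k
      calc α ^ (k + 1) * w * (α ^ (k + 1))⁻¹ = α * (α ^ k * w * (α ^ k)⁻¹) * α⁻¹ := by
            rw [pow_succ']; group
        _ = (α * u⁻¹ ^ k * α⁻¹) * (α * w * α⁻¹) := by rw [ih]; group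
        _ = u⁻¹ ^ (k + 1) * w := by rw [hcomm', hstep, pow_succ]; group
  have hup : u⁻¹ ^ p = 1 := by
    have h := hit p
    rw [hpow a₀] at h
    simp only [one_mul, inv_one, mul_one] at h
    exact (mul_eq_right.1 h.symm)
  have huinv : (⟨u⁻¹, Y.inv_mem huY⟩ : Y) ^ p = 1 := Subtype.ext (by simpa using hup)
  have h7 : orderOf (⟨u⁻¹, Y.inv_mem huY⟩ : Y) ∣ p := orderOf_dvd_of_pow_eq_one huinv
  have h8 : orderOf (⟨u⁻¹, Y.inv_mem huY⟩ : Y) ∣ Nat.card Y := orderOf_dvd_natCard _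
  have h9 := Nat.dvd_gcd h8 h7
  rw [hcop] at h9
  have h10 := orderOf_eq_one_iff.1 (Nat.dvd_one.1 h9)
  have h11 : u⁻¹ = 1 := congrArg Subtype.val h10
  apply hne
  rw [hstep, h11, one_mul]

/-- `p'`-parts of lifts. -/
theorem exists_coprime_lift {M : Type*} [Group M] [Finite M] {p : ℕ} [hp : Fact p.Prime] (π : M →* X) (u : M)
    (hw : (orderOf (π u)).Coprime p) :
    ∃ u₀ ∈ Subgroup.zpowers u, π u₀ = π u ∧ (orderOf u₀).Coprime p := by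
  set n := orderOf u with hn
  have hn0 : n ≠ 0 := (orderOf_pos u).ne'
  set a := n.factorization p with ha
  set u₁ := u ^ (p ^ a) with hu₁
  have hpa : p ^ a ≠ 0 := pow_ne_zero _ (Fact.out : p.Prime).ne_zero
  have hdvd : p ^ a ∣ n := Nat.ordProj_dvd n p
  have hord : orderOf u₁ = n / p ^ a := by
    rw [hu₁, orderOf_pow' u hpa, Nat.gcd_eq_right hdvd]
  have hcop₁ : (orderOf u₁).Coprime p := by
    rw [hord]
    exact (Nat.coprime_ordCompl Fact.out hn0).symm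
  have hco : (p ^ a).Coprime (orderOf (π u)) := Nat.Coprime.pow_left a hw.symm
  obtain ⟨m, hm⟩ := exists_pow_eq_self_of_coprime hco
  refine ⟨u₁ ^ m, ?_, ?_, ?_⟩
  · rw [hu₁, ← pow_mul]
    exact Subgroup.npow_mem_zpowers _ _
  · rw [map_pow, hu₁, map_pow]
    exact hm
  · exact Nat.Coprime.coprime_dvd_left (orderOf_pow_dvd m) hcop₁

end Cfsg.Agent.H15.SY
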