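import Cfsg.Agent.Lib.H15.SY2
import Cfsg.Agent.Lib.H01.Basic
import Cfsg.Agent.Lib.H01.Fitting
import Cfsg.Agent.Lib.H22.PDegCount
import Cfsg.Agent.Lib.H03.PSolv
import Cfsg.Agent.Lib.H14.BOM
import Cfsg.Agent.Lib.H06.FittingHall
import Cfsg.Agent.Lib.H12.Core
import Cfsg.Agent.Lib.H13.Residual

/-!
# Subgroups generated by two conjugates of a `p`-subgroup of a `p`-soluble group
-/

set_option autoImplicit false

namespace Cfsg.Agent.H15.SY

open Cfsg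
open scoped commutatorElement

variable {M : Type*} [Group M] [Finite M] {p : ℕ} [hp : Fact p.Prime]

theorem comm_mem_iff (O : Subgroup M) [O.Normal] (g h : M) :
    ⁅g, h⁆ ∈ O ↔ QuotientGroup.mk' O g * QuotientGroup.mk' O h = QuotientGroup.mk' O h * QuotientGroup.mk' O g := by
  rw [← QuotientGroup.eq_one_iff (N := O), ← QuotientGroup.mk'_apply, map_commutatorElement,
    commutatorElement_eq_one_iff_mul_comm]

theorem conclude (A : Subgroup M) (hA : IsPGroup p A) (O K : Subgroup M) [hOn : O.Normal] [hKn : K.Normal]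
    (hOp : IsPGroup p O) (hcomm : ∀ a ∈ A, ∀ b ∈ A, ⁅a, b⁆ ∈ O) (x : M) (L : Subgroup M)
    (hL : L = A ⊔ A.map (MulAut.conj x).toMonoidHom)
    (hxL : x ∈ L) (hco : (orderOf x).Coprime p) (hxK : x ∈ K)
    (B : Subgroup M) (hBA : B ≤ A) (hB : B.relIndex A = p) (hBx : ∀ b ∈ B, ⁅b, x⁆ ∈ O) (hne : x ≠ 1) :
    x ∈ (pResidual p ↥L).map L.subtype ∧
    (pResidual p ↥L).map L.subtype ≤ K ∧
    ⁅(pResidual p ↥L).map L.subtype, A⁆ = (pResidual p ↥L).map L.subtype ∧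
    (A ⊓ (pCore p ↥L).map L.subtype).relIndex A = p ∧
    ⁅A ⊓ (pCore p ↥L).map L.subtype, L⁆ ≤ O := by
  classical
  have hAL : A ≤ L := hL ▸ le_sup_left
  have hgen : ∀ S : Subgroup M, A ≤ S → (∀ a ∈ A, x * a * x⁻¹ ∈ S) → L ≤ S := by
    intro S h1 h2
    rw [hL]
    refine sup_le h1 ?_
    rintro _ ⟨a, ha, rfl⟩
    exact h2 a ha
  haveI hR₀n : (pResidual p ↥L).Normal := Cfsg.Agent.H13.pResidual_normal'
  obtain ⟨R₀, hR₀⟩ : ∃ R₀, R₀ = pResidual p ↥L := ⟨_, rfl⟩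
  rw [← hR₀] at hR₀n ⊢
  obtain ⟨x', hx'⟩ : ∃ x' : ↥L, x' = ⟨x, hxL⟩ := ⟨_, rfl⟩
  have hx'coe : (x' : M) = x := by rw [hx']
  have hx'R : x' ∈ R₀ := by
    rw [hR₀]
    apply Cfsg.Agent.H13.mem_pResidual_of_coprime
    rw [hx', Subgroup.orderOf_mk]
    exact hco
  have h1 : x ∈ R₀.map L.subtype := ⟨x', hx'R, hx'coe⟩
  have hLKA : L ≤ K ⊔ A := by
    refine hgen _ le_sup_right ?_
    intro a ha
    have h : x * a * x⁻¹ = (x * (a * x⁻¹ * a⁻¹)) * a := by group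
    rw [h]
    exact Subgroup.mul_mem _
      ((le_sup_left : K ≤ K ⊔ A) (K.mul_mem hxK (hKn.conj_mem _ (K.inv_mem hxK) a)))
      ((le_sup_right : A ≤ K ⊔ A) ha)
  have h2 : R₀.map L.subtype ≤ K := by
    rw [Subgroup.map_le_iff_le_comap, hR₀]
    refine (Subgroup.closure_le _).2 ?_
    intro g hg
    have hg' : Nat.Coprime (orderOf (g : M)) p := by
      rw [Subgroup.orderOf_coe]
      exact hg
    exact Cfsg.Agent.H12.coprime_mem_of_mem_sup K A hA (hLKA g.2) hg'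
  -- generation inside `L`
  have htop : ∀ S : Subgroup ↥L, (∀ a (ha : a ∈ A), (⟨a, hAL ha⟩ : ↥L) ∈ S) →
      (∀ a (ha : a ∈ A), x' * ⟨a, hAL ha⟩ * x'⁻¹ ∈ S) → S = ⊤ := by
    intro S h₁ h₂
    have hle : L ≤ S.map L.subtype := by
      refine hgen _ ?_ ?_
      · intro a ha
        exact ⟨_, h₁ a ha, rfl⟩
      · intro a ha
        refine ⟨_, h₂ a ha, ?_⟩
        simp [hx'coe]
    rw [eq_top_iff]
    intro g _
    obtain ⟨s, hs, hsg⟩ := hle g.2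
    have : s = g := Subtype.ext hsg
    exact this ▸ hs
  obtain ⟨A', hA'⟩ : ∃ A' : Subgroup ↥L, A' = A.subgroupOf L := ⟨_, rfl⟩
  have hA'p : IsPGroup p A' := by
    rw [hA']
    exact hA.comap_subtype
  have hmem : ∀ a (ha : a ∈ A), (⟨a, hAL ha⟩ : ↥L) ∈ A' := by
    intro a ha
    rw [hA', Subgroup.mem_subgroupOf]
    exact ha
  have hR₀A : R₀ ⊔ A' = ⊤ := htop _ (fun a ha => (le_sup_right : A' ≤ R₀ ⊔ A') (hmem a ha))
    (fun a ha => mul_mem (mul_mem ((le_sup_left : R₀ ≤ R₀ ⊔ A') hx'R)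
      ((le_sup_right : A' ≤ R₀ ⊔ A') (hmem a ha))) (inv_mem ((le_sup_left : R₀ ≤ R₀ ⊔ A') hx'R)))
  obtain ⟨C, hC⟩ : ∃ C : Subgroup ↥L, C = ⁅R₀, A'⁆ := ⟨_, rfl⟩
  have hCn : C.Normal := by
    rw [hC, ← Subgroup.normalizer_eq_top_iff, eq_top_iff, ← hR₀A]
    exact sup_le (fun r hr => Cfsg.Agent.H12.conj_left_mem_normalizer_commutator hr)
      (fun a ha => Cfsg.Agent.H12.conj_right_mem_normalizer_commutator ha)
  have hCA : C ⊔ A' = ⊤ := by
    refine htop _ (fun a ha => (le_sup_right : A' ≤ C ⊔ A') (hmem a ha)) (fun a ha => ?_)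
    have : x' * ⟨a, hAL ha⟩ * x'⁻¹ = ⁅x', (⟨a, hAL ha⟩ : ↥L)⁆ * ⟨a, hAL ha⟩ := by
      rw [commutatorElement_def]
      group
    rw [this]
    refine mul_mem ((le_sup_left : C ≤ C ⊔ A') ?_) ((le_sup_right : A' ≤ C ⊔ A') (hmem a ha))
    rw [hC]
    exact Subgroup.commutator_mem_commutator hx'R (hmem a ha)
  have hR₀C : R₀ ≤ C := by
    rw [hR₀]
    refine (Subgroup.closure_le _).2 ?_
    intro g hg
    haveI := hCn
    exact Cfsg.Agent.H12.coprime_mem_of_mem_sup C A' hA'p (by rw [hCA]; trivial) hg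
  have h3 : ⁅R₀.map L.subtype, A⁆ = R₀.map L.subtype := by
    apply le_antisymm
    · rw [Subgroup.commutator_le]
      rintro _ ⟨r, hr, rfl⟩ a ha
      refine ⟨r * ((⟨a, hAL ha⟩ : ↥L) * r⁻¹ * (⟨a, hAL ha⟩ : ↥L)⁻¹),
        R₀.mul_mem hr (hR₀n.conj_mem _ (R₀.inv_mem hr) _), ?_⟩
      simp [commutatorElement_def, mul_assoc]
    · calc R₀.map L.subtype ≤ C.map L.subtype := Subgroup.map_mono hR₀C
        _ = ⁅R₀.map L.subtype, A'.map L.subtype⁆ := by rw [hC, Subgroup.map_commutator]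
        _ = ⁅R₀.map L.subtype, A⁆ := by rw [hA', Subgroup.map_subgroupOf_eq_of_le hAL]
  -- centrality
  have hBL : ∀ b ∈ B, ∀ g ∈ L, ⁅b, g⁆ ∈ O := by
    intro b hb
    have hle : L ≤ (Subgroup.centralizer {QuotientGroup.mk' O b}).comap (QuotientGroup.mk' O) := by
      have hA1 : ∀ a ∈ A, a ∈ (Subgroup.centralizer {QuotientGroup.mk' O b}).comap (QuotientGroup.mk' O) := by
        intro a ha
        rw [Subgroup.mem_comap, Subgroup.mem_centralizer_singleton_iff]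
        exact (comm_mem_iff O a b).1 (hcomm a ha b (hBA hb))
      have hx1 : x ∈ (Subgroup.centralizer {QuotientGroup.mk' O b}).comap (QuotientGroup.mk' O) := by
        rw [Subgroup.mem_comap, Subgroup.mem_centralizer_singleton_iff]
        exact ((comm_mem_iff O b x).1 (hBx b hb)).symm
      exact hgen _ hA1 (fun a ha => mul_mem (mul_mem hx1 (hA1 a ha)) (inv_mem hx1))
    intro g hg
    have h := hle hg
    rw [Subgroup.mem_comap, Subgroup.mem_centralizer_singleton_iff] at h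
    exact (comm_mem_iff O b g).2 h.symm
  have hP₁ : IsPGroup p ↥(B ⊔ O) := IsPGroup.to_sup_of_normal_right (hA.to_le hBA) hOp
  have hQn : ((B ⊔ O).subgroupOf L).Normal := by
    constructor
    intro y hy g
    rw [Subgroup.mem_subgroupOf] at hy ⊢
    obtain ⟨b, hb, o, ho, hbo⟩ := Subgroup.mem_sup_of_normal_right.1 hy
    have h : ((g * y * g⁻¹ : ↥L) : M) = ⁅b, (g : M)⁆⁻¹ * b * ((g : M) * o * (g : M)⁻¹) := by
      rw [commutatorElement_def]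
      push_cast
      rw [← hbo]
      group
    rw [h]
    refine mul_mem (mul_mem ?_ ((le_sup_left : B ≤ B ⊔ O) hb)) ((le_sup_right : O ≤ B ⊔ O) (hOn.conj_mem _ ho _))
    exact (le_sup_right : O ≤ B ⊔ O) (inv_mem (hBL b hb g g.2))
  have hQp : IsPGroup p ↥((B ⊔ O).subgroupOf L) := hP₁.comap_subtype
  have hQle := Cfsg.Agent.H01.le_pCore hQn hQp
  have hBOp : B ≤ (pCore p ↥L).map L.subtype := fun b hb =>
    ⟨⟨b, hAL (hBA hb)⟩, hQle (by
      rw [Subgroup.mem_subgroupOf]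
      exact (le_sup_left : B ≤ B ⊔ O) hb), rfl⟩
  have hpcn : (pCore p ↥L).Normal := Cfsg.Agent.H01.pCore_normal p
  have hnotA : ¬ A ≤ (pCore p ↥L).map L.subtype := by
    intro hle
    have h₁ : ∀ a (ha : a ∈ A), (⟨a, hAL ha⟩ : ↥L) ∈ pCore p ↥L := by
      intro a ha
      obtain ⟨c, hc, hca⟩ := hle ha
      have : c = ⟨a, hAL ha⟩ := Subtype.ext hca
      exact this ▸ hc
    have htop' := htop (pCore p ↥L) h₁ (fun a ha => hpcn.conj_mem _ (h₁ a ha) x')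
    have hx'p : x' ∈ pCore p ↥L := by
      rw [htop']
      trivial
    obtain ⟨k, hk⟩ := Cfsg.Agent.H01.pCore_isPGroup (G := ↥L) p ⟨x', hx'p⟩
    have hk' : x ^ (p ^ k) = 1 := by
      have h5 := congrArg (fun z : ↥(pCore p ↥L) => (((z : ↥L) : M))) hk
      simpa [hx'coe] using h5
    have h6 := orderOf_dvd_of_pow_eq_one hk'
    have h7 := (hco.pow_right k).eq_one_of_dvd h6
    exact hne (orderOf_eq_one_iff.1 h7)
  obtain ⟨Z, hZ⟩ : ∃ Z, Z = A ⊓ (pCore p ↥L).map L.subtype := ⟨_, rfl⟩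
  rw [← hZ]
  have hBZ : B ≤ Z := by
    rw [hZ]
    exact le_inf hBA hBOp
  have hZA : Z ≤ A := by
    rw [hZ]
    exact inf_le_left
  have hmul := Subgroup.relIndex_mul_relIndex B Z A hBZ hZA
  rw [hB] at hmul
  have hdvd : Z.relIndex A ∣ p := ⟨_, by rw [← hmul, mul_comm]⟩
  have hZidx : Z.relIndex A = p := by
    rcases (Nat.dvd_prime hp.out).1 hdvd with h | h
    · exfalso
      rw [Subgroup.relIndex_eq_one] at h
      apply hnotA
      rw [hZ] at h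
      exact h.trans inf_le_right
    · exact h
  have hBZ1 : B.relIndex Z = 1 := by
    rw [hZidx] at hmul
    exact Nat.eq_of_mul_eq_mul_right hp.out.pos (by rw [hmul, one_mul])
  have hZB : Z ≤ B := Subgroup.relIndex_eq_one.1 hBZ1
  refine ⟨h1, h2, h3, hZidx, ?_⟩
  rw [Subgroup.commutator_le]
  intro z hz g hg
  exact hBL z (hZB hz) g hg

theorem exists_x (O : Subgroup M) [hOn : O.Normal] (hO : O = pCore p M) (hM : IsPSolvable p M) (A : Subgroup M)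
    (hA : IsPGroup p A) (hΦ : (frattini ↥A).map A.subtype ≤ O) (hnot : ¬ A ≤ O) :
    ∃ (x : M) (B : Subgroup M),
      x ∈ A ⊔ A.map (MulAut.conj x).toMonoidHom ∧
      (orderOf x).Coprime p ∧
      x ∈ (pPrimeCore p (M ⧸ O)).comap (QuotientGroup.mk' O) ∧
      B ≤ A ∧ B.relIndex A = p ∧ (∀ b ∈ B, ⁅b, x⁆ ∈ O) ∧ x ≠ 1 := by
  classical
  obtain ⟨π, hπ⟩ : ∃ π : M →* M ⧸ O, π = QuotientGroup.mk' O := ⟨_, rfl⟩
  rw [← hπ]
  let ψ : ↥A →* M ⧸ O := π.comp A.subtype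
  have hψ : ∀ a : ↥A, ψ a = π a := fun _ => rfl
  have hker : ∀ g ∈ O, π g = 1 := by
    intro g hg
    rw [hπ]
    exact (QuotientGroup.eq_one_iff g).2 hg
  have hcomm : ∀ a b, ψ a * ψ b = ψ b * ψ a := by
    intro a b
    have h1 : ⁅a, b⁆ ∈ frattini ↥A := Cfsg.Agent.H01.commutator_le_frattini_of_isPGroup hA
      (Subgroup.commutator_mem_commutator (Subgroup.mem_top a) (Subgroup.mem_top b))
    have h2 : ((⁅a, b⁆ : ↥A) : M) ∈ O := hΦ ⟨_, h1, rfl⟩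
    have h4 : ψ ⁅a, b⁆ = 1 := hker _ h2
    rw [map_commutatorElement, commutatorElement_eq_one_iff_mul_comm] at h4
    exact h4
  have hpow : ∀ a, ψ a ^ p = 1 := by
    intro a
    have h1 : a ^ p ∈ frattini ↥A := Cfsg.Agent.H01.pow_mem_frattini_of_isPGroup hA a
    have h2 : ((a ^ p : ↥A) : M) ∈ O := hΦ ⟨_, h1, rfl⟩
    have h4 : ψ (a ^ p) = 1 := hker _ h2
    rwa [map_pow] at h4
  obtain ⟨K, hK⟩ : ∃ K, K = pPrimeCore p (M ⧸ O) := ⟨_, rfl⟩
  rw [← hK]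
  have hKcop : (Nat.card K).Coprime p := by
    rw [hK]
    exact Cfsg.Agent.H06.coprime_card_pPrimeCore p
  haveI hKnorm : K.Normal := by
    rw [hK]
    exact Cfsg.Agent.H03.pPrimeCore_normal'
  have hKn : ∀ e, ∀ k ∈ K, ψ e * k * (ψ e)⁻¹ ∈ K := fun e k hk => hKnorm.conj_mem k hk _
  have hne : ∃ e, ∃ y ∈ K, ψ e * y * (ψ e)⁻¹ ≠ y := by
    by_contra hno
    push Not at hno
    apply hnot
    intro a ha
    have hc : ψ ⟨a, ha⟩ ∈ Subgroup.centralizer (K : Set (M ⧸ O)) := by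
      rw [Subgroup.mem_centralizer_iff]
      intro y hy
      have := hno ⟨a, ha⟩ y hy
      exact (mul_inv_eq_iff_eq_mul.1 this).symm
    have hpsolv : IsPSolvable p (M ⧸ O) := by
      exact Cfsg.Agent.H03.isPSolvable_of_surjective (QuotientGroup.mk'_surjective O) hM
    have hcore : pCore p (M ⧸ O) = ⊥ := by
      subst hO
      exact Cfsg.Agent.H22.pCore_quot_eq_bot p
    have h1 : ψ ⟨a, ha⟩ ∈ K := by
      rw [hK] at hc ⊢
      exact Cfsg.Agent.H14.cent_pPrimeCore_le hpsolv hcore hc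
    have hp1 : ψ ⟨a, ha⟩ ^ p = 1 := hpow _
    have h2 : orderOf (⟨ψ ⟨a, ha⟩, h1⟩ : K) ∣ Nat.card K := orderOf_dvd_natCard _
    have h3 : orderOf (⟨ψ ⟨a, ha⟩, h1⟩ : K) ∣ p :=
      orderOf_dvd_of_pow_eq_one (Subtype.ext (by simpa using hp1))
    have h4 := Nat.dvd_gcd h2 h3
    rw [hKcop] at h4
    have h5 := orderOf_eq_one_iff.1 (Nat.dvd_one.1 h4)
    have h6 : π a = 1 := congrArg Subtype.val h5
    rw [hπ] at h6
    exact (QuotientGroup.eq_one_iff a).1 h6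
  obtain ⟨Y, hYK, hYinv, ⟨e₀, y₀, hy₀, hne₀⟩, hmin⟩ := exists_min_Y ψ K hKn hne
  have hcop : (Nat.card Y).Coprime p :=
    Nat.Coprime.coprime_dvd_left (Subgroup.card_dvd_of_le hYK) hKcop
  have hidx := index_ker_rho hA ψ hcomm hpow Y hcop hYinv ⟨e₀, y₀, hy₀, hne₀⟩ hmin
  let T : Set M := {x | π x ∈ Y ∧ ψ e₀ * π x * (ψ e₀)⁻¹ ≠ π x}
  have hsurj : Function.Surjective π := by
    rw [hπ]
    exact QuotientGroup.mk'_surjective O
  have hT : T.Nonempty := by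
    obtain ⟨x₀, hx₀⟩ := hsurj y₀
    refine ⟨x₀, ?_, ?_⟩
    · rw [hx₀]; exact hy₀
    · rw [hx₀]; exact hne₀
  obtain ⟨x₁, hx₁, hmin₁⟩ := Set.exists_min_image T
    (fun x => Nat.card ↥(A ⊔ A.map (MulAut.conj x).toMonoidHom)) (Set.toFinite T) hT
  obtain ⟨L, hL⟩ : ∃ L, L = A ⊔ A.map (MulAut.conj x₁).toMonoidHom := ⟨_, rfl⟩
  have hAL : A ≤ L := hL ▸ le_sup_left
  have hconj : ∀ a ∈ A, x₁ * a * x₁⁻¹ ∈ L := fun a ha => by
    rw [hL]
    exact (le_sup_right : _ ≤ A ⊔ A.map (MulAut.conj x₁).toMonoidHom) ⟨a, ha, rfl⟩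
  have hLb : ∀ e, ψ e ∈ L.map π := fun e => ⟨e, hAL e.2, rfl⟩
  have hwL : π x₁ * ψ e₀ * (π x₁)⁻¹ ∈ L.map π :=
    ⟨x₁ * e₀ * x₁⁻¹, hconj _ e₀.2, by simp [hψ]⟩
  have hYL := le_of_min ψ hpow Y hcop hYinv hmin (L.map π) hLb e₀ (π x₁) hx₁.1 hwL hx₁.2
  obtain ⟨u, huL, huπ⟩ := hYL hx₁.1
  have huord : (orderOf (π u)).Coprime p := by
    rw [huπ]
    have : orderOf (π x₁) = orderOf (⟨π x₁, hx₁.1⟩ : Y) := (Subgroup.orderOf_mk _ _).symm
    rw [this]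
    exact Nat.Coprime.coprime_dvd_left (orderOf_dvd_natCard _) hcop
  obtain ⟨u₀, hu₀z, hu₀π, hu₀ord⟩ := exists_coprime_lift π u huord
  have hu₀L : u₀ ∈ L := (Subgroup.zpowers_le.2 huL) hu₀z
  have hu₀T : u₀ ∈ T := by
    change π u₀ ∈ Y ∧ _
    rw [hu₀π, huπ]
    exact hx₁
  have hle : A ⊔ A.map (MulAut.conj u₀).toMonoidHom ≤ L := by
    refine sup_le hAL ?_
    rintro _ ⟨a, ha, rfl⟩
    exact L.mul_mem (L.mul_mem hu₀L (hAL ha)) (L.inv_mem hu₀L)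
  have heq : A ⊔ A.map (MulAut.conj u₀).toMonoidHom = L := by
    refine Subgroup.eq_of_le_of_card_ge hle ?_
    have := hmin₁ u₀ hu₀T
    rw [hL]
    exact this
  refine ⟨u₀, (rhoOf ψ Y hYinv).ker.map A.subtype, ?_, hu₀ord, ?_, Subgroup.map_subtype_le _, ?_, ?_, ?_⟩
  · rw [heq]
    exact hu₀L
  · change π u₀ ∈ K
    exact hYK hu₀T.1
  · change (((rhoOf ψ Y hYinv).ker.map A.subtype).comap A.subtype).index = p
    rw [Subgroup.comap_map_eq_self_of_injective A.subtype_injective]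
    exact hidx
  · rintro _ ⟨b, hb, rfl⟩
    have h1 : rhoOf ψ Y hYinv b ⟨π u₀, hu₀T.1⟩ = ⟨π u₀, hu₀T.1⟩ := by
      rw [MonoidHom.mem_ker.1 hb]
      rfl
    have h2 : ψ b * π u₀ * (ψ b)⁻¹ = π u₀ := congrArg Subtype.val h1
    have h3 : ψ b * π u₀ = π u₀ * ψ b := mul_inv_eq_iff_eq_mul.1 h2
    apply (comm_mem_iff O _ _).2
    rw [← hπ]
    exact h3
  · rintro rfl
    apply hu₀T.2
    simp

theorem main (hM : IsPSolvable p M) (A : Subgroup M) (hA : IsPGroup p A)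
    (hΦ : (frattini ↥A).map A.subtype ≤ pCore p M) (hnot : ¬ A ≤ pCore p M) :
    ∃ x ∈ (pPrimeCore p (M ⧸ pCore p M)).comap (QuotientGroup.mk' (pCore p M)),
      x ∈ (pResidual p ↥(A ⊔ A.map (MulAut.conj x).toMonoidHom)).map (A ⊔ A.map (MulAut.conj x).toMonoidHom).subtype ∧
      (pResidual p ↥(A ⊔ A.map (MulAut.conj x).toMonoidHom)).map (A ⊔ A.map (MulAut.conj x).toMonoidHom).subtype ≤ (pPrimeCore p (M ⧸ pCore p M)).comap (QuotientGroup.mk' (pCore p M)) ∧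
      ⁅(pResidual p ↥(A ⊔ A.map (MulAut.conj x).toMonoidHom)).map (A ⊔ A.map (MulAut.conj x).toMonoidHom).subtype, A⁆ = (pResidual p ↥(A ⊔ A.map (MulAut.conj x).toMonoidHom)).map (A ⊔ A.map (MulAut.conj x).toMonoidHom).subtype ∧
      (A ⊓ (pCore p ↥(A ⊔ A.map (MulAut.conj x).toMonoidHom)).map (A ⊔ A.map (MulAut.conj x).toMonoidHom).subtype).relIndex A = p ∧
      ⁅A ⊓ (pCore p ↥(A ⊔ A.map (MulAut.conj x).toMonoidHom)).map (A ⊔ A.map (MulAut.conj x).toMonoidHom).subtype, A ⊔ A.map (MulAut.conj x).toMonoidHom⁆ ≤ pCore p M := by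
  obtain ⟨x, B, hxL, hco, hxK, hBA, hB, hBx, hne⟩ := exists_x (pCore p M) rfl hM A hA hΦ hnot
  refine ⟨x, hxK, ?_⟩
  haveI hOn : (pCore p M).Normal := Cfsg.Agent.H01.pCore_normal p
  haveI hK1 : (pPrimeCore p (M ⧸ pCore p M)).Normal := Cfsg.Agent.H03.pPrimeCore_normal'
  have hcomm : ∀ a ∈ A, ∀ b ∈ A, ⁅a, b⁆ ∈ pCore p M := by
    intro a ha b hb
    have h1 : ⁅(⟨a, ha⟩ : ↥A), (⟨b, hb⟩ : ↥A)⁆ ∈ frattini ↥A :=
      Cfsg.Agent.H01.commutator_le_frattini_of_isPGroup hA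
      (Subgroup.commutator_mem_commutator (Subgroup.mem_top _) (Subgroup.mem_top _))
    exact hΦ ⟨_, h1, rfl⟩
  exact conclude A hA (pCore p M) ((pPrimeCore p (M ⧸ pCore p M)).comap (QuotientGroup.mk' (pCore p M)))
    (Cfsg.Agent.H01.pCore_isPGroup p) hcomm x _ rfl hxL hco hxK B hBA hB hBx hne

end Cfsg.Agent.H15.SY
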