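import Cfsg.Agent.Lib.H15.ZStarSyl

/-!
# Generalized quaternion Sylow 2-subgroups: from `QuaternionGroup` to `QData`, centre
-/

set_option autoImplicit false
set_option linter.style.haveILetI false
set_option linter.unusedSectionVars false
set_option linter.unusedSimpArgs false

namespace Cfsg.Agent.H15

open Cfsg Cfsg.Agent.H05 Cfsg.Agent.H13 Cfsg.Agent.H21 Cfsg.Agent.H22

universe u

variable {G : Type u} [Group G] [Finite G]

/-- The `QData` of a Sylow subgroup isomorphic to `QuaternionGroup (2 ^ k)`. -/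
theorem exists_qdata {T : Sylow 2 G} {k : ℕ} (hk : 1 ≤ k) (e : (T : Subgroup G) ≃* QuaternionGroup (2 ^ k)) :
    ∃ x y : G, QData T x y (k + 1) := by
  classical
  haveI : NeZero (2 ^ k) := ⟨by positivity⟩
  let x' : (T : Subgroup G) := e.symm (QuaternionGroup.a 1)
  let y' : (T : Subgroup G) := e.symm (QuaternionGroup.xa 0)
  have hex : e x' = QuaternionGroup.a 1 := by simp [x']
  have hey : e y' = QuaternionGroup.xa 0 := by simp [y']
  have hpow : ∀ n : ℕ, e (x' ^ n) = QuaternionGroup.a (n : ZMod (2 * 2 ^ k)) := by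
    intro n
    rw [map_pow, hex, QuaternionGroup.a_one_pow]
  have hmem : ∀ t : (T : Subgroup G), (t : G) ∈ Subgroup.zpowers (x' : G) ↔
      ∃ n : ℕ, t = x' ^ n := by
    intro t
    constructor
    · intro h
      have h1 : t ∈ Subgroup.zpowers x' := by
        obtain ⟨n, hn⟩ := Subgroup.mem_zpowers_iff.mp h
        refine Subgroup.mem_zpowers_iff.mpr ⟨n, Subtype.ext ?_⟩
        simpa using hn
      have h2 : t ∈ Submonoid.powers x' := mem_powers_iff_mem_zpowers.mpr h1
      obtain ⟨n, hn⟩ := h2
      exact ⟨n, hn.symm⟩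
    · rintro ⟨n, rfl⟩
      simpa using Subgroup.npow_mem_zpowers (x' : G) n
  refine ⟨x', y', by omega, ?_, x'.2, y'.2, ?_, ?_, ?_, ?_⟩
  · rw [Subgroup.orderOf_coe, ← MulEquiv.orderOf_eq e, hex, QuaternionGroup.orderOf_a_one, pow_succ]
    ring
  · intro h
    obtain ⟨n, hn⟩ := (hmem y').mp h
    have := hpow n
    rw [← hn, hey] at this
    exact absurd this (by simp)
  · have h1 : y' * y' = x' ^ 2 ^ (k + 1 - 1) := by
      apply e.injective
      rw [map_mul, hey, hpow]
      rw [QuaternionGroup.xa_mul_xa]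
      simp
    have := congrArg Subtype.val h1
    simpa using this
  · have h1 : y' * x' * y'⁻¹ = x'⁻¹ := by
      apply e.injective
      rw [map_mul, map_mul, map_inv, map_inv, hey, hex]
      have hinv : (QuaternionGroup.a 1 : QuaternionGroup (2 ^ k))⁻¹ = QuaternionGroup.a (-1) := rfl
      rw [QuaternionGroup.xa_mul_a, mul_inv_eq_iff_eq_mul, hinv, QuaternionGroup.a_mul_xa]
      simp
    have := congrArg Subtype.val h1
    simpa using this
  · intro g hg
    let g' : (T : Subgroup G) := ⟨g, hg⟩
    have hcases : ∀ w : QuaternionGroup (2 ^ k), e g' = w → (g ∈ Subgroup.zpowers (x' : G) ∨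
        ∃ h ∈ Subgroup.zpowers (x' : G), g = (y' : G) * h) := by
      intro w hw
      cases w with
      | a i =>
        left
        refine (hmem g').mpr ⟨i.val, e.injective ?_⟩
        rw [hw, hpow]
        simp
      | xa i =>
        right
        refine ⟨((x' ^ i.val : (T : Subgroup G)) : G), (hmem _).mpr ⟨_, rfl⟩, ?_⟩
        have : g' = y' * x' ^ i.val := by
          apply e.injective
          rw [hw, map_mul, hey, hpow, QuaternionGroup.xa_mul_a]
          simp
        have h3 := congrArg Subtype.val this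
        simpa using h3
    exact hcases _ rfl

namespace QData

variable {T : Sylow 2 G} {x y : G} {m : ℕ} (h : QData T x y m)
include h

theorem orderOf_pow_half : orderOf (x ^ 2 ^ (m - 1)) = 2 := by
  have hm := h.hm
  rw [orderOf_pow' x (by positivity), h.hx, Nat.gcd_eq_right (pow_dvd_pow 2 (by omega))]
  obtain ⟨k, rfl⟩ : ∃ k, m = k + 1 := ⟨m - 1, by omega⟩
  simp [pow_succ]

theorem pow_half_mem : x ^ 2 ^ (m - 1) ∈ (T : Subgroup G) :=
  Subgroup.pow_mem _ h.hxT _

/-- Every involution of `T` is `z`. -/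
theorem eq_z_of_order_two {t : G} (ht : t ∈ (T : Subgroup G)) (ho : orderOf t = 2) :
    t = x ^ 2 ^ (m - 1) := by
  have hz := h.orderOf_pow_half
  rcases h.hT t ht with h1 | ⟨k, hk, rfl⟩
  · exact Cfsg.Agent.H15.unique_involution_of_zpowers h1
      (Subgroup.npow_mem_zpowers x _) ho hz
  · exfalso
    obtain ⟨n, rfl⟩ := Subgroup.mem_zpowers_iff.mp hk
    have h2 : y * x ^ n * (y * x ^ n) = x ^ 2 ^ (m - 1) := by
      have h3 : y * x ^ n * y⁻¹ = (x ^ n)⁻¹ := by
        have h4 := conj_zpow (a := y) (b := x) (i := n)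
        rw [h.hconj, inv_zpow] at h4
        exact h4.symm
      have hc : Commute (x ^ 2 ^ (m - 1)) (x ^ n) := (Commute.refl x).pow_left _ |>.zpow_right n
      calc y * x ^ n * (y * x ^ n) = (y * x ^ n * y⁻¹) * (y * y) * x ^ n := by group
        _ = (x ^ n)⁻¹ * x ^ 2 ^ (m - 1) * x ^ n := by rw [h3, h.hyy]
        _ = x ^ 2 ^ (m - 1) := by
          rw [mul_assoc, hc.eq]
          group
    have h5 : (y * x ^ n) * (y * x ^ n) = 1 := by
      have := pow_orderOf_eq_one (y * x ^ n)
      rwa [ho, pow_two] at this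
    rw [h2] at h5
    rw [h5, orderOf_one] at hz
    omega

/-- `z` is isolated. -/
theorem isolated : IsIsolatedInvolution (x ^ 2 ^ (m - 1)) := by
  apply isolated_of_sylow T h.orderOf_pow_half h.pow_half_mem
  intro g hg
  apply h.eq_z_of_order_two hg
  have h1 : orderOf (g * x ^ 2 ^ (m - 1) * g⁻¹) = orderOf (x ^ 2 ^ (m - 1)) :=
    orderOf_injective (MulAut.conj g).toMonoidHom (MulEquiv.injective _) _
  rw [h1, h.orderOf_pow_half]

/-- `z` is central modulo `O(G)`. -/
theorem z_commutator_mem (g : G) :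
    x ^ 2 ^ (m - 1) * g * (x ^ 2 ^ (m - 1))⁻¹ * g⁻¹ ∈ oddCore G :=
  zstar_theorem G _ h.isolated g

/-- **Brauer–Suzuki.** -/
theorem card_center_eq_two (hO : oddCore G = ⊥) : Nat.card (Subgroup.center G) = 2 := by
  classical
  haveI hp2 : Fact (Nat.Prime 2) := ⟨Nat.prime_two⟩
  set z := x ^ 2 ^ (m - 1) with hz
  have hzo := h.orderOf_pow_half
  have hzc : ∀ g : G, g * z = z * g := by
    intro g
    have h1 := h.z_commutator_mem g
    rw [hO, Subgroup.mem_bot] at h1
    have h2 : z * g * z⁻¹ = g := mul_inv_eq_one.mp h1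
    calc g * z = z * g * z⁻¹ * z := by rw [h2]
      _ = z * g := by group
  suffices hcen : Subgroup.center G = Subgroup.zpowers z by
    rw [hcen, Nat.card_zpowers, hzo]
  apply le_antisymm
  · intro g hg
    have hgc : ∀ c : G, c * g = g * c := fun c => (Subgroup.mem_center_iff.mp hg) c
    obtain ⟨a, b, hab, -, ⟨k, hk⟩, hb, haz, hbz⟩ := exists_part_decomp 2 g
    have hcz : ∀ w ∈ Subgroup.zpowers g, ∀ c : G, c * w = w * c := by
      rintro w ⟨n, rfl⟩ c
      have : Commute c g := hgc c
      exact this.zpow_right n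
    -- the odd part is trivial
    have hb1 : b = 1 := by
      have hN : (Subgroup.zpowers b).Normal := by
        refine ⟨fun n hn c => ?_⟩
        have hbc := hcz b hbz c
        obtain ⟨l, rfl⟩ := Subgroup.mem_zpowers_iff.mp hn
        have h1 : Commute c (b ^ l) := (show Commute c b from hbc).zpow_right l
        rw [h1.eq]
        simpa using Subgroup.zpow_mem_zpowers b l
      have hle := le_oddCore hN (by rw [Nat.card_zpowers]; exact hb)
      rw [hO, le_bot_iff] at hle
      have : b ∈ Subgroup.zpowers b := Subgroup.mem_zpowers b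
      rw [hle, Subgroup.mem_bot] at this
      exact this
    rw [hb1, mul_one] at hab
    subst hab
    -- `g ∈ T`
    have hgT : g ∈ (T : Subgroup G) := by
      have hN : (Subgroup.zpowers g).Normal := by
        refine ⟨fun n hn c => ?_⟩
        have hbc := hcz n hn c
        rw [hbc]
        simpa using hn
      have hpg : IsPGroup 2 (Subgroup.zpowers g) := by
        rw [IsPGroup.iff_card]
        exact ⟨k, by rw [Nat.card_zpowers, hk]⟩
      exact hpg.le_sylow_of_normal T (Subgroup.mem_zpowers g)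
    have hm := h.hm
    have hxx : x * x ≠ 1 := by
      intro h1
      have h2 : x ^ 2 = 1 := by rw [pow_two, h1]
      have h3 := orderOf_dvd_of_pow_eq_one h2
      rw [h.hx] at h3
      have h4 : (4 : ℕ) ∣ 2 ^ m := by
        obtain ⟨t, rfl⟩ : ∃ t, m = t + 2 := ⟨m - 2, by omega⟩
        rw [pow_add]
        exact Dvd.intro_left _ rfl
      have := Nat.le_of_dvd (by norm_num) (h4.trans h3)
      omega
    rcases h.hT g hgT with h1 | ⟨w, hw, h1⟩
    · -- in `⟨x⟩`
      obtain ⟨n, rfl⟩ := Subgroup.mem_zpowers_iff.mp h1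
      have h2 : y * x ^ n * y⁻¹ = (x ^ n)⁻¹ := by
        have h4 := conj_zpow (a := y) (b := x) (i := n)
        rw [h.hconj, inv_zpow] at h4
        exact h4.symm
      have h3 : y * x ^ n * y⁻¹ = x ^ n := by rw [hgc y, mul_inv_cancel_right]
      rw [h3] at h2
      have h5 : x ^ n * x ^ n = 1 := by
        nth_rewrite 1 [h2]
        group
      by_cases h6 : x ^ n = 1
      · rw [h6]
        exact Subgroup.one_mem _
      · have h7 : orderOf (x ^ n) = 2 := by
          apply orderOf_eq_prime
          · rw [pow_two]; exact h5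
          · exact h6
        rw [h.eq_z_of_order_two hgT h7]
        exact Subgroup.mem_zpowers _
    · exfalso
      -- commuting with `x`
      obtain ⟨n, rfl⟩ := Subgroup.mem_zpowers_iff.mp hw
      have h2 : g * x * g⁻¹ = x := by rw [← hgc x]; group
      have hcx : Commute (x ^ n) x := (Commute.refl x).zpow_left n
      have h3 : g * x * g⁻¹ = x⁻¹ := by
        rw [h1]
        calc y * x ^ n * x * (y * x ^ n)⁻¹ = y * (x ^ n * x * (x ^ n)⁻¹) * y⁻¹ := by group
          _ = y * x * y⁻¹ := by rw [hcx.eq]; group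
          _ = x⁻¹ := h.hconj
      rw [h2] at h3
      apply hxx
      nth_rewrite 1 [h3]
      group
  · rw [Subgroup.zpowers_le, Subgroup.mem_center_iff]
    exact hzc

end QData

/-- `O(G) = 1` from the hypothesis. -/
theorem oddCore_eq_bot_of (hO : ∀ N : Subgroup G, N.Normal → Odd (Nat.card N) → N = ⊥) :
    oddCore G = ⊥ :=
  hO _ inferInstance (Nat.Coprime.odd_of_right card_oddCore_coprime)

end Cfsg.Agent.H15
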