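import Cfsg.Agent.Lib.H15.ZStarQD

/-!
# Generalized quaternion Sylow 2-subgroups of order at least 16: the normal subgroup `M`
-/

set_option autoImplicit false
set_option linter.style.haveILetI false
set_option linter.unusedSectionVars false
set_option linter.unusedSimpArgs false

namespace Cfsg.Agent.H15

open Cfsg Cfsg.Agent.H05 Cfsg.Agent.H13 Cfsg.Agent.H21 Cfsg.Agent.H22
open scoped ComplexConjugate

universe u

variable {G : Type u} [Group G] [Finite G] {T : Sylow 2 G} {x y : G} {m : ℕ}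

namespace QData

variable (h : QData T x y m)
include h

/-- The normal subgroup cut out by the exceptional characters. -/
theorem exists_normal_M (hm3 : 3 ≤ m) :
    ∃ M : Subgroup G, M.Normal ∧ x ^ 2 ^ (m - 1) ∈ M ∧ x * x ∉ M ∧ ¬ commutator G ≤ M := by
  classical
  haveI : Fact (Nat.Prime 2) := ⟨Nat.prime_two⟩
  set z := x ^ 2 ^ (m - 1) with hzdef
  have hz : IsIsolatedInvolution z := h.isolated
  obtain ⟨χ₁, χ₂, h1, h2, hne, hdeg, hvan, hx2⟩ := h.exc_pair hm3
  have hevn : Even (2 ^ (m - 1)) := (Nat.even_pow.mpr ⟨even_two, by omega⟩)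
  have h4dvd : 4 ∣ 2 ^ (m - 1) := by
    obtain ⟨k, hk⟩ : ∃ k, m - 1 = k + 2 := ⟨m - 3, by omega⟩
    rw [hk, pow_add]
    exact Dvd.intro_left _ rfl
  -- vanishing on products
  have hprod : ∀ a b : G, IsConj a z → IsConj b z → 1 - χ₁.1 (a * b) + χ₂.1 (a * b) = 0 := by
    intro a b ha hb
    apply hvan
    obtain ⟨p, rfl⟩ := isConj_iff.mp ha.symm
    obtain ⟨q, rfl⟩ := isConj_iff.mp hb.symm
    have hodd := iso_odd hz p q
    intro hdvd
    have : Even (orderOf (p * z * p⁻¹ * (q * z * q⁻¹))) :=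
      even_iff_two_dvd.mpr ((even_iff_two_dvd.mp hevn).trans hdvd)
    exact (Nat.not_even_iff_odd.mpr hodd) this
  have hzvan : 1 - χ₁.1 z + χ₂.1 z = 0 := by
    apply hvan
    rw [hz.1]
    intro hdvd
    have := Nat.le_of_dvd (by norm_num) (h4dvd.trans hdvd)
    omega
  have hone : χ₁.1 1 = χ₂.1 1 + 1 := hdeg
  have hd₁ := irr_one_ne_zero' χ₁
  have hd₂ := irr_one_ne_zero' χ₂
  have hmom := moment_two_zero z (Finset.univ : Finset (Fin 3)) ![1, -1, 1]
    ![oneIrr G, χ₁, χ₂] (by
      intro a b ha hb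
      simp only [Fin.sum_univ_three, Matrix.cons_val_zero, Matrix.cons_val_one, Matrix.cons_val]
      have h5 : (oneIrr G).1 (a * b) = 1 := rfl
      rw [h5]
      linear_combination hprod a b ha hb)
  simp only [Fin.sum_univ_three, Matrix.cons_val_zero, Matrix.cons_val_one, Matrix.cons_val] at hmom
  have h6 : (oneIrr G).1 z = 1 := rfl
  have h7 : (oneIrr G).1 1 = 1 := rfl
  rw [h6, h7] at hmom
  set d₁ := χ₁.1 1 with hd₁def
  set d₂ := χ₂.1 1 with hd₂def
  set c₁ := χ₁.1 z with hc₁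
  set c₂ := χ₂.1 z with hc₂
  have h8 : (d₂ - c₂) ^ 2 = 0 := by
    have h9 : d₁ * d₂ - c₁ ^ 2 * d₂ + c₂ ^ 2 * d₁ = 0 := by
      field_simp at hmom
      linear_combination hmom
    have h10 : c₁ = 1 + c₂ := by linear_combination -hzvan
    rw [hone, h10] at h9
    linear_combination h9
  have h11 : c₂ = d₂ := by
    have := pow_eq_zero_iff (two_ne_zero) |>.mp h8
    linear_combination -this
  have h12 : c₁ = d₁ := by
    rw [hone, ← h11]
    linear_combination -hzvan
  -- the normal subgroup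
  set M : Subgroup G := charKer χ₁.1 (isCharacter_of_irr χ₁.2) ⊓ charKer χ₂.1 (isCharacter_of_irr χ₂.2) with hMdef
  haveI hMn : M.Normal := by
    rw [hMdef]; infer_instance
  have hzM : z ∈ M := ⟨h12, h11⟩
  have hvanM : ∀ t ∈ M, 1 - χ₁.1 t + χ₂.1 t = 0 := by
    rintro t ⟨ht1, ht2⟩
    have ht1' : χ₁.1 t = d₁ := ht1
    have ht2' : χ₂.1 t = d₂ := ht2
    rw [ht1', ht2', hone]
    ring
  have hxM : x * x ∉ M := by
    intro hmem
    have := hvanM _ hmem
    rw [hx2] at this
    norm_num at this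
  refine ⟨M, hMn, hzM, hxM, ?_⟩
  -- `χ₁` is not linear
  intro hcomm
  have hker : ∀ n ∈ commutator G, χ₁.1 n = χ₁.1 1 := by
    intro n hn
    exact (hcomm hn).1
  obtain ⟨χ', hχ', hcomp⟩ := exists_descend (commutator G) χ₁.2 hker
  have hab : ∀ a b : G ⧸ commutator G, a * b = b * a := by
    intro a b
    exact @mul_comm (Abelianization G) _ a b
  have hdeg1 := irr_degree_one_of_comm hab hχ'
  have h13 : χ' 1 = 1 := by
    rw [one_eq_charDegree (isCharacter_of_irr hχ'), hdeg1]
    simp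
  have h14 : χ₁.1 1 = χ' 1 := by
    rw [← hcomp]
    simp
  have h15 : d₂ = 0 := by
    have h16 : d₂ + 1 = 1 := by
      rw [← hone]
      exact h14.trans h13
    linear_combination h16
  exact hd₂ h15

/-- A normal subgroup `M` as in `exists_normal_M` has cyclic intersections with Sylow subgroups. -/
theorem inf_zpowers_of_M {M : Subgroup G} [M.Normal] (hxM : x * x ∉ M) {t : G}
    (ht : t ∈ (T : Subgroup G)) (htM : t ∈ M) : t ∈ Subgroup.zpowers x :=
  h.inf_le_zpowers_of_not_mem M hxM ht htM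

/-- All involutions are conjugate to `z`. -/
theorem involution_conj (t : G) (ho : orderOf t = 2) : IsConj (x ^ 2 ^ (m - 1)) t := by
  classical
  haveI : Fact (Nat.Prime 2) := ⟨Nat.prime_two⟩
  have hp : IsPGroup 2 (Subgroup.zpowers t) := by
    rw [IsPGroup.iff_card]
    exact ⟨1, by rw [Nat.card_zpowers, ho, pow_one]⟩
  obtain ⟨c, -, hc⟩ := exists_conj_le_sylow_of_le ⊤ _ T le_top le_top hp
  have h1 := hc t (Subgroup.mem_zpowers t)
  have h2 : orderOf (c * t * c⁻¹) = orderOf t :=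
    orderOf_injective (MulAut.conj c).toMonoidHom (MulEquiv.injective _) t
  have h3 := h.eq_z_of_order_two h1 (by rw [h2, ho])
  rw [← h3]
  exact (isConj_iff.mpr ⟨c, rfl⟩).symm

end QData

end Cfsg.Agent.H15
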